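import Cfsg.Agent.H92.QP.Commuting

/-! The ambient hypotheses, existence of partners. -/

set_option autoImplicit false

namespace Cfsg.Agent.H92.QP

open Cfsg LinearMap

variable {k : Type*} [Field k] {M : Type*} [AddCommGroup M] [Module k M]

/-- A group generated by quadratic families, whose union with its centraliser acts irreducibly. -/
structure Pair (G : Subgroup (LinearMap.GeneralLinearGroup k M)) : Prop where
  two : (2 : k) ≠ 0
  three : Nat.card k ≠ 3
  gen : Subgroup.closure (quadraticElements G) = G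
  irr : IsIrreducibleFor (G ⊔ Subgroup.centralizer (G : Set (LinearMap.GeneralLinearGroup k M)))

variable {G : Subgroup (LinearMap.GeneralLinearGroup k M)}

lemma pair_of_quadraticPair (hk2 : ringChar k ≠ 2) (hk3 : Nat.card k ≠ 3) (hG : IsQuadraticPair G) : Pair G :=
  ⟨two_ne_zero_of_ringChar hk2, hk3, hG.2, hG.1.1, fun W hW =>
    hG.1.2 W fun g hg => hW g (Subgroup.mem_sup_left hg)⟩

lemma mem_fixedSubmodule {H : Subgroup (LinearMap.GeneralLinearGroup k M)} {m : M} :
    m ∈ fixedSubmodule H ↔ ∀ g ∈ H, (g : Module.End k M) m = m := by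
  simp [fixedSubmodule, Submodule.mem_iInf, sub_eq_zero]

/-- An invariant subspace is trivial. -/
lemma Pair.invariant (hP : Pair G) {W : Submodule k M} (h1 : ∀ g ∈ G, ∀ w ∈ W, (g : Module.End k M) w ∈ W)
    (h2 : ∀ g ∈ Subgroup.centralizer (G : Set (LinearMap.GeneralLinearGroup k M)), ∀ w ∈ W, (g : Module.End k M) w ∈ W) :
    W = ⊥ ∨ W = ⊤ := by
  refine hP.irr.2 W fun g hg w hw => ?_
  have key : ∀ g ∈ G ⊔ Subgroup.centralizer (G : Set (LinearMap.GeneralLinearGroup k M)),
      (∀ w ∈ W, (g : Module.End k M) w ∈ W) ∧ ∀ w ∈ W, ((g⁻¹ : LinearMap.GeneralLinearGroup k M) : Module.End k M) w ∈ W := by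
    intro g hg
    rw [← Subgroup.closure_eq G, ← Subgroup.closure_eq (Subgroup.centralizer _), ← Subgroup.closure_union] at hg
    induction hg using Subgroup.closure_induction with
    | mem x hx =>
      rcases hx with hx | hx
      · exact ⟨h1 x hx, h1 _ (inv_mem hx)⟩
      · refine ⟨?_, ?_⟩
        · exact h2 x (by simpa [Subgroup.closure_eq] using hx)
        · exact h2 _ (inv_mem (by simpa [Subgroup.closure_eq] using hx))
    | one => simp
    | mul x y _ _ ihx ihy =>
      refine ⟨fun w hw => ?_, fun w hw => ?_⟩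
      · rw [Units.val_mul, Module.End.mul_apply]; exact ihx.1 _ (ihy.1 w hw)
      · rw [mul_inv_rev, Units.val_mul, Module.End.mul_apply]; exact ihy.2 _ (ihx.2 w hw)
    | inv x _ ih => exact ⟨ih.2, by rw [inv_inv]; exact ih.1⟩
  exact (key g hg).1 w hw

variable [FiniteDimensional k M]

omit [FiniteDimensional k M] in
/-- A unipotent group fixes a non-zero vector. -/
lemma fixed_ne_bot {U : Subgroup (LinearMap.GeneralLinearGroup k M)} (hM : ∃ m : M, m ≠ 0) (hU : IsUnipotentOn U) :
    fixedSubmodule U ≠ ⊥ := by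
  classical
  obtain ⟨n, hn⟩ := isUnipotentOn_iff.1 hU
  intro hbot
  have key : ∀ j ≤ n, augSpan U ^ (n - j) = ⊥ := by
    intro j hj
    induction j with
    | zero => simpa using hn
    | succ j ih =>
      rw [eq_bot_iff]
      intro a ha
      rw [Submodule.mem_bot]
      ext m
      have hfix : a m ∈ fixedSubmodule U := mem_fixedSubmodule.2 fun g hg => by
        have := Submodule.mul_mem_mul (sub1_mem_augSpan hg) ha
        rw [← pow_succ', show n - (j + 1) + 1 = n - j by omega, ih (by omega), Submodule.mem_bot] at this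
        have := LinearMap.congr_fun this m
        simpa [sub1, sub_eq_zero] using this
      rw [hbot, Submodule.mem_bot] at hfix
      simpa using hfix
  have h0 := key n le_rfl
  rw [Nat.sub_self, pow_zero] at h0
  have : (1 : Module.End k M) ∈ (⊥ : Submodule k (Module.End k M)) := h0 ▸ Submodule.one_le.1 le_rfl
  obtain ⟨m, hm⟩ := hM
  exact hm (LinearMap.congr_fun ((Submodule.mem_bot k).1 this) m)

/-- There are no non-trivial unipotent normal subgroups. -/
lemma Pair.unipotent_normal (hP : Pair G) {U : Subgroup (LinearMap.GeneralLinearGroup k M)} (hUG : U ≤ G)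
    (hn : ∀ g ∈ G, conjBy U g = U) (hU : IsUnipotentOn U) : U = ⊥ := by
  have hinv : ∀ g, conjBy U g = U → ∀ w ∈ fixedSubmodule U, (g : Module.End k M) w ∈ fixedSubmodule U := by
    intro g hg w hw
    rw [mem_fixedSubmodule] at hw ⊢
    intro x hx
    have hx' : g⁻¹ * x * g ∈ U := mem_conjBy.1 (hg.symm ▸ hx)
    have := congrArg (fun v => (g : Module.End k M) v) (hw _ hx')
    simpa [Units.val_mul, ← Module.End.mul_apply, ← mul_assoc] using this
  rcases hP.invariant (fun g hg => hinv g (hn g hg)) (fun g hg => hinv g (centralizer_conjBy hg hUG)) with h | h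
  · exact absurd h (fixed_ne_bot hP.irr.1 hU)
  · rw [Subgroup.eq_bot_iff_forall]
    intro g hg
    apply Units.ext
    ext m
    exact mem_fixedSubmodule.1 (h ▸ Submodule.mem_top : m ∈ fixedSubmodule U) g hg

/-- Every minimal family has a partner. -/
lemma Pair.exists_partner (hP : Pair G) {s : Module.End k M} (hs : MinFam G s) :
    ∃ t, MinFam G t ∧ Nn s t := by
  by_contra hcon
  push Not at hcon
  set W : Set (Subgroup (LinearMap.GeneralLinearGroup k M)) := {A | ∃ g ∈ G, A = eg G (conjEnd g s)} with hW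
  have hWG : ∀ A ∈ W, A ≤ G := by
    rintro _ ⟨g, hg, rfl⟩; exact eg_le (hs.conj hg).1.1
  have hWW : ∀ A ∈ W, ∀ B ∈ W, IsUnipotentOn (A ⊔ B) := by
    rintro _ ⟨g, hg, rfl⟩ _ ⟨g', hg', rfl⟩
    refine isUnipotentOn_of_not_nn hP.two hP.three ?_ (hs.conj hg) (hs.conj hg')
    intro hn
    refine hcon (conjEnd (g⁻¹ * g') s) (hs.conj (mul_mem (inv_mem hg) hg')) ?_
    intro e
    apply hn
    have : conjEnd g (s * conjEnd (g⁻¹ * g') s * s) = 0 := by rw [e, conjEnd_zero]
    rw [← conjEnd_mul, ← conjEnd_mul, conjEnd_conjEnd, mul_inv_cancel_left] at this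
    exact this
  have hWc : ∀ A ∈ W, ∀ g ∈ G, conjBy A g ∈ W := by
    rintro _ ⟨g', hg', rfl⟩ g hg
    exact ⟨g * g', mul_mem hg hg', by rw [conjBy_eg (hs.conj hg').1.1 hg, conjEnd_conjEnd]⟩
  have h0 := hP.unipotent_normal (iSup₂_le hWG) (fun g hg => conjBy_biSup hWc hg)
    (isUnipotentOn_family hWG hWW hWc)
  have hle : eg G s ≤ ⊥ := h0 ▸ le_iSup₂ (f := fun A (_ : A ∈ W) => A) (eg G s) ⟨1, one_mem G, by rw [conjEnd_one]⟩
  exact eg_ne_bot hs.1 hs.2.1 (le_bot_iff.1 hle)

end Cfsg.Agent.H92.QP
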