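import Cfsg.Agent.H92.QP.Quad

/-! Translation between the frozen definitions and operators; unipotent subgroups from vanishing triple products. -/

set_option autoImplicit false

namespace Cfsg.Agent.H92.QP

open Cfsg

variable {k : Type*} [Field k] {M : Type*} [AddCommGroup M] [Module k M]
  {G : Subgroup (LinearMap.GeneralLinearGroup k M)}

lemma ex_sub_one {σ : LinearMap.GeneralLinearGroup k M}
    (h : ((σ : Module.End k M) - 1) * ((σ : Module.End k M) - 1) = 0) : ex ((σ : Module.End k M) - 1) = σ := by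
  apply Units.ext
  rw [ex_val h, add_sub_cancel]

lemma scalarFamily_eq {σ : LinearMap.GeneralLinearGroup k M}
    (h : ((σ : Module.End k M) - 1) * ((σ : Module.End k M) - 1) = 0) :
    scalarFamily σ = Set.range fun c : k => ex (c • ((σ : Module.End k M) - 1)) := by
  ext τ
  constructor
  · rintro ⟨c, hc⟩
    exact ⟨c, Units.ext (by rw [ex_val (smul_sq h c)]; exact hc.symm)⟩
  · rintro ⟨c, rfl⟩
    exact ⟨c, ex_val (smul_sq h c)⟩

lemma mem_quadraticElements {σ : LinearMap.GeneralLinearGroup k M} :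
    σ ∈ quadraticElements G ↔ Fam' G ((σ : Module.End k M) - 1) ∧ (σ : Module.End k M) - 1 ≠ 0 := by
  constructor
  · rintro ⟨-, ⟨h1, h2⟩, h3⟩
    rw [scalarFamily_eq h1] at h3
    exact ⟨⟨h1, fun c => h3 ⟨c, rfl⟩⟩, h2⟩
  · rintro ⟨⟨h1, h3⟩, h2⟩
    refine ⟨?_, ⟨h1, h2⟩, ?_⟩
    · have := h3 1
      rwa [one_smul, ex_sub_one h1] at this
    · rw [scalarFamily_eq h1]
      rintro _ ⟨c, rfl⟩
      exact h3 c

lemma ex_mem_quadraticElements {x : Module.End k M} (h : Fam' G x) (h0 : x ≠ 0) :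
    ex x ∈ quadraticElements G := by
  rw [mem_quadraticElements, ex_val h.1, add_sub_cancel_left]
  exact ⟨h, h0⟩

lemma mem_minimalQuadraticElements [FiniteDimensional k M] {σ : LinearMap.GeneralLinearGroup k M} :
    σ ∈ minimalQuadraticElements G ↔ MinFam G ((σ : Module.End k M) - 1) := by
  constructor
  · rintro ⟨h, hmin⟩
    obtain ⟨h1, h2⟩ := mem_quadraticElements.1 h
    refine ⟨h1, h2, fun y hy hy0 => ?_⟩
    have := hmin (ex y) (ex_mem_quadraticElements hy hy0)
    have e : ((ex y : LinearMap.GeneralLinearGroup k M) : M →ₗ[k] M) - 1 = y := by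
      rw [show ((ex y : LinearMap.GeneralLinearGroup k M) : M →ₗ[k] M) = 1 + y from ex_val hy.1, add_sub_cancel_left]
    rw [commutatorRank, commutatorRank, e] at this
    exact this
  · rintro ⟨h1, h2, hmin⟩
    refine ⟨mem_quadraticElements.2 ⟨h1, h2⟩, fun τ hτ => ?_⟩
    obtain ⟨a, b⟩ := mem_quadraticElements.1 hτ
    exact hmin _ a b

/-- A group generated by `1 + x`, where all triple products vanish, acts unipotently. -/
lemma isUnipotentOn_of_triple {X : Set (Module.End k M)} (hX : ∀ a ∈ X, ∀ b ∈ X, ∀ c ∈ X, a * b * c = 0)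
    (hneg : ∀ a ∈ X, -a ∈ X) (hsq : ∀ a ∈ X, a * a = 0) {H : Subgroup (LinearMap.GeneralLinearGroup k M)}
    (hH : H ≤ Subgroup.closure (ex '' X)) : IsUnipotentOn H := by
  set N := Submodule.span k X with hN
  set W := N ⊔ N * N with hW
  have h3 : N * N * N = ⊥ := by
    rw [eq_bot_iff, hN, Submodule.span_mul_span, Submodule.span_mul_span, Submodule.span_le]
    rintro _ ⟨_, ⟨a, ha, b, hb, rfl⟩, c, hc, rfl⟩
    simp [hX a ha b hb c hc]
  have hWW : W * W ≤ N * N := by
    have h4 : N * N * (N * N) = ⊥ := by rw [← mul_assoc, h3, Submodule.bot_mul]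
    simp only [hW, Submodule.sup_mul, Submodule.mul_sup, h4, h3, ← mul_assoc N N N, le_rfl, sup_le_iff, bot_le,
      and_self]
  have hW3 : W * W * W = ⊥ := by
    rw [eq_bot_iff]
    refine (mul_le_mul' hWW le_rfl).trans ?_
    rw [hW, Submodule.mul_sup, ← mul_assoc, h3, Submodule.bot_mul, sup_bot_eq]
  let S : Subgroup (LinearMap.GeneralLinearGroup k M) :=
    { carrier := {g | (g : Module.End k M) - 1 ∈ W ∧
        ((g⁻¹ : LinearMap.GeneralLinearGroup k M) : Module.End k M) - 1 ∈ W}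
      one_mem' := by simp
      mul_mem' := by
        rintro g h ⟨g1, g2⟩ ⟨h1, h2⟩
        have key : ∀ a b : Module.End k M, a - 1 ∈ W → b - 1 ∈ W → a * b - 1 ∈ W := fun a b ha hb => by
          rw [show a * b - 1 = (a - 1) * (b - 1) + (a - 1) + (b - 1) by noncomm_ring]
          exact add_mem (add_mem (Submodule.mem_sup_right (hWW (Submodule.mul_mem_mul ha hb))) ha) hb
        exact ⟨key _ _ g1 h1, by rw [mul_inv_rev, Units.val_mul]; exact key _ _ h2 g2⟩
      inv_mem' := by
        rintro g ⟨g1, g2⟩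
        exact ⟨g2, by rwa [inv_inv]⟩ }
  have hle : H ≤ S := by
    refine hH.trans ?_
    rw [Subgroup.closure_le]
    rintro _ ⟨x, hx, rfl⟩
    refine ⟨?_, ?_⟩
    · rw [ex_val (hsq x hx), add_sub_cancel_left]
      exact Submodule.mem_sup_left (Submodule.subset_span hx)
    · rw [ex_inv (hsq x hx), ex_val (by simpa using hsq x hx), add_sub_cancel_left]
      exact Submodule.mem_sup_left (Submodule.subset_span (hneg x hx))
  refine ⟨3, fun l hl hlen => ?_⟩
  match l, hlen with
  | [a, b, c], _ =>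
    have := Submodule.mul_mem_mul (Submodule.mul_mem_mul (hle (hl a (by simp))).1 (hle (hl b (by simp))).1)
      (hle (hl c (by simp))).1
    rw [hW3, Submodule.mem_bot] at this
    simpa [mul_assoc] using this

/-- A pair with vanishing alternating triple products generates a unipotent group. -/
lemma isUnipotentOn_pair {s t : Module.End k M} (hs : s * s = 0) (ht : t * t = 0) (h1 : s * t * s = 0)
    (h2 : t * s * t = 0) {H : Subgroup (LinearMap.GeneralLinearGroup k M)}
    (hH : H ≤ Subgroup.closure (Set.range (fun c : k => ex (c • s)) ∪ Set.range (fun c : k => ex (c • t)))) :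
    IsUnipotentOn H := by
  refine isUnipotentOn_of_triple (X := Set.range (fun c : k => c • s) ∪ Set.range (fun c : k => c • t)) ?_ ?_ ?_
    (hH.trans (le_of_eq ?_))
  · rintro _ (⟨a, rfl⟩ | ⟨a, rfl⟩) _ (⟨b, rfl⟩ | ⟨b, rfl⟩) _ (⟨c, rfl⟩ | ⟨c, rfl⟩) <;>
      simp [smul_mul_assoc, mul_smul_comm, hs, ht, h1, h2, mul_assoc _ s s, mul_assoc _ t t]
  · rintro _ (⟨a, rfl⟩ | ⟨a, rfl⟩)
    · exact Or.inl ⟨-a, neg_smul a s⟩
    · exact Or.inr ⟨-a, neg_smul a t⟩
  · rintro _ (⟨a, rfl⟩ | ⟨a, rfl⟩) <;> exact smul_sq (by assumption) a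
  · congr 1
    rw [Set.image_union, ← Set.range_comp, ← Set.range_comp]
    rfl

lemma two_ne_zero_of_ringChar (hk2 : ringChar k ≠ 2) : (2 : k) ≠ 0 := Ring.two_ne_zero hk2

end Cfsg.Agent.H92.QP
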