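import Cfsg.Agent.H92.QP.Members

/-! Commutators of two minimal families forming a unipotent pair. -/

set_option autoImplicit false

namespace Cfsg.Agent.H92.QP

open Cfsg LinearMap

variable {k : Type*} [Field k] {M : Type*} [AddCommGroup M] [Module k M]
  {G : Subgroup (LinearMap.GeneralLinearGroup k M)}

/-- The bracket of two operators. -/
def brk (s t : Module.End k M) : Module.End k M := s * t - t * s

lemma brk_swap (s t : Module.End k M) : brk t s = -brk s t := by simp [brk]

lemma brk_add_right (s a b : Module.End k M) : brk s (a + b) = brk s a + brk s b := by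
  simp [brk, mul_add, add_mul]; abel

lemma brk_smul_right (s a : Module.End k M) (c : k) : brk s (c • a) = c • brk s a := by
  simp [brk, smul_sub]

lemma brk_smul_left (s a : Module.End k M) (c : k) : brk (c • s) a = c • brk s a := by
  simp [brk, smul_sub]

lemma commute_ex_iff {a b : Module.End k M} (ha : a * a = 0) (hb : b * b = 0) :
    ex a * ex b = ex b * ex a ↔ a * b = b * a := by
  rw [Units.ext_iff, Units.val_mul, Units.val_mul, ex_val ha, ex_val hb]
  constructor
  · intro h
    simp only [add_mul, mul_add, one_mul, mul_one] at h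
    have := sub_eq_zero.2 h
    rw [← sub_eq_zero]
    convert this using 1
    abel
  · intro h
    simp only [add_mul, mul_add, one_mul, mul_one, h]
    abel

lemma ex_bracket {s t : Module.End k M} (hs : s * s = 0) (ht : t * t = 0) (h1 : s * t * s = 0) (h2 : t * s * t = 0) :
    brk s t * brk s t = 0 ∧ ex s * ex t * (ex s)⁻¹ * (ex t)⁻¹ = ex (brk s t) := by
  have key : (s * t - t * s) * (s * t - t * s) = 0 := by
    simp only [sub_mul, mul_sub, ← mul_assoc]
    rw [h1, h2, mul_assoc t s s, hs, mul_assoc s t t, ht]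
    simp
  refine ⟨key, ?_⟩
  apply Units.ext
  have hv : (ex s * ex t * (ex s)⁻¹ : LinearMap.GeneralLinearGroup k M) = ex (conjEnd (ex s) t) :=
    QP.conj_ex _ ht
  have hc2 : conjEnd (ex s) t * conjEnd (ex s) t = 0 := by rw [conjEnd_mul, ht, conjEnd_zero]
  have hn : -t * -t = 0 := by rw [neg_mul_neg, ht]
  have hce : conjEnd (ex s) t = t + (s * t - t * s) := by
    have := conjEnd_ex hs (1 : k) t
    rwa [one_smul, one_smul, one_mul, one_smul, h1, sub_zero] at this
  rw [hv, Units.val_mul, ex_inv ht, ex_val hn, ex_val hc2, hce, brk, ex_val key]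
  simp only [add_mul, mul_add, one_mul, mul_one, mul_neg, ht, neg_zero, sub_mul, h2, mul_assoc s t t,
    mul_zero, sub_zero, zero_add, add_zero]
  abel

lemma range_mul_le (s t : Module.End k M) (h : t * s * t = 0) :
    LinearMap.range (s * t) ≤ LinearMap.range s ⊓ LinearMap.ker t := by
  refine le_inf (LinearMap.range_comp_le_range t s) ?_
  rw [← mul_eq_zero_iff_range_le_ker, ← mul_assoc, h]

variable [FiniteDimensional k M]

lemma rk_mul_add (t s : Module.End k M) :
    rk (t * s) + Module.finrank k ↥(LinearMap.range s ⊓ LinearMap.ker t) = rk s := by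
  have h := LinearMap.finrank_range_add_finrank_ker (LinearMap.domRestrict t (LinearMap.range s))
  rw [LinearMap.range_domRestrict, ← LinearMap.range_comp, LinearMap.ker_domRestrict] at h
  rw [rk, rk, Module.End.mul_eq_comp, ← h]
  congr 1
  refine (LinearEquiv.finrank_eq ?_).symm
  exact (Submodule.equivMapOfInjective (LinearMap.range s).subtype Subtype.val_injective _).trans
    (LinearEquiv.ofEq _ _ (by rw [Submodule.map_comap_subtype]))

lemma rk_brk_le {s t : Module.End k M} (h : t * s * t = 0) : rk (brk s t) ≤ rk s := by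
  have e1 : LinearMap.range (brk s t) ≤ LinearMap.range (s * t) ⊔ LinearMap.range (t * s) := by
    rintro _ ⟨m, rfl⟩
    exact sub_mem (Submodule.mem_sup_left ⟨m, rfl⟩) (Submodule.mem_sup_right ⟨m, rfl⟩)
  have e2 := Submodule.finrank_mono e1
  have e3 := Submodule.finrank_mono (range_mul_le s t h)
  have e4 := Submodule.finrank_add_le_finrank_add_finrank (LinearMap.range (s * t)) (LinearMap.range (t * s))
  have e5 := rk_mul_add t s
  simp only [rk] at *
  omega

lemma minFam_brk {s t : Module.End k M} (hs : MinFam G s) (ht : Fam' G t) (h1 : s * t * s = 0) (h2 : t * s * t = 0)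
    (hx : brk s t ≠ 0) : MinFam G (brk s t) :=
  hs.of_le (hs.1.bracket ht h1 h2) hx (rk_brk_le h2)

/-- The structure of a non-trivial bracket. -/
lemma brk_struct {s t : Module.End k M} (hs : MinFam G s) (ht : MinFam G t) (h1 : s * t * s = 0) (h2 : t * s * t = 0)
    (hx : brk s t ≠ 0) :
    LinearMap.range (brk s t) =
        (LinearMap.range s ⊓ LinearMap.ker t) ⊔ (LinearMap.range t ⊓ LinearMap.ker s) ∧
      (LinearMap.range s ⊓ LinearMap.ker t) ⊓ (LinearMap.range t ⊓ LinearMap.ker s) = ⊥ ∧
      LinearMap.ker (brk s t) = (LinearMap.ker t ⊔ LinearMap.range s) ⊓ (LinearMap.ker s ⊔ LinearMap.range t) := by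
  have hd : rk s ≤ rk (brk s t) := hs.2.2 _ (hs.1.bracket ht.1 h1 h2) hx
  have hst : rk s = rk t := le_antisymm (hs.2.2 _ ht.1 ht.2.1) (ht.2.2 _ hs.1 hs.2.1)
  have e1 : LinearMap.range (brk s t) ≤ LinearMap.range (s * t) ⊔ LinearMap.range (t * s) := by
    rintro _ ⟨m, rfl⟩
    exact sub_mem (Submodule.mem_sup_left ⟨m, rfl⟩) (Submodule.mem_sup_right ⟨m, rfl⟩)
  have f1 := Submodule.finrank_mono e1
  have f2 := Submodule.finrank_mono (range_mul_le s t h2)
  have f3 := Submodule.finrank_mono (range_mul_le t s h1)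
  have f4 := Submodule.finrank_sup_add_finrank_inf_eq (LinearMap.range (s * t)) (LinearMap.range (t * s))
  have f5 := rk_mul_add t s
  have f6 := rk_mul_add s t
  simp only [rk] at hd hst f5 f6
  have g1 : LinearMap.range (s * t) = LinearMap.range s ⊓ LinearMap.ker t :=
    Submodule.eq_of_le_of_finrank_le (range_mul_le s t h2) (by omega)
  have g2 : LinearMap.range (t * s) = LinearMap.range t ⊓ LinearMap.ker s :=
    Submodule.eq_of_le_of_finrank_le (range_mul_le t s h1) (by omega)
  have g3 : LinearMap.range (s * t) ⊓ LinearMap.range (t * s) = ⊥ :=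
    Submodule.finrank_eq_zero.1 (by omega)
  refine ⟨g1 ▸ g2 ▸ Submodule.eq_of_le_of_finrank_le e1 (by omega), g1 ▸ g2 ▸ g3, ?_⟩
  have g4 : LinearMap.ker (s * t) = LinearMap.ker t ⊔ LinearMap.range s := by
    refine (Submodule.eq_of_le_of_finrank_le ?_ ?_).symm
    · refine sup_le (LinearMap.ker_le_ker_comp t s) ?_
      rw [← mul_eq_zero_iff_range_le_ker, h1]
    · have a := LinearMap.finrank_range_add_finrank_ker (s * t)
      have b := LinearMap.finrank_range_add_finrank_ker t
      have c := Submodule.finrank_sup_add_finrank_inf_eq (LinearMap.ker t) (LinearMap.range s)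
      rw [inf_comm] at c
      rw [g1] at a
      omega
  have g5 : LinearMap.ker (t * s) = LinearMap.ker s ⊔ LinearMap.range t := by
    refine (Submodule.eq_of_le_of_finrank_le ?_ ?_).symm
    · refine sup_le (LinearMap.ker_le_ker_comp s t) ?_
      rw [← mul_eq_zero_iff_range_le_ker, h2]
    · have a := LinearMap.finrank_range_add_finrank_ker (t * s)
      have b := LinearMap.finrank_range_add_finrank_ker s
      have c := Submodule.finrank_sup_add_finrank_inf_eq (LinearMap.ker s) (LinearMap.range t)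
      rw [inf_comm] at c
      rw [g2] at a
      omega
  rw [← g4, ← g5]
  refine le_antisymm (fun m hm => ?_) (fun m hm => ?_)
  · have e : (s * t) m = (t * s) m := sub_eq_zero.1 (LinearMap.mem_ker.1 hm)
    have hm0 : (s * t) m ∈ LinearMap.range (s * t) ⊓ LinearMap.range (t * s) := ⟨⟨m, rfl⟩, ⟨m, e.symm⟩⟩
    rw [g3, Submodule.mem_bot] at hm0
    exact ⟨LinearMap.mem_ker.2 hm0, LinearMap.mem_ker.2 (e.symm.trans hm0)⟩
  · obtain ⟨a, b⟩ := hm
    rw [LinearMap.mem_ker, brk, LinearMap.sub_apply, LinearMap.mem_ker.1 a, LinearMap.mem_ker.1 b, sub_zero]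

variable (hk2 : (2 : k) ≠ 0) (hk : Nat.card k ≠ 3)
include hk2 hk

/-- Members of a commuting pair commute; members of a bracket pair have brackets in the same place. -/
lemma brk_mem {s t a b : Module.End k M} (hs : MinFam G s) (ht : MinFam G t) (hn : ¬ Nn s t)
    (ha : Mem G s a) (hb : Mem G t b) :
    Mem G (brk s t) (brk a b) ∧ (brk s t ≠ 0 → a ≠ 0 → b ≠ 0 → brk a b ≠ 0) := by
  have h1 := not_nn_mem hk2 hk hn hs ht (mem_self hs.1) (mem_self ht.1)
  have h2 := not_nn_mem hk2 hk (not_nn_symm hk2 hk hn hs ht) ht hs (mem_self ht.1) (mem_self hs.1)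
  have h1' := not_nn_mem hk2 hk hn hs ht ha hb
  have h2' := not_nn_mem hk2 hk (not_nn_symm hk2 hk hn hs ht) ht hs hb ha
  rcases eq_or_ne a 0 with rfl | ha0
  · simp [brk, mem_zero]
  rcases eq_or_ne b 0 with rfl | hb0
  · simp [brk, mem_zero]
  have hma := hs.of_mem ha ha0
  have hmb := ht.of_mem hb hb0
  have ra := hs.mem_range_eq ha ha0
  have rb := ht.mem_range_eq hb hb0
  have ka := hs.mem_ker_eq ha ha0
  have kb := ht.mem_ker_eq hb hb0
  have key : ∀ {s t a b : Module.End k M}, MinFam G s → MinFam G t → s * t * s = 0 → t * s * t = 0 →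
      a * b * a = 0 → b * a * b = 0 → LinearMap.range a = LinearMap.range s → LinearMap.range b = LinearMap.range t →
      LinearMap.ker a = LinearMap.ker s → LinearMap.ker b = LinearMap.ker t → brk s t ≠ 0 → brk a b ≠ 0 := by
    intro s t a b hs ht h1 h2 h1' h2' ra rb ka kb hx h0
    have e : a * b = b * a := sub_eq_zero.1 h0
    obtain ⟨-, hdis, -⟩ := brk_struct hs ht h1 h2 hx
    have hab : a * b = 0 := by
      rw [← LinearMap.range_eq_bot, eq_bot_iff, ← hdis]
      refine le_inf ?_ ?_
      · rw [← ra, ← kb]; exact range_mul_le a b h2'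
      · rw [e, ← rb, ← ka]; exact range_mul_le b a h1'
    have hba : b * a = 0 := e ▸ hab
    rw [mul_eq_zero_iff_range_le_ker] at hab hba
    rw [rb, ka, ← mul_eq_zero_iff_range_le_ker] at hab
    rw [ra, kb, ← mul_eq_zero_iff_range_le_ker] at hba
    exact hx (by rw [brk, hab, hba, sub_zero])
  refine ⟨⟨ha.1.bracket hb.1 h1' h2', ?_⟩, fun hx _ _ => key hs ht h1 h2 h1' h2' ra rb ka kb hx⟩
  rcases eq_or_ne (brk a b) 0 with h0 | h0
  · show LinearMap.range (brk a b) ≤ _ ∧ _ ≤ LinearMap.ker (brk a b)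
    simp [h0]
  have hx : brk s t ≠ 0 :=
    key hma hmb h1' h2' h1 h2 ra.symm rb.symm ka.symm kb.symm h0
  obtain ⟨r1, -, k1⟩ := brk_struct hs ht h1 h2 hx
  obtain ⟨r2, -, k2⟩ := brk_struct hma hmb h1' h2' h0
  show LinearMap.range (brk a b) ≤ _ ∧ _ ≤ LinearMap.ker (brk a b)
  rw [r1, k1, r2, k2, ra, rb, ka, kb]
  exact ⟨le_rfl, le_rfl⟩

lemma mem_commute {s t a b : Module.End k M} (hs : MinFam G s) (ht : MinFam G t) (hn : ¬ Nn s t)
    (hx : brk s t = 0) (ha : Mem G s a) (hb : Mem G t b) : a * b = b * a := by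
  have h := (brk_mem hk2 hk hs ht hn ha hb).1.2.1
  rw [hx, LinearMap.range_zero, le_bot_iff, LinearMap.range_eq_bot] at h
  exact sub_eq_zero.1 h

/-- A bracket lies in neither of the two subgroups. -/
lemma brk_not_mem {s t : Module.End k M} (hs : MinFam G s) (ht : MinFam G t) (hn : ¬ Nn s t)
    (hx : brk s t ≠ 0) : ¬ Mem G t (brk s t) := by
  intro hm
  have h1 := not_nn_mem hk2 hk hn hs ht (mem_self hs.1) (mem_self ht.1)
  have h2 := not_nn_mem hk2 hk (not_nn_symm hk2 hk hn hs ht) ht hs (mem_self ht.1) (mem_self hs.1)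
  obtain ⟨r, hd, kk⟩ := brk_struct hs ht h1 h2 hx
  have hr := ht.mem_range_eq hm hx
  have hkk := ht.mem_ker_eq hm hx
  -- `range s` is killed by the bracket, so by `t`
  have e1 : LinearMap.range s ≤ LinearMap.ker t := by
    rw [← hkk, kk]
    exact le_inf le_sup_right ((range_le_ker_of_sq hs.1.1).trans le_sup_left)
  have e2 : LinearMap.range s ⊓ LinearMap.ker t = ⊥ := by
    rw [eq_bot_iff, ← hd]
    refine le_inf le_rfl (le_inf ?_ (inf_le_left.trans (range_le_ker_of_sq hs.1.1)))
    rw [← hr, r]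
    exact le_sup_left
  rw [inf_eq_left.2 e1, LinearMap.range_eq_bot] at e2
  exact hs.2.1 e2

/-- The bracket centralises both families. -/
lemma brk_mul_zero {s t a y : Module.End k M} (hs : MinFam G s) (ht : MinFam G t) (hn : ¬ Nn s t)
    (ha : Mem G s a) (hy : Mem G (brk s t) y) : a * y = 0 ∧ y * a = 0 := by
  have h1 := not_nn_mem hk2 hk hn hs ht (mem_self hs.1) (mem_self ht.1)
  rw [mul_eq_zero_iff_range_le_ker, mul_eq_zero_iff_range_le_ker]
  refine ⟨hy.2.1.trans (le_trans ?_ ha.2.2), ha.2.1.trans (le_trans ?_ hy.2.2)⟩ <;>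
    rw [← mul_eq_zero_iff_range_le_ker, brk]
  · rw [mul_sub, ← mul_assoc, hs.1.1, zero_mul, ← mul_assoc, h1, sub_zero]
  · rw [sub_mul, mul_assoc t s s, hs.1.1, mul_zero, h1, sub_zero]

end Cfsg.Agent.H92.QP
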