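import Cfsg.Agent.H92.QP.Brk

/-! Criteria for two minimal families to commute. -/

set_option autoImplicit false

namespace Cfsg.Agent.H92.QP

open Cfsg LinearMap
open scoped commutatorElement

variable {k : Type*} [Field k] {M : Type*} [AddCommGroup M] [Module k M]
  {G : Subgroup (LinearMap.GeneralLinearGroup k M)} [FiniteDimensional k M]
  (hk2 : (2 : k) ≠ 0) (hk : Nat.card k ≠ 3)
include hk2 hk

lemma eg_commutator_eq_bot {s t : Module.End k M} (hs : MinFam G s) (ht : MinFam G t) (hn : ¬ Nn s t)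
    (hx : brk s t = 0) : ⁅eg G s, eg G t⁆ = ⊥ := by
  refine commutator_eq_bot_of_commute fun e he f hf => ?_
  obtain ⟨a, ha, rfl⟩ := (mem_eg hs.1.1).1 he
  obtain ⟨b, hb, rfl⟩ := (mem_eg ht.1.1).1 hf
  exact (commute_ex_iff ha.1.1 hb.1.1).2 (mem_commute hk2 hk hs ht hn hx ha hb)

/-- One commuting pair of non-trivial members makes the subgroups commute. -/
lemma commuting_of_pair {s t a b : Module.End k M} (hs : MinFam G s) (ht : MinFam G t) (ha : Mem G s a) (hb : Mem G t b)
    (ha0 : a ≠ 0) (hb0 : b ≠ 0) (h : a * b = b * a) : ¬ Nn s t ∧ brk s t = 0 := by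
  have hn : ¬ Nn s t := fun hn => hn.of_mem hk2 hk hs ht ha hb ha0 hb0
    (by rw [h, mul_assoc, ha.1.1, mul_zero])
  exact ⟨hn, by_contra fun hx => (brk_mem hk2 hk hs ht hn ha hb).2 hx ha0 hb0 (sub_eq_zero.2 h)⟩

/-- A member normalising the other subgroup commutes with it. -/
lemma commuting_of_normalize {s t a : Module.End k M} (hs : MinFam G s) (ht : MinFam G t) (ha : Mem G s a)
    (ha0 : a ≠ 0) (h : ex a ∈ Subgroup.normalizer (eg G t : Set (LinearMap.GeneralLinearGroup k M))) :
    ¬ Nn s t ∧ brk s t = 0 := by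
  have hc : ex a * ex t * (ex a)⁻¹ ∈ eg G t :=
    (Subgroup.mem_normalizer_iff.1 h _).1 (ex_mem_eg ht.1.1 (mem_self ht.1))
  rw [QP.conj_ex _ ht.1.1] at hc
  obtain ⟨y, hy, e⟩ := (mem_eg ht.1.1).1 hc
  have e' := ex_inj hy.1.1 (by rw [conjEnd_mul, ht.1.1, conjEnd_zero]) e
  have hce : conjEnd (ex a) t = t + (a * t - t * a) - a * t * a := by
    have := conjEnd_ex ha.1.1 (1 : k) t
    rwa [one_smul, one_smul, one_mul, one_smul] at this
  by_cases hn : Nn s t
  · exfalso
    have hn' := hn.of_mem hk2 hk hs ht ha (mem_self ht.1) ha0 ht.2.1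
    apply hn'
    have key : a * t = 0 := by
      rw [← LinearMap.range_eq_bot, eq_bot_iff, ← ((hn.disjoint hk2 hk hs ht).2)]
      rintro _ ⟨m, rfl⟩
      refine ⟨?_, ?_⟩
      · have h1 : (conjEnd (ex a) t) (ex a |>.val m) = t m + (a * t) m := by
          have : conjEnd (ex a) t * (ex a : Module.End k M) = (ex a : Module.End k M) * t := by
            simp [conjEnd, mul_assoc]
          have := LinearMap.congr_fun this m
          rw [ex_val ha.1.1] at this ⊢
          simpa [add_mul, mul_add] using this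
        have h2 : t m + (a * t) m ∈ LinearMap.range t := h1 ▸ hy.2.1 (e' ▸ ⟨_, rfl⟩)
        simpa using sub_mem h2 (LinearMap.mem_range_self t m)
      · have h3 : LinearMap.range a ≤ LinearMap.ker s := ha.2.1.trans (range_le_ker_of_sq hs.1.1)
        exact h3 ⟨t m, rfl⟩
    rw [key, zero_mul]
  refine ⟨hn, by_contra fun hx => ?_⟩
  have hata : a * t * a = 0 := not_nn_mem hk2 hk hn hs ht ha (mem_self ht.1)
  have hyt : y = t + brk a t := by rw [e', hce, hata, sub_zero, brk]
  have hmem : Mem G t (brk a t) := by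
    have := hy.add ht.1.1 (mem_self ht.1).neg
    rwa [hyt, add_right_comm, add_neg_cancel, zero_add] at this
  have ha' := hs.of_mem ha ha0
  have hn' : ¬ Nn a t := fun h' => h' hata
  exact brk_not_mem hk2 hk ha' ht hn' ((brk_mem hk2 hk hs ht hn ha (mem_self ht.1)).2 hx ha0 ht.2.1) hmem

end Cfsg.Agent.H92.QP
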