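import Cfsg.Agent.H92.QP.Root

/-! The components, their groups, and their invariance under the whole group. -/

set_option autoImplicit false

namespace Cfsg.Agent.H92.QP

open Cfsg LinearMap
open scoped MatrixGroups commutatorElement

variable {k : Type*} [Field k] {M : Type*} [AddCommGroup M] [Module k M]
  {G : Subgroup (LinearMap.GeneralLinearGroup k M)}

variable (G) in
/-- The group generated by the component of `s`. -/
noncomputable def cgrp (s : Module.End k M) : Subgroup (LinearMap.GeneralLinearGroup k M) :=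
  ⨆ y ∈ {y | Conn G s y}, eg G y

variable (G) in
/-- The component of `s` as a set of subgroups. -/
def part (s : Module.End k M) : Set (Subgroup (LinearMap.GeneralLinearGroup k M)) :=
  {A | ∃ y, Conn G s y ∧ A = eg G y}

lemma cgrp_eq (s : Module.End k M) : cgrp G s = ⨆ A ∈ part G s, A := by
  refine le_antisymm (iSup₂_le fun y hy => ?_) (iSup₂_le ?_)
  · exact le_iSup₂ (f := fun A (_ : A ∈ part G s) => A) _ ⟨y, hy, rfl⟩
  · rintro _ ⟨y, hy, rfl⟩
    exact le_iSup₂ (f := fun y (_ : y ∈ {y | Conn G s y}) => eg G y) y hy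

lemma eg_le_cgrp {s y : Module.End k M} (h : Conn G s y) : eg G y ≤ cgrp G s :=
  le_iSup₂ (f := fun y (_ : y ∈ {y | Conn G s y}) => eg G y) y h

variable [FiniteDimensional k M]

lemma cgrp_le {s : Module.End k M} (hs : MinFam G s) : cgrp G s ≤ G :=
  iSup₂_le fun _ hy => eg_le (Conn.minFam hy hs).1.1

lemma part_subset {s : Module.End k M} (hs : MinFam G s) : part G s ⊆ quadraticRootSubgroups G := by
  rintro _ ⟨y, hy, rfl⟩
  exact eg_mem_roots (Conn.minFam hy hs)

variable (hP : Pair G)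
include hP

lemma Pair.commute_of_not_conn {s t : Module.End k M} (hs : MinFam G s) (ht : MinFam G t) (h : ¬ Conn G s t) :
    ¬ Nn s t ∧ brk s t = 0 := by
  have hn : ¬ Nn s t := fun hn => h (Relation.ReflTransGen.single ⟨hs, ht, hn⟩)
  exact ⟨hn, by_contra fun hx => h (hP.conn_of_brk hs ht hn hx)⟩

lemma Pair.cgrp_commute {s t : Module.End k M} (hs : MinFam G s) (ht : MinFam G t) (h : ¬ Conn G s t) :
    ⁅cgrp G s, cgrp G t⁆ = ⊥ := by
  have key : ∀ y, Conn G s y → ∀ z, Conn G t z → eg G y ≤ Subgroup.centralizer (eg G z : Set _) := by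
    intro y hy z hz a ha
    rw [Subgroup.mem_centralizer_iff]
    intro b hb
    have hny : ¬ Conn G y z := fun e => h ((hy.trans e).trans (hP.conn_symm hz))
    obtain ⟨h1, h2⟩ := hP.commute_of_not_conn (hy.minFam hs) (hz.minFam ht) hny
    exact (commute_of_commutator_eq_bot (eg_commutator_eq_bot hP.two hP.three (hy.minFam hs) (hz.minFam ht) h1 h2) ha hb).symm
  refine commutator_eq_bot_of_commute fun a ha b hb => ?_
  have h1 : cgrp G s ≤ Subgroup.centralizer (cgrp G t : Set _) := iSup₂_le fun y hy => by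
    rw [Subgroup.le_centralizer_iff]
    exact iSup₂_le fun z hz => by rw [Subgroup.le_centralizer_iff]; exact key y hy z hz
  exact (Subgroup.mem_centralizer_iff.1 (h1 ha) b hb).symm

/-- Every quadratic family fixes each component. -/
lemma Pair.conn_conj_fam {r s : Module.End k M} (hr : Fam' G r) (hs : MinFam G s) (c : k) :
    Conn G s (conjEnd (ex (c • r)) s) := by
  obtain ⟨v, hv, hvn⟩ := hP.exists_partner hs
  have hadd : ∀ a b : k, conjEnd (ex ((a + b) • r)) s = conjEnd (ex (a • r)) (conjEnd (ex (b • r)) s) := by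
    intro a b
    have h0 : ∀ a b : k, a • r * b • r = 0 := fun a b => by
      rw [smul_mul_assoc, mul_smul_comm, hr.1, smul_zero, smul_zero]
    rw [conjEnd_conjEnd, add_smul, ex_add (smul_sq hr.1 a) (smul_sq hr.1 b) (h0 a b) (h0 b a)]
  have hM : ∀ a : k, MinFam G (conjEnd (ex (a • r)) s) := fun a => hs.conj (hr.2 a)
  have hcl : ∀ a b : k, Conn G s (conjEnd (ex (a • r)) s) → Conn G s (conjEnd (ex (b • r)) s) →
      Conn G s (conjEnd (ex ((a + b) • r)) s) := by
    intro a b ha hb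
    rw [hadd]
    exact ha.trans (hb.conj (hr.2 a))
  have hneg : ∀ a : k, Conn G s (conjEnd (ex (a • r)) s) → Conn G s (conjEnd (ex ((-a) • r)) s) := by
    intro a ha
    have := ha.conj (hr.2 (-a))
    rw [← hadd, neg_add_cancel, zero_smul, ex_zero, conjEnd_one] at this
    exact hP.conn_symm this
  set φ0 := brk v s with hφ0
  set φ1 := brk v (r * s - s * r) with hφ1
  set φ2 := brk v (r * s * r) with hφ2
  have hφ : ∀ a : k, brk v (conjEnd (ex (a • r)) s) = φ0 + a • φ1 - (a * a) • φ2 := by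
    intro a
    rw [conjEnd_ex hr.1, hφ0, hφ1, hφ2]
    simp only [brk, mul_add, add_mul, mul_sub, sub_mul, smul_mul_assoc, mul_smul_comm, smul_sub]
    abel
  have hroot : ∀ a : k, ¬ Conn G s (conjEnd (ex (a • r)) s) → φ0 + a • φ1 - (a * a) • φ2 = 0 := by
    intro a ha
    rw [← hφ]
    refine (hP.commute_of_not_conn hv (hM a) fun e => ha ?_).2
    exact (Relation.ReflTransGen.single ⟨hs, hv, hvn⟩).trans e
  have hφne : φ0 ≠ 0 := fun e => (hvn.symm hP.two hP.three hs hv)
    (by rw [sub_eq_zero.1 e, mul_assoc, hv.1.1, mul_zero])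
  by_contra hb
  have hb' : ¬ Conn G s (conjEnd (ex ((-c) • r)) s) := fun e => hb (by simpa using hneg _ e)
  have e1 := hroot c hb
  have e2 := hroot (-c) hb'
  have hc0 : c ≠ 0 := fun e => hb (by rw [e, zero_smul, ex_zero, conjEnd_one]; exact Relation.ReflTransGen.refl)
  have f1 : φ1 = 0 := by
    have : (2 * c) • φ1 = 0 := by linear_combination (norm := module) e1 - e2
    exact (smul_eq_zero.1 this).resolve_left (mul_ne_zero hP.two hc0)
  have f0 : φ0 = (c * c) • φ2 := by
    rw [f1, smul_zero, add_zero, sub_eq_zero] at e1; exact e1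
  have fzero : ∀ a : k, ¬ Conn G s (conjEnd (ex ((a * c) • r)) s) → a * a = 1 := by
    intro a ha
    have e := hroot _ ha
    rw [f1, smul_zero, add_zero, show a * c * (a * c) = a * a * (c * c) by ring, mul_smul, ← f0] at e
    have : (1 - a * a) • φ0 = 0 := by rw [sub_smul, one_smul]; exact e
    exact (sub_eq_zero.1 ((smul_eq_zero.1 this).resolve_right hφne)).symm
  have shift : ∀ a : k, a * a ≠ 1 → (1 + a) * (1 + a) = 1 := by
    intro a ha
    refine fzero _ fun e => hb ?_
    have h' : Conn G s (conjEnd (ex ((a * c) • r)) s) := by_contra fun h => ha (fzero a h)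
    have := hcl _ _ e (hneg _ h')
    rwa [show (1 + a) * c + -(a * c) = c by ring] at this
  obtain ⟨a, ha0, ha1, ha2, -, -⟩ := exists_four hP.two hP.three
  have hsq : a * a ≠ 1 := fun e => (mul_self_eq_one_iff.1 e).elim ha1 ha2
  have g1 := shift a hsq
  have g2 := shift (-a) (by rwa [neg_mul_neg])
  apply mul_ne_zero (mul_ne_zero hP.two hP.two) ha0
  linear_combination g1 - g2

/-- The group fixes each component. -/
lemma Pair.conn_conj {g : LinearMap.GeneralLinearGroup k M} (hg : g ∈ G) {s : Module.End k M} (hs : MinFam G s) :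
    Conn G s (conjEnd g s) := by
  have key : g ∈ G ∧ ∀ y, MinFam G y → Conn G y (conjEnd g y) := by
    rw [← hP.gen] at hg
    induction hg using Subgroup.closure_induction with
    | mem σ hσ =>
      refine ⟨hσ.1, fun y hy => ?_⟩
      obtain ⟨h1, -⟩ := mem_quadraticElements.1 hσ
      have := hP.conn_conj_fam h1 hy 1
      rwa [one_smul, ex_sub_one h1.1] at this
    | one => exact ⟨one_mem G, fun y _ => by rw [conjEnd_one]; exact Relation.ReflTransGen.refl⟩
    | mul a b _ _ iha ihb =>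
      refine ⟨mul_mem iha.1 ihb.1, fun y hy => ?_⟩
      rw [← conjEnd_conjEnd]
      exact (ihb.2 y hy).trans (iha.2 _ (hy.conj ihb.1))
    | inv a _ iha =>
      refine ⟨inv_mem iha.1, fun y hy => ?_⟩
      have := iha.2 _ (hy.conj (inv_mem iha.1))
      rw [conjEnd_conjEnd, mul_inv_cancel, conjEnd_one] at this
      exact hP.conn_symm this
  exact key.2 s hs

lemma Pair.part_conj {s : Module.End k M} (hs : MinFam G s) {g : LinearMap.GeneralLinearGroup k M} (hg : g ∈ G)
    {A : Subgroup (LinearMap.GeneralLinearGroup k M)} (hA : A ∈ part G s) : conjBy A g ∈ part G s := by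
  obtain ⟨y, hy, rfl⟩ := hA
  exact ⟨conjEnd g y, hy.trans (hP.conn_conj hg (hy.minFam hs)), conjBy_eg (hy.minFam hs).1.1 hg⟩

lemma Pair.cgrp_normal {s : Module.End k M} (hs : MinFam G s) {g : LinearMap.GeneralLinearGroup k M} (hg : g ∈ G) :
    conjBy (cgrp G s) g = cgrp G s := by
  rw [cgrp_eq]
  exact conjBy_biSup (fun A hA g hg => hP.part_conj hs hg hA) hg

lemma Pair.part_disjoint {s t : Module.End k M} (hs : MinFam G s) (ht : MinFam G t) (h : ¬ Conn G s t) :
    Disjoint (part G s) (part G t) := by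
  rw [Set.disjoint_left]
  rintro _ ⟨y, hy, rfl⟩ ⟨z, hz, e⟩
  have hm := mem_of_eg_eq (hy.minFam hs) (hz.minFam ht) e
  exact h ((hy.trans (hP.conn_symm (hP.conn_mem (hz.minFam ht) hm (hy.minFam hs).2.1))).trans (hP.conn_symm hz))

/-- There are finitely many components. -/
lemma Pair.exists_reps : ∃ (n : ℕ) (rep : Fin n → Module.End k M), (∀ i, MinFam G (rep i)) ∧
    (∀ i j, i ≠ j → ¬ Conn G (rep i) (rep j)) ∧ ∀ s, MinFam G s → ∃ i, Conn G (rep i) s := by
  let S : Setoid {s : Module.End k M // MinFam G s} :=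
    ⟨fun a b => Conn G a.1 b.1, fun _ => Relation.ReflTransGen.refl, fun h => hP.conn_symm h, fun h h' => h.trans h'⟩
  have hli : LinearIndependent k (fun q : Quotient S => (q.out).1) := by
    classical
    rw [linearIndependent_iff']
    intro F g hsum q hq
    obtain ⟨v, hv, hvn⟩ := hP.exists_partner q.out.2
    let L : Module.End k M →ₗ[k] Module.End k M := LinearMap.mulLeft k v - LinearMap.mulRight k v
    have hL : ∀ y, L y = brk v y := fun y => rfl
    have h0 := congrArg L hsum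
    rw [map_sum, map_zero, Finset.sum_eq_single q] at h0
    · rw [map_smul, hL] at h0
      refine (smul_eq_zero.1 h0).resolve_right fun e => ?_
      exact hvn.symm hP.two hP.three q.out.2 hv (by rw [sub_eq_zero.1 e, mul_assoc, hv.1.1, mul_zero])
    · intro q' _ hne
      rw [map_smul, hL, (hP.commute_of_not_conn hv q'.out.2 fun e => hne ?_).2, smul_zero]
      have : Conn G q.out.1 q'.out.1 :=
        (Relation.ReflTransGen.single ⟨q.out.2, hv, hvn⟩).trans e
      rw [← q.out_eq, ← q'.out_eq]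
      exact (Quotient.sound (s := S) this).symm
    · exact fun h => absurd hq h
  haveI : Finite (Quotient S) := hli.finite
  obtain ⟨e⟩ := Finite.exists_equiv_fin (Quotient S) |>.choose_spec
  refine ⟨_, fun i => (e.symm i).out.1, fun i => (e.symm i).out.2, fun i j hij hc => hij ?_, fun s hs => ?_⟩
  · have := Quotient.sound (s := S) (a := (e.symm i).out) (b := (e.symm j).out) hc
    rw [Quotient.out_eq, Quotient.out_eq] at this
    exact e.symm.injective this
  · refine ⟨e (Quotient.mk S ⟨s, hs⟩), ?_⟩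
    simp only [Equiv.symm_apply_apply]
    exact Quotient.mk_out (s := S) ⟨s, hs⟩

omit hP in
lemma part_self (s : Module.End k M) : eg G s ∈ part G s := ⟨s, Relation.ReflTransGen.refl, rfl⟩

/-- The component as a set of root subgroups. -/
lemma Pair.part_root {s : Module.End k M} (hs : MinFam G s) :
    IsRootSubgroupSet ((fun A : Subgroup (LinearMap.GeneralLinearGroup k M) => A.subgroupOf (⨆ B ∈ part G s, B)) ''
      part G s) := by
  refine rootSet_subgroupOf ?_ ?_ ?_ ?_
  · rintro _ ⟨y, hy, rfl⟩ a ha b hb; exact eg_comm (hy.minFam hs).1.1 ha hb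
  · rintro _ ⟨y, hy, rfl⟩; exact eg_ne_bot (hy.minFam hs).1 (hy.minFam hs).2.1
  · intro A hA g hg
    rw [← cgrp_eq] at hg
    exact hP.part_conj hs (cgrp_le hs hg) hA
  · rintro _ ⟨y, hy, rfl⟩ _ ⟨z, hz, rfl⟩
    rcases hP.root_pair (hy.minFam hs) (hz.minFam hs) with h | h | h
    · exact Or.inl h.2.2
    · exact Or.inr (Or.inl h.2)
    · refine Or.inr (Or.inr ?_)
      obtain ⟨hn, hx, -, hc, h3, h4⟩ := h
      refine ⟨⟨brk y z, hz.trans (hP.conn_brk (hy.minFam hs) (hz.minFam hs) hn hx), ?_⟩, hc, h3, h4⟩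
      exact (hP.bracket_case (hy.minFam hs) (hz.minFam hs) hn hx).2.1

/-- Members of a component are conjugate inside it. -/
lemma Pair.part_conjugate {s : Module.End k M} (hs : MinFam G s) {y : Module.End k M} (hy : Conn G s y) :
    ∃ g ∈ cgrp G s, eg G y = conjBy (eg G s) g := by
  induction hy with
  | refl => exact ⟨1, one_mem _, (conjBy_one _).symm⟩
  | @tail b c hb e ih =>
    obtain ⟨g, hg, hb'⟩ := ih
    obtain ⟨hbm, hcm, hn⟩ := e
    obtain ⟨u, hu, hu0, h⟩ := hn.exists_sl2 hP.two hP.three hbm hcm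
    have hw : h.weyl hbm.2.1 ∈ cgrp G s := h.psi_mem_of hbm.2.1
      (fun a => eg_le_cgrp hb (ex_mem_eg hbm.1.1 ((mem_self hbm.1).smul a)))
      (fun a => eg_le_cgrp (hb.tail ⟨hbm, hcm, hn⟩) (ex_mem_eg hcm.1.1 (hu.smul a))) _
    refine ⟨h.weyl hbm.2.1 * g, mul_mem hw hg, ?_⟩
    rw [← conjBy_conjBy, ← hb', conjBy_weyl hP.two hP.three hbm hcm (mem_self hbm.1) hu hbm.2.1 hu0 h]

/-- A component group is perfect. -/
lemma Pair.cgrp_perfect {s : Module.End k M} (hs : MinFam G s) : ⁅cgrp G s, cgrp G s⁆ = cgrp G s := by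
  refine le_antisymm (Subgroup.commutator_le_self _) (iSup₂_le fun y hy g hg => ?_)
  have hym := Conn.minFam hy hs
  obtain ⟨a, ha, rfl⟩ := (mem_eg hym.1.1).1 hg
  rcases eq_or_ne a 0 with rfl | ha0
  · rw [ex_zero]; exact one_mem _
  obtain ⟨t, ht, hn⟩ := hP.exists_partner hym
  obtain ⟨u, hu, hu0, h⟩ := hn.partner_of_mem hP.two hP.three hym ht ha ha0
  obtain ⟨c, hc0, hc1, hc2, -, -⟩ := exists_four hP.two hP.three
  have hcc : c * c - 1 ≠ 0 := sub_ne_zero.2 fun e => (mul_self_eq_one_iff.1 e).elim hc1 hc2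
  have e := h.torus_commutator ha0 (Units.mk0 c hc0) (c * c - 1)⁻¹
  rw [Units.val_mk0, mul_inv_cancel₀ hcc, one_smul] at e
  rw [e, ← commutatorElement_def]
  refine Subgroup.commutator_mem_commutator (h.psi_mem_of ha0 (fun d => ?_) (fun d => ?_) _) ?_
  · exact eg_le_cgrp hy (ex_mem_eg hym.1.1 (ha.smul d))
  · exact eg_le_cgrp (hy.tail ⟨hym, ht, hn⟩) (ex_mem_eg ht.1.1 (hu.smul d))
  · exact eg_le_cgrp hy (ex_mem_eg hym.1.1 (ha.smul _))

/-- A normal subgroup of a component group is everything or central. -/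
lemma Pair.cgrp_normal_sub {s : Module.End k M} (hs : MinFam G s)
    {N : Subgroup (LinearMap.GeneralLinearGroup k M)} (hNH : N ≤ cgrp G s)
    (hN : ∀ g ∈ cgrp G s, conjBy N g = N) :
    N = cgrp G s ∨ ∀ n ∈ N, ∀ g ∈ cgrp G s, n * g = g * n := by
  have hnc : ∀ g ∈ cgrp G s, ∀ n ∈ N, g * n * g⁻¹ ∈ N := fun g hg n hn => hN g hg ▸ conj_mem_conjBy hn g
  by_cases hA : ∀ y, Conn G s y → ∀ n ∈ N, ¬ Nn y (conjEnd n y) ∧ brk y (conjEnd n y) = 0
  swap
  · left
    push Not at hA
    obtain ⟨y, hy, n, hn, hrel⟩ := hA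
    have hym := hy.minFam hs
    have hnG : n ∈ G := cgrp_le hs (hNH hn)
    have hy'm : MinFam G (conjEnd n y) := hym.conj hnG
    have hB : eg G (conjEnd n y) = conjBy (eg G y) n := (conjBy_eg hym.1.1 hnG).symm
    have hyle := eg_le_cgrp hy
    have hmem : ∀ b ∈ eg G (conjEnd n y), ∃ m ∈ N, ∃ a ∈ eg G y, b = m * a := by
      intro b hb
      rw [hB] at hb
      obtain ⟨a, ha, rfl⟩ := hb
      exact ⟨n * (a * n⁻¹ * a⁻¹), mul_mem hn (hnc a (hyle ha) _ (inv_mem hn)), a, ha, by simp [mul_assoc]⟩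
    -- one member lies in `N`
    obtain ⟨z, hz, hzN⟩ : ∃ z, Conn G s z ∧ eg G z ≤ N := by
      by_cases hn' : Nn y (conjEnd n y)
      · refine ⟨y, hy, fun g hg => ?_⟩
        obtain ⟨a, ha, rfl⟩ := (mem_eg hym.1.1).1 hg
        rcases eq_or_ne a 0 with rfl | ha0
        · rw [ex_zero]; exact one_mem _
        let C : Subgroup (LinearMap.GeneralLinearGroup k M) :=
          { carrier := {z | z ∈ cgrp G s ∧ ∀ b ∈ eg G y, z * b * z⁻¹ * b⁻¹ ∈ N}
            one_mem' := ⟨one_mem _, fun b _ => by simp [one_mem]⟩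
            mul_mem' := by
              rintro z w ⟨hz, hz'⟩ ⟨hw, hw'⟩
              refine ⟨mul_mem hz hw, fun b hb => ?_⟩
              have := mul_mem (hnc z hz _ (hw' b hb)) (hz' b hb)
              simpa [mul_assoc] using this
            inv_mem' := by
              rintro z ⟨hz, hz'⟩
              refine ⟨inv_mem hz, fun b hb => ?_⟩
              have := hnc z⁻¹ (inv_mem hz) _ (inv_mem (hz' b hb))
              simpa [mul_assoc] using this }
        obtain ⟨u, hu, hu0, h⟩ := hn'.partner_of_mem hP.two hP.three hym hy'm ha ha0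
        have hC : h.torus ha0 (Units.mk0 _ (Classical.choose_spec (exists_four hP.two hP.three)).1) ∈ C := by
          refine h.psi_mem_of ha0 (H := C) (fun d => ?_) (fun d => ?_) _
          · refine (⟨hyle (ex_mem_eg hym.1.1 (ha.smul d)), fun b hb => ?_⟩ : _ ∧ ∀ b ∈ eg G y, _)
            rw [eg_comm hym.1.1 (ex_mem_eg hym.1.1 (ha.smul d)) hb]; simp [mul_assoc, one_mem]
          · obtain ⟨m, hm, a', ha', e⟩ := hmem _ (ex_mem_eg hy'm.1.1 (hu.smul d))
            rw [e]
            refine (⟨mul_mem (hNH hm) (hyle ha'), fun b hb => ?_⟩ : _ ∧ ∀ b ∈ eg G y, _)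
            have e2 : m * a' * b * (m * a')⁻¹ * b⁻¹ = m * (b * m⁻¹ * b⁻¹) := by
              rw [mul_assoc m a' b, eg_comm hym.1.1 ha' hb]; simp [mul_assoc]
            rw [e2]
            exact mul_mem hm (hnc b (hyle hb) _ (inv_mem hm))
        obtain ⟨hc0, hc1, hc2, -, -⟩ := Classical.choose_spec (exists_four hP.two hP.three)
        set c := Classical.choose (exists_four hP.two hP.three)
        have hcc : c * c - 1 ≠ 0 := sub_ne_zero.2 fun e => (mul_self_eq_one_iff.1 e).elim hc1 hc2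
        have e := h.torus_commutator ha0 (Units.mk0 c hc0) (c * c - 1)⁻¹
        rw [Units.val_mk0, mul_inv_cancel₀ hcc, one_smul] at e
        rw [e]
        exact hC.2 _ (ex_mem_eg hym.1.1 (ha.smul _))
      · have hx : brk y (conjEnd n y) ≠ 0 := hrel hn'
        refine ⟨brk y (conjEnd n y), (hy.trans (hP.conn_conj hnG hym)).trans (hP.conn_brk hym hy'm hn' hx), ?_⟩
        rw [← (hP.bracket_case hym hy'm hn' hx).2.1, Subgroup.commutator_le]
        intro a ha b hb
        obtain ⟨m, hm, a', ha', rfl⟩ := hmem b hb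
        have e2 : ⁅a, m * a'⁆ = (a * m * a⁻¹) * m⁻¹ := by
          rw [commutatorElement_def, ← mul_assoc a m, mul_assoc (a * m) a', ← eg_comm hym.1.1 (inv_mem ha) ha']
          simp [mul_assoc]
        rw [e2]
        exact mul_mem (hnc a (hyle ha) m hm) (inv_mem hm)
    refine le_antisymm hNH (iSup₂_le fun w hw => ?_)
    have hzw : Conn G z w := (hP.conn_symm hz).trans hw
    obtain ⟨g, hg, e⟩ := hP.part_conjugate (hz.minFam hs) hzw
    have hg' : g ∈ cgrp G s := by
      refine (iSup₂_le fun v hv => ?_ : cgrp G z ≤ cgrp G s) hg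
      exact eg_le_cgrp (hz.trans hv)
    rw [e, ← hN g hg']
    exact conjBy_mono hzN g
  right
  -- all conjugates under `N` commute
  set H := cgrp G s
  let U : Module.End k M → Subgroup (LinearMap.GeneralLinearGroup k M) := fun y =>
    ⨆ A ∈ {A | ∃ n ∈ N, A = conjBy (eg G y) n}, A
  have hyU : ∀ y, eg G y ≤ U y := fun y =>
    le_iSup₂ (f := fun A (_ : A ∈ {A | ∃ n ∈ N, A = conjBy (eg G y) n}) => A) (eg G y)
      ⟨1, one_mem N, (conjBy_one _).symm⟩
  have hUN : ∀ y, ∀ n ∈ N, conjBy (U y) n = U y := fun y n hn =>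
    conjBy_biSup (G := N) (fun A hA n hn => by
      obtain ⟨n', hn', rfl⟩ := hA
      exact ⟨n * n', mul_mem hn hn', conjBy_conjBy _ _ _⟩) hn
  have hUu : ∀ y, Conn G s y → IsUnipotentOn (U y) := by
    intro y hy
    have hym := hy.minFam hs
    have hpair : ∀ n ∈ N, ∀ m ∈ N, ¬ Nn (conjEnd n y) (conjEnd m y) ∧ brk (conjEnd n y) (conjEnd m y) = 0 := by
      intro n hn m hm
      obtain ⟨h1, h2⟩ := hA y hy (n⁻¹ * m) (mul_mem (inv_mem hn) hm)
      refine ⟨fun e => h1 ?_, ?_⟩
      · have := e.conjEnd n⁻¹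
        rwa [conjEnd_inv_self, conjEnd_conjEnd] at this
      · have := congrArg (conjEnd n) h2
        rw [conjEnd_zero, brk] at this
        rw [brk, ← this, show conjEnd n (y * conjEnd (n⁻¹ * m) y - conjEnd (n⁻¹ * m) y * y) =
          conjEnd n (y * conjEnd (n⁻¹ * m) y) - conjEnd n (conjEnd (n⁻¹ * m) y * y) by
            simp [conjEnd, mul_sub, sub_mul], ← conjEnd_mul, ← conjEnd_mul, conjEnd_conjEnd, mul_inv_cancel_left]
    refine isUnipotentOn_family (G := U y) (fun A hA =>
      le_iSup₂ (f := fun A (_ : A ∈ {A | ∃ n ∈ N, A = conjBy (eg G y) n}) => A) A hA) ?_ ?_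
    · rintro _ ⟨n, hn, rfl⟩ _ ⟨m, hm, rfl⟩
      have hnG : n ∈ G := cgrp_le hs (hNH hn)
      have hmG : m ∈ G := cgrp_le hs (hNH hm)
      rw [conjBy_eg hym.1.1 hnG, conjBy_eg hym.1.1 hmG]
      exact isUnipotentOn_of_not_nn hP.two hP.three (hpair n hn m hm).1 (hym.conj hnG) (hym.conj hmG)
    · rintro A ⟨n, hn, rfl⟩ g hg
      refine ⟨n, hn, centralizer_conjBy (H := conjBy (eg G y) n) ?_ le_rfl⟩
      refine (iSup₂_le ?_ : U y ≤ Subgroup.centralizer _) hg
      rintro _ ⟨m, hm, rfl⟩ x hx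
      have hnG : n ∈ G := cgrp_le hs (hNH hn)
      have hmG : m ∈ G := cgrp_le hs (hNH hm)
      rw [conjBy_eg hym.1.1 hnG, Subgroup.mem_centralizer_iff]
      rw [conjBy_eg hym.1.1 hmG] at hx
      intro w hw
      exact commute_of_commutator_eq_bot (eg_commutator_eq_bot hP.two hP.three (hym.conj hnG) (hym.conj hmG)
        (hpair n hn m hm).1 (hpair n hn m hm).2) hw hx
  have hUle : ∀ y, ∀ g ∈ H, Conn G s y → conjBy (U y) g ≤ U (conjEnd g y) := by
    intro y g hg hy
    simp only [U, conjBy, Subgroup.map_iSup]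
    refine iSup₂_le ?_
    rintro _ ⟨n, hn, rfl⟩
    refine le_iSup₂_of_le (conjBy (eg G (conjEnd g y)) (g * n * g⁻¹)) ⟨_, hnc g hg n hn, rfl⟩ ?_
    show conjBy (conjBy (eg G y) n) g ≤ conjBy (eg G (conjEnd g y)) (g * n * g⁻¹)
    rw [← conjBy_eg (hy.minFam hs).1.1 (cgrp_le hs hg), conjBy_conjBy, conjBy_conjBy]
    simp [mul_assoc]
  set W : Set (Subgroup (LinearMap.GeneralLinearGroup k M)) := {A | ∃ y, Conn G s y ∧ A = N ⊓ U y}
  set P := ⨆ A ∈ W, A with hPdef
  have hPu : IsUnipotentOn P := by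
    refine isUnipotentOn_family (G := N) (fun A ⟨y, _, e⟩ => e ▸ inf_le_left) ?_ ?_
    · rintro _ ⟨y, hy, rfl⟩ _ ⟨z, hz, rfl⟩
      refine isUnipotentOn_sup (unipotent_mono inf_le_right (hUu y hy))
        (unipotent_mono inf_le_right (hUu z hz)) (fun g hg => mem_normalizer_iff_conjBy.2 ?_)
      rw [conjBy_inf, conjBy_self hg.1, hUN y g hg.1]
    · rintro _ ⟨y, hy, rfl⟩ g hg
      exact ⟨y, hy, by rw [conjBy_inf, conjBy_self hg, hUN y g hg]⟩
  have hPH : ∀ g ∈ H, conjBy P g = P := by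
    intro g hg
    refine conjBy_biSup (G := H) ?_ hg
    rintro _ ⟨y, hy, rfl⟩ g hg
    have hy' : Conn G s (conjEnd g y) := hy.trans (hP.conn_conj (cgrp_le hs hg) (hy.minFam hs))
    refine ⟨conjEnd g y, hy', ?_⟩
    rw [conjBy_inf, hN g hg]
    congr 1
    refine le_antisymm (hUle y g hg hy) ?_
    have h' := hUle (conjEnd g y) g⁻¹ (inv_mem hg) hy'
    rw [conjEnd_inv_self] at h'
    have := conjBy_mono h' g
    rwa [conjBy_conjBy, mul_inv_cancel, conjBy_one] at this
  have hPle : P ≤ H := iSup₂_le fun A ⟨y, _, e⟩ => e ▸ inf_le_left.trans hNH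
  set W' : Set (Subgroup (LinearMap.GeneralLinearGroup k M)) := {A | ∃ g ∈ G, A = conjBy P g}
  have hW'H : ∀ A ∈ W', A ≤ H := by
    rintro _ ⟨g, hg, rfl⟩
    have := conjBy_mono hPle g
    rwa [hP.cgrp_normal hs hg] at this
  have hW'G : ∀ A ∈ W', A ≤ G := fun A hA => (hW'H A hA).trans (cgrp_le hs)
  have hW'c : ∀ A ∈ W', ∀ g ∈ G, conjBy A g ∈ W' := by
    rintro _ ⟨g', hg', rfl⟩ g hg
    exact ⟨g * g', mul_mem hg hg', conjBy_conjBy _ _ _⟩
  have hunip_conj : ∀ g, IsUnipotentOn (conjBy P g) := by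
    intro g
    obtain ⟨n, hn⟩ := hPu
    refine ⟨n, fun l hl hlen => ?_⟩
    have h1 := hn (l.map fun x => g⁻¹ * x * g) (fun x hx => by
      obtain ⟨z, hz, rfl⟩ := List.mem_map.1 hx
      exact mem_conjBy.1 (hl z hz)) (by simpa using hlen)
    rw [map_sub1] at h1 ⊢
    rw [List.map_map] at h1
    have key : ∀ l : List (LinearMap.GeneralLinearGroup k M),
        (l.map sub1).prod = conjEnd g ((l.map (sub1 ∘ fun x => g⁻¹ * x * g)).prod) := by
      intro l
      induction l with
      | nil => simp [conjEnd]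
      | cons a l ih =>
        rw [List.map_cons, List.prod_cons, List.map_cons, List.prod_cons, ih, ← conjEnd_mul]
        congr 1
        simp [conjEnd, sub1, mul_sub, sub_mul, mul_assoc]
    rw [key, h1, conjEnd_zero]
  have hW'u : ∀ A ∈ W', ∀ B ∈ W', IsUnipotentOn (A ⊔ B) := by
    rintro _ ⟨g, hg, rfl⟩ _ ⟨g', hg', rfl⟩
    refine isUnipotentOn_sup (hunip_conj g) (hunip_conj g') (fun z hz => mem_normalizer_iff_conjBy.2 ?_)
    have hzH : g⁻¹ * z * g ∈ H := by
      have := hW'H _ ⟨g', hg', rfl⟩ hz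
      have e : conjBy H g = H := hP.cgrp_normal hs hg
      rw [← e] at this
      exact mem_conjBy.1 this
    conv_rhs => rw [← hPH _ hzH]
    rw [conjBy_conjBy, conjBy_conjBy]
    simp [mul_assoc]
  have hbot := hP.unipotent_normal (iSup₂_le hW'G) (fun g hg => conjBy_biSup hW'c hg)
    (isUnipotentOn_family hW'G hW'u hW'c)
  have hP0 : P = ⊥ := le_bot_iff.1 (hbot ▸ le_iSup₂ (f := fun A (_ : A ∈ W') => A) P
    ⟨1, one_mem G, (conjBy_one P).symm⟩)
  intro n hn g hg
  have hle : H ≤ Subgroup.centralizer (N : Set (LinearMap.GeneralLinearGroup k M)) := by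
    refine iSup₂_le fun y hy a ha => ?_
    rw [Subgroup.mem_centralizer_iff]
    intro m hm
    have h1 : m * a * m⁻¹ * a⁻¹ ∈ N ⊓ U y := by
      refine Subgroup.mem_inf.2 ⟨?_, (U y).mul_mem (hUN y m hm ▸ conj_mem_conjBy (hyU y ha) m) ((U y).inv_mem (hyU y ha))⟩
      have := N.mul_mem hm (hnc a (eg_le_cgrp hy ha) _ (N.inv_mem hm))
      simpa [mul_assoc] using this
    have h2 : N ⊓ U y ≤ P := le_iSup₂ (f := fun A (_ : A ∈ W) => A) _ ⟨y, hy, rfl⟩
    have h3 := h2 h1
    rw [hP0, Subgroup.mem_bot, mul_inv_eq_one, mul_inv_eq_iff_eq_mul] at h3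
    exact h3
  exact Subgroup.mem_centralizer_iff.1 (hle hg) n hn

/-- Component groups are quasisimple. -/
theorem Pair.cgrp_quasisimple {s : Module.End k M} (hs : MinFam G s) : IsQuasisimple ↥(cgrp G s) := by
  set H := cgrp G s with hH
  have hperf : commutator H = ⊤ := by
    apply Subgroup.map_injective H.subtype_injective
    rw [commutator_def, Subgroup.map_commutator, ← MonoidHom.range_eq_map, Subgroup.range_subtype]
    exact hP.cgrp_perfect hs
  haveI : Group.IsPerfect H := Group.isPerfect_def.2 hperf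
  refine ⟨inferInstance, ?_⟩
  have hZ : Subgroup.center H ≠ ⊤ := by
    intro e
    obtain ⟨t, ht, hn⟩ := hP.exists_partner hs
    have hmt : (ex t : LinearMap.GeneralLinearGroup k M) ∈ H :=
      eg_le_cgrp (Relation.ReflTransGen.single ⟨hs, ht, hn⟩) (ex_mem_eg ht.1.1 (mem_self ht.1))
    have hms : (ex s : LinearMap.GeneralLinearGroup k M) ∈ H :=
      eg_le_cgrp Relation.ReflTransGen.refl (ex_mem_eg hs.1.1 (mem_self hs.1))
    have h1 := Subgroup.mem_center_iff.1 (e ▸ Subgroup.mem_top (⟨_, hmt⟩ : H)) ⟨_, hms⟩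
    have h2 := (commute_ex_iff hs.1.1 ht.1.1).1 (congrArg Subtype.val h1)
    exact hn (by rw [h2, mul_assoc, hs.1.1, mul_zero])
  haveI : Nontrivial (H ⧸ Subgroup.center H) := QuotientGroup.nontrivial_iff.2 hZ
  refine IsSimpleGroup.mk fun K hK => ?_
  set π := QuotientGroup.mk' (Subgroup.center H) with hπ
  have hnorm : ∀ g ∈ H, conjBy ((K.comap π).map H.subtype) g = (K.comap π).map H.subtype := by
    intro g hg
    rw [← mem_normalizer_iff_conjBy]
    refine Subgroup.mem_normalizer_iff.2 fun x => ⟨?_, ?_⟩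
    · rintro ⟨y, hy, rfl⟩
      exact ⟨⟨g, hg⟩ * y * ⟨g, hg⟩⁻¹, (hK.comap π).conj_mem y hy _, rfl⟩
    · rintro ⟨y, hy, e⟩
      refine ⟨⟨g, hg⟩⁻¹ * y * ⟨g, hg⟩, ?_, ?_⟩
      · have := (hK.comap π).conj_mem y hy (⟨g, hg⟩⁻¹)
        simpa using this
      · simp only [map_mul, map_inv, Subgroup.coe_subtype] at e ⊢
        rw [e]; simp [mul_assoc]
  rcases hP.cgrp_normal_sub hs (Subgroup.map_subtype_le _) hnorm with h | h
  · right
    rw [eq_top_iff]
    intro q _
    obtain ⟨y, rfl⟩ := QuotientGroup.mk'_surjective _ q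
    obtain ⟨y', hy', e⟩ : (y : LinearMap.GeneralLinearGroup k M) ∈ (K.comap π).map H.subtype := h.symm ▸ y.2
    rw [← Subtype.ext e]
    exact hy'
  · left
    rw [Subgroup.eq_bot_iff_forall]
    intro q hq
    obtain ⟨y, rfl⟩ := QuotientGroup.mk'_surjective _ q
    refine (QuotientGroup.eq_one_iff _).2 (Subgroup.mem_center_iff.2 fun z => ?_)
    exact Subtype.ext (h y.1 ⟨y, hq, rfl⟩ z.1 z.2).symm

end Cfsg.Agent.H92.QP
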