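import Cfsg.Agent.H92.QP.Special

/-! Components of the graph of non-degenerate pairs; a bracket lies in the component of its entries. -/

set_option autoImplicit false

namespace Cfsg.Agent.H92.QP

open Cfsg LinearMap

variable {k : Type*} [Field k] {M : Type*} [AddCommGroup M] [Module k M]
  {G : Subgroup (LinearMap.GeneralLinearGroup k M)}

variable (G) in
/-- Adjacency of two minimal families. -/
def Adj (s t : Module.End k M) : Prop := MinFam G s ∧ MinFam G t ∧ Nn s t

variable (G) in
/-- Being in one component. -/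
def Conn : Module.End k M → Module.End k M → Prop := Relation.ReflTransGen (Adj G)

variable (G) in
/-- The dimension of the space of families with the action of `s`. -/
noncomputable def dimL (s : Module.End k M) : ℕ :=
  Module.finrank k (Submodule.span k {y : Module.End k M | Mem G s y})

lemma Nn.conjEnd {s t : Module.End k M} (h : Nn s t) (g : LinearMap.GeneralLinearGroup k M) :
    Nn (conjEnd g s) (conjEnd g t) := by
  intro e
  apply h
  rw [conjEnd_mul, conjEnd_mul] at e
  have := congrArg (QP.conjEnd g⁻¹) e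
  rwa [conjEnd_inv_self, conjEnd_zero] at this

lemma exists_four (h2 : (2 : k) ≠ 0) (hk : Nat.card k ≠ 3) :
    ∃ a : k, a ≠ 0 ∧ a ≠ 1 ∧ a ≠ -1 ∧ -a ≠ a ∧ (-1 : k) ≠ 1 := by
  have hne : (-1 : k) ≠ 1 := fun h => h2 (by linear_combination -h)
  by_contra hcon
  push Not at hcon
  have hall : ∀ a : k, a = 0 ∨ a = 1 ∨ a = -1 := by
    intro a
    by_contra ha
    push Not at ha
    exact hne (hcon a ha.1 ha.2.1 ha.2.2 (fun e => ha.1 (by
      have : (2 : k) * a = 0 := by linear_combination -e
      exact (mul_eq_zero.1 this).resolve_left h2)))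
  apply hk
  have : (Set.univ : Set k) = {0, 1, -1} := (Set.eq_univ_of_forall fun a => by simpa using hall a).symm
  rw [← Set.ncard_univ, this, Set.ncard_eq_three]
  exact ⟨0, 1, -1, zero_ne_one, (neg_ne_zero.2 one_ne_zero).symm, hne.symm, rfl⟩

/-- A cubic polynomial with vector coefficients vanishing at four points has zero constant term. -/
lemma cubic_const_zero {V : Type*} [AddCommGroup V] [Module k V] {a : k} (h2 : (2 : k) ≠ 0) (ha1 : a ≠ 1)
    (ha2 : a ≠ -1) (v0 v1 v2 v3 : V)
    (h : ∀ c : k, c = 1 ∨ c = -1 ∨ c = a ∨ c = -a → v0 + c • v1 + (c * c) • v2 + (c * c * c) • v3 = 0) : v0 = 0 := by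
  have e1 := h 1 (Or.inl rfl)
  have e2 := h (-1) (Or.inr (Or.inl rfl))
  have e3 := h a (Or.inr (Or.inr (Or.inl rfl)))
  have e4 := h (-a) (Or.inr (Or.inr (Or.inr rfl)))
  have f1 : (2 : k) • (v0 + v2) = 0 := by linear_combination (norm := module) e1 + e2
  have f2 : (2 : k) • (v0 + (a * a) • v2) = 0 := by linear_combination (norm := module) e3 + e4
  have f1' := (smul_eq_zero.1 f1).resolve_left h2
  have f2' := (smul_eq_zero.1 f2).resolve_left h2
  have f3 : (1 - a * a) • v0 = 0 := by linear_combination (norm := module) f2' - (a * a) • f1'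
  refine (smul_eq_zero.1 f3).resolve_left ?_
  rw [show 1 - a * a = (1 - a) * (1 + a) by ring]
  exact mul_ne_zero (sub_ne_zero.2 (Ne.symm ha1)) (fun e => ha2 (by linear_combination e))

variable [FiniteDimensional k M]

lemma Adj.conj {s t : Module.End k M} (h : Adj G s t) {g : LinearMap.GeneralLinearGroup k M} (hg : g ∈ G) :
    Adj G (conjEnd g s) (conjEnd g t) := ⟨h.1.conj hg, h.2.1.conj hg, h.2.2.conjEnd g⟩

lemma Conn.conj {s t : Module.End k M} (h : Conn G s t) {g : LinearMap.GeneralLinearGroup k M} (hg : g ∈ G) :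
    Conn G (conjEnd g s) (conjEnd g t) := by
  induction h with
  | refl => exact Relation.ReflTransGen.refl
  | tail _ e ih => exact ih.tail (e.conj hg)

omit [FiniteDimensional k M] in
lemma Conn.minFam {s t : Module.End k M} (h : Conn G s t) (hs : MinFam G s) : MinFam G t := by
  rcases h.cases_tail with e | ⟨c, -, e⟩
  · exact e ▸ hs
  · exact e.2.1

omit [FiniteDimensional k M] in
lemma dimL_conj {g : LinearMap.GeneralLinearGroup k M} (hg : g ∈ G) (s : Module.End k M) :
    dimL G (conjEnd g s) = dimL G s := by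
  let C : Module.End k M →ₗ[k] Module.End k M :=
    (LinearMap.mulLeft k (g : Module.End k M)).comp
      (LinearMap.mulRight k ((g⁻¹ : LinearMap.GeneralLinearGroup k M) : Module.End k M))
  have hC : ∀ y, C y = QP.conjEnd g y := fun y => by simp [C, QP.conjEnd, mul_assoc]
  have hinj : Function.Injective C := fun a b e => by
    rw [hC, hC] at e
    have := congrArg (QP.conjEnd g⁻¹) e
    rwa [conjEnd_inv_self, conjEnd_inv_self] at this
  have hset : {y | Mem G (QP.conjEnd g s) y} = C '' {y | Mem G s y} := by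
    ext y
    constructor
    · intro hy
      refine ⟨QP.conjEnd g⁻¹ y, ?_, ?_⟩
      · have := hy.conj (inv_mem hg)
        rwa [conjEnd_inv_self] at this
      · rw [hC, conjEnd_conjEnd, mul_inv_cancel, conjEnd_one]
    · rintro ⟨z, hz, rfl⟩
      rw [hC]; exact hz.conj hg
  rw [dimL, hset, Submodule.span_image]
  exact (LinearEquiv.finrank_eq (Submodule.equivMapOfInjective C hinj _)).symm

lemma MinFam.mem_set_eq {s y : Module.End k M} (hs : MinFam G s) (hy : Mem G s y) (hy0 : y ≠ 0) :
    {z | Mem G y z} = {z | Mem G s z} := by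
  ext z
  exact ⟨fun hz => hy.trans hz, fun hz => (hs.mem_symm hy hy0).trans hz⟩

namespace Pair

variable (hP : Pair G)
include hP

lemma adj_symm {s t : Module.End k M} (h : Adj G s t) : Adj G t s :=
  ⟨h.2.1, h.1, h.2.2.symm hP.two hP.three h.1 h.2.1⟩

lemma conn_symm {s t : Module.End k M} (h : Conn G s t) : Conn G t s := by
  induction h with
  | refl => exact Relation.ReflTransGen.refl
  | tail _ e ih => exact Relation.ReflTransGen.head (hP.adj_symm e) ih

lemma adj_dimL {s t : Module.End k M} (h : Adj G s t) : dimL G s = dimL G t := by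
  obtain ⟨hs, ht, hn⟩ := h
  obtain ⟨u, hu, hu0, h⟩ := hn.exists_sl2 hP.two hP.three hs ht
  have hw := dimL_conj (h.psi_mem hs.2.1 sw) s
  rw [show QP.conjEnd (h.psi hs.2.1 sw) s = -u from h.conj_weyl_s hs.2.1] at hw
  rw [← hw, dimL, dimL, ht.mem_set_eq hu.neg (neg_ne_zero.2 hu0)]

lemma conn_dimL {s t : Module.End k M} (h : Conn G s t) : dimL G s = dimL G t := by
  induction h with
  | refl => rfl
  | tail _ e ih => exact ih.trans (hP.adj_dimL e)

lemma conn_mem {s y : Module.End k M} (hs : MinFam G s) (hy : Mem G s y) (hy0 : y ≠ 0) : Conn G s y := by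
  obtain ⟨t, ht, hn⟩ := hP.exists_partner hs
  have hn' := hn.of_mem hP.two hP.three hs ht hy (mem_self ht.1) hy0 ht.2.1
  exact (Relation.ReflTransGen.single ⟨hs, ht, hn⟩).tail
    (hP.adj_symm ⟨hs.of_mem hy hy0, ht, hn'⟩)

lemma conn_neg {s : Module.End k M} (hs : MinFam G s) : Conn G s (-s) :=
  hP.conn_mem hs (mem_self hs.1).neg (neg_ne_zero.2 hs.2.1)

/-- Conjugating by an element of a member does not leave the component. -/
lemma conn_conj_ex {s t a : Module.End k M} (hs : MinFam G s) (ht : MinFam G t) (ha : Mem G s a) :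
    Conn G t (QP.conjEnd (ex a) t) := by
  have hg : ex a ∈ G := by simpa using ha.1.2 1
  have hce : QP.conjEnd (ex a) t = t + brk a t - a * t * a := by
    have := conjEnd_ex ha.1.1 (1 : k) t
    rwa [one_smul, one_smul, one_mul, one_smul] at this
  rcases eq_or_ne a 0 with rfl | ha0
  · rw [ex_zero, conjEnd_one]; exact Relation.ReflTransGen.refl
  have hma := hs.of_mem ha ha0
  by_cases hn : Nn a t
  · have h1 : Adj G a t := ⟨hma, ht, hn⟩
    have h2 := h1.conj hg
    have e : QP.conjEnd (ex a) a = a := by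
      have := conjEnd_ex ha.1.1 (1 : k) a
      rw [one_smul, one_smul, one_mul, one_smul, ha.1.1] at this
      simpa using this
    rw [e] at h2
    exact (Relation.ReflTransGen.single (hP.adj_symm h1)).tail h2
  have h1 : a * t * a = 0 := not_nn_mem hP.two hP.three hn hma ht (mem_self hma.1) (mem_self ht.1)
  have h2 : t * a * t = 0 :=
    not_nn_mem hP.two hP.three (not_nn_symm hP.two hP.three hn hma ht) ht hma (mem_self ht.1) (mem_self hma.1)
  rw [h1, sub_zero] at hce
  rcases eq_or_ne (brk a t) 0 with hx | hx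
  · rw [hce, hx, add_zero]; exact Relation.ReflTransGen.refl
  have hmx : MinFam G (brk a t) := minFam_brk hma ht.1 h1 h2 hx
  obtain ⟨v, hv, hvn⟩ := hP.exists_partner ht
  have ht' := ht.conj hg
  by_cases hv' : Nn v (QP.conjEnd (ex a) t)
  · exact (Relation.ReflTransGen.single ⟨ht, hv, hvn⟩).tail ⟨hv, ht', hv'⟩
  have hvx : Nn v (brk a t) := by
    intro e
    apply hvn.symm hP.two hP.three ht hv
    have := not_not.1 hv'
    rwa [hce, mul_add, add_mul, e, add_zero] at this
  have p1 : Conn G t (brk a t) := (Relation.ReflTransGen.single ⟨ht, hv, hvn⟩).tail ⟨hv, hmx, hvx⟩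
  have p2 := p1.conj hg
  have hfix : QP.conjEnd (ex a) (brk a t) = brk a t := by
    have e1 : a * brk a t = 0 := by rw [brk, mul_sub, ← mul_assoc, ha.1.1, zero_mul, ← mul_assoc, h1, sub_zero]
    have e2 : brk a t * a = 0 := by rw [brk, sub_mul, mul_assoc t a a, ha.1.1, mul_zero, h1, sub_zero]
    have := conjEnd_ex ha.1.1 (1 : k) (brk a t)
    rw [one_smul, one_smul, one_mul, one_smul, e1, e2, zero_mul] at this
    simpa using this
  rw [hfix] at p2
  exact p1.trans (hP.conn_symm p2)

/-- A bracket is in the component of its second entry. -/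
lemma conn_brk {s t : Module.End k M} (hs : MinFam G s) (ht : MinFam G t) (hn : ¬ Nn s t) (hx : brk s t ≠ 0) :
    Conn G t (brk s t) := by
  obtain ⟨k2, k3⟩ := And.intro hP.two hP.three
  have hsts : s * t * s = 0 := not_nn_mem k2 k3 hn hs ht (mem_self hs.1) (mem_self ht.1)
  have htst : t * s * t = 0 := not_nn_mem k2 k3 (not_nn_symm k2 k3 hn hs ht) ht hs (mem_self ht.1) (mem_self hs.1)
  have hxm : MinFam G (brk s t) := minFam_brk hs ht.1 hsts htst hx
  obtain ⟨u', hu', hnu⟩ := hP.exists_partner hs
  obtain ⟨u, hu, hu0, h⟩ := hnu.exists_sl2 k2 k3 hs hu'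
  have hum : MinFam G u := hu'.of_mem hu hu0
  have sx0 : s * brk s t = 0 := by rw [brk, mul_sub, ← mul_assoc, hs.1.1, zero_mul, ← mul_assoc, hsts, sub_zero]
  have xs0 : brk s t * s = 0 := by rw [brk, sub_mul, mul_assoc t s s, hs.1.1, mul_zero, hsts, sub_zero]
  set x := brk s t with hxdef
  obtain ⟨o, ho⟩ : ∃ o : Module.End k M, o = 1 - (s * u + u * s) := ⟨_, rfl⟩
  have qx : ∀ z, u * s * (x * z) = 0 := fun z => by rw [mul_assoc, ← mul_assoc s, sx0, zero_mul, mul_zero]
  have xp : ∀ z, z * x * (s * u) = 0 := fun z => by rw [mul_assoc, ← mul_assoc x, xs0, zero_mul, mul_zero]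
  have os : o * s = 0 := ho ▸ h.e0_s
  have so : s * o = 0 := ho ▸ h.s_e0
  have ou : o * u = 0 := ho ▸ h.e0_u
  have uo : u * o = 0 := ho ▸ h.u_e0
  have oxo : o * x * o = 0 := by
    rw [hxdef, brk, mul_sub, sub_mul, ← mul_assoc o s, os, zero_mul, zero_mul, mul_assoc o (t * s) o,
      mul_assoc t s o, so, mul_zero, mul_zero, sub_zero]
  set x2 := s * u * x * (u * s) with hx2
  set x1 := s * u * x * o + o * x * (u * s) with hx1
  have hconj : ∀ c : kˣ, QP.conjEnd (h.torus hs.2.1 c) x = ((c : k) * (c : k)) • x2 + (c : k) • x1 := by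
    intro c
    rw [h.conj_torus hs.2.1 c x, ← ho]
    simp only [mul_assoc (u * s) x, qx, xp, oxo, smul_zero, add_zero, zero_add]
    rfl
  have hsum : x = x2 + x1 := by
    have hx' := hconj 1
    rw [show h.torus hs.2.1 1 = 1 by
      apply Units.ext; rw [h.torus_val]; simp, conjEnd_one] at hx'
    simpa using hx'
  have xx : x * x = 0 := hxm.1.1
  have qp : u * s * (s * u) = 0 := by rw [mul_assoc, ← mul_assoc s s, hs.1.1, zero_mul, mul_zero]
  have qo : u * s * o = 0 := by rw [mul_assoc, so, mul_zero]
  have op : o * (s * u) = 0 := by rw [← mul_assoc, os, zero_mul]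
  have oo : o * o = o := by
    rw [ho]
    rw [sub_mul, one_mul, mul_sub, mul_one, h.idem, sub_self, sub_zero]
  have pro : ∀ z w v : Module.End k M, z * o * (o * w * v) = z * o * w * v := fun z w v => by
    rw [mul_assoc o w v, ← mul_assoc (z * o) o, mul_assoc z o o, oo, ← mul_assoc]
  -- the middle product
  have mid : s * u * x * o * x * (u * s) = 0 := by
    have : o = 1 - s * u - u * s := by rw [ho]; abel
    rw [this, mul_sub, mul_sub, sub_mul, sub_mul, sub_mul, sub_mul, mul_one, mul_assoc (s * u) x x, xx, mul_zero, zero_mul]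
    rw [xp, zero_mul, zero_mul, mul_assoc (s * u * x) (u * s) x, mul_assoc u s x, sx0, mul_zero, mul_zero]
    simp
  have x22 : x2 * x2 = 0 := by
    rw [hx2]
    calc _ = s * u * x * (u * s * (s * u)) * x * (u * s) := by simp only [mul_assoc]
      _ = 0 := by simp [qp]
  have x12 : x1 * x2 = 0 := by
    rw [hx1, hx2, add_mul]
    calc _ = s * u * x * (o * (s * u)) * x * (u * s) + o * x * (u * s * (s * u)) * x * (u * s) := by
          simp only [mul_assoc]
      _ = 0 := by simp [op, qp]
  have x21 : x2 * x1 = 0 := by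
    rw [hx1, hx2, mul_add]
    calc _ = s * u * x * (u * s * (s * u)) * x * o + s * u * x * (u * s * o) * x * (u * s) := by
          simp only [mul_assoc]
      _ = 0 := by simp [qp, qo]
  have x11 : x1 * x1 = 0 := by
    rw [hx1, add_mul, mul_add, mul_add]
    calc _ = s * u * x * (o * (s * u)) * x * o + s * u * x * (o * o) * x * (u * s) +
          (o * x * (u * s * (s * u)) * x * o + o * x * (u * s * o) * x * (u * s)) := by
          simp only [mul_assoc]
      _ = 0 := by simp [op, oo, qp, qo, mid]
  have hfam : ∀ c : kˣ, Fam' G (((c : k) * (c : k)) • x2 + (c : k) • x1) := fun c => by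
    rw [← hconj c]; exact hxm.1.conj (h.psi_mem hs.2.1 _)
  have hF1 : Fam' G x1 := by
    have h1' := hfam 1
    have h2' := (hfam (-1)).neg
    simp only [Units.val_one, mul_one, one_smul, Units.val_neg, mul_neg, neg_neg, neg_smul] at h1' h2'
    have := (h1'.add h2' (by simp [add_mul, mul_add, x22, x12, x21, x11])
      (by simp [add_mul, mul_add, x22, x12, x21, x11])).smul (2 : k)⁻¹
    rw [show x2 + x1 + -(x2 + -x1) = (2 : k) • x1 by rw [two_smul]; abel, smul_smul, inv_mul_cancel₀ k2, one_smul] at this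
    exact this
  have hx10 : x1 ≠ 0 := by
    intro e
    refine brk_not_mem k2 k3 ht hs (not_nn_symm k2 k3 hn hs ht)
      (by rw [brk_swap]; exact neg_ne_zero.2 hx) ?_
    rw [brk_swap, ← hxdef]
    refine Mem.neg ⟨hxm.1, ?_, ?_⟩
    · rw [hsum, e, add_zero, hx2, mul_assoc s u, mul_assoc s (u * x)]
      exact LinearMap.range_comp_le_range _ s
    · rw [hsum, e, add_zero, hx2, ← mul_assoc (s * u * x) u s]
      exact LinearMap.ker_le_ker_comp s _
  have hrk : rk x1 ≤ rk x := by
    have e1 : LinearMap.range x1 ≤ LinearMap.range (x * o) ⊔ LinearMap.range (o * x) := by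
      have hxo : x * o = s * u * x * o := by
        have : x * o = (s * u + u * s) * (x * o) := by
          rw [eq_comm, ← sub_eq_zero, ← neg_eq_zero, neg_sub]
          calc x * o - (s * u + u * s) * (x * o) = o * (x * o) := by rw [ho, sub_mul, one_mul]
            _ = 0 := by rw [← mul_assoc, oxo]
        rw [this, add_mul, qx, add_zero, ← mul_assoc]
      rw [hxo, hx1]
      rintro _ ⟨m, rfl⟩
      exact add_mem (Submodule.mem_sup_left ⟨m, rfl⟩) (Submodule.mem_sup_right ⟨(u * s) m, rfl⟩)
    have e2 := Submodule.finrank_mono e1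
    have e3 := Submodule.finrank_add_le_finrank_add_finrank (LinearMap.range (x * o)) (LinearMap.range (o * x))
    have e4 := rk_mul_add o x
    have e5 : LinearMap.range (x * o) ≤ LinearMap.range x ⊓ LinearMap.ker o := by
      refine le_inf (LinearMap.range_comp_le_range o x) ?_
      rw [← mul_eq_zero_iff_range_le_ker, ← mul_assoc, oxo]
    have e6 := Submodule.finrank_mono e5
    simp only [rk] at *
    omega
  have hm1 : MinFam G x1 := hxm.of_le hF1 hx10 hrk
  have hw : h.weyl hs.2.1 ∈ G := h.psi_mem hs.2.1 _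
  -- the conjugate of the weight one part
  set x' := u * s * t * o + o * t * (s * u) with hx'
  have hwconj : QP.conjEnd (h.weyl hs.2.1) x1 = -x' := by
    have u1 : u * x * o = u * s * t * o := by
      calc u * x * o = u * s * t * o - u * t * (s * o) := by rw [hxdef, brk]; simp only [mul_sub, sub_mul, mul_assoc]
        _ = u * s * t * o := by rw [so]; simp
    have u2 : o * x * u = -(o * t * (s * u)) := by
      calc o * x * u = o * s * t * u - o * t * (s * u) := by rw [hxdef, brk]; simp only [mul_sub, sub_mul, mul_assoc]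
        _ = -(o * t * (s * u)) := by rw [os]; simp
    rw [QP.conjEnd, h.weyl_val, h.weyl_inv_val, ← ho]
    have l1 : (s - u + o) * x1 = -(u * x * o) + o * x * (u * s) := by
      calc (s - u + o) * x1 = (s * s) * (u * x * o) + (s * o) * (x * (u * s)) - (u * s * u) * (x * o)
            - (u * o) * (x * (u * s)) + (o * (s * u)) * (x * o) + (o * o) * (x * (u * s)) := by
            rw [hx1]; simp only [add_mul, sub_mul, mul_add, mul_assoc]; abel
        _ = -(u * x * o) + o * x * (u * s) := by rw [hs.1.1, so, h.usu, uo, op, oo]; simp [mul_assoc]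
    rw [l1]
    calc (-(u * x * o) + o * x * (u * s)) * (-s + u + o)
        = (u * x) * (o * s) - (u * x) * (o * u) - (u * x) * (o * o) - (o * x * u) * (s * s)
            + (o * x) * (u * s * u) + (o * x) * (u * s * o) := by
          simp only [add_mul, neg_mul, mul_add, mul_neg, neg_neg, mul_assoc]; abel
      _ = -(u * x * o) + o * x * u := by rw [os, ou, oo, hs.1.1, h.usu, qo]; simp
      _ = -x' := by rw [u1, u2, hx']; abel
  have hm' : MinFam G x' := by
    have := (hm1.conj hw)
    rw [hwconj] at this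
    have := this.of_le this.1.neg (neg_ne_zero.2 this.2.1) (le_of_eq (by rw [rk, rk, LinearMap.range_neg]))
    rwa [neg_neg] at this
  -- three connections
  have c1 : Conn G x x1 := by
    obtain ⟨v, hv, hvn⟩ := hP.exists_partner hm1
    have hvn' := hvn.symm k2 k3 hm1 hv
    obtain ⟨c, hc⟩ : ∃ c : kˣ, Nn v (QP.conjEnd (h.torus hs.2.1 c) x) := by
      by_contra hcon
      push Not at hcon
      have a1 := not_not.1 (hcon 1)
      have a2 := not_not.1 (hcon (-1))
      rw [hconj] at a1 a2
      simp only [Units.val_one, mul_one, one_smul, Units.val_neg, mul_neg, neg_neg, neg_smul, mul_add, add_mul,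
        neg_mul] at a1 a2
      apply hvn'
      have : (2 : k) • (v * x1 * v) = 0 := by linear_combination (norm := module) a1 - a2
      exact (smul_eq_zero.1 this).resolve_left k2
    have hxc := hxm.conj (h.psi_mem hs.2.1 (Sl2.dg c))
    have p : Conn G (QP.conjEnd (h.torus hs.2.1 c) x) x1 :=
      (Relation.ReflTransGen.single (hP.adj_symm ⟨hv, hxc, hc⟩)).tail ⟨hv, hm1, hvn'⟩
    refine Relation.ReflTransGen.trans ?_ p
    -- the torus stays in the component
    have key : ∀ g ∈ eg G s ⊔ eg G u, g ∈ G ∧ ∀ y, MinFam G y → Conn G y (QP.conjEnd g y) := by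
      intro g hg
      rw [← Subgroup.closure_eq (eg G s), ← Subgroup.closure_eq (eg G u), ← Subgroup.closure_union] at hg
      induction hg using Subgroup.closure_induction with
      | mem z hz =>
        rcases hz with hz | hz
        · obtain ⟨a, ha, rfl⟩ := (mem_eg hs.1.1).1 hz
          exact ⟨eg_le hs.1.1 hz, fun y hy => hP.conn_conj_ex hs hy ha⟩
        · obtain ⟨a, ha, rfl⟩ := (mem_eg hum.1.1).1 hz
          exact ⟨eg_le hum.1.1 hz, fun y hy => hP.conn_conj_ex hum hy ha⟩
      | one => exact ⟨one_mem G, fun y _ => by rw [conjEnd_one]; exact Relation.ReflTransGen.refl⟩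
      | mul a b _ _ iha ihb =>
        refine ⟨mul_mem iha.1 ihb.1, fun y hy => ?_⟩
        rw [← conjEnd_conjEnd]
        exact (ihb.2 y hy).trans (iha.2 _ (hy.conj ihb.1))
      | inv a _ iha =>
        refine ⟨inv_mem iha.1, fun y hy => ?_⟩
        have := iha.2 _ (hy.conj (inv_mem iha.1))
        rw [conjEnd_conjEnd, mul_inv_cancel, conjEnd_one] at this
        exact hP.conn_symm this
    exact (key _ (h.psi_mem_of hs.2.1 (fun c => Subgroup.mem_sup_left (ex_mem_eg hs.1.1 ((mem_self hs.1).smul c)))
      (fun c => Subgroup.mem_sup_right (ex_mem_eg hum.1.1 ((mem_self hum.1).smul c))) _)).2 x hxm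
  have c2 : Conn G x1 x' := by
    have a1 := hP.conn_conj_ex hs hm1 (mem_self hs.1)
    have g1 : ex s ∈ G := by simpa using hs.1.2 1
    have g2 : ex (-u) ∈ G := by simpa using (hum.1.neg).2 1
    have a2 := hP.conn_conj_ex hum (hm1.conj g1) (mem_self hum.1).neg
    have a3 := hP.conn_conj_ex hs ((hm1.conj g1).conj g2) (mem_self hs.1)
    have := (a1.trans a2).trans a3
    rw [conjEnd_conjEnd, conjEnd_conjEnd, ← h.weyl_eq hs.2.1, hwconj] at this
    exact this.trans (hP.conn_symm (hP.conn_neg hm'))
  have c3 : Conn G t x' := by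
    obtain ⟨v, hv, hvn⟩ := hP.exists_partner hm'
    have hvn' := hvn.symm k2 k3 hm' hv
    obtain ⟨a, ha0, ha1, ha2, -, -⟩ := exists_four k2 k3
    have qtp : u * s * t * (s * u) = 0 := by
      calc u * s * t * (s * u) = u * (s * t * s) * u := by simp only [mul_assoc]
        _ = 0 := by rw [hsts]; simp
    obtain ⟨c, hc⟩ : ∃ c : kˣ, Nn v (QP.conjEnd (h.torus hs.2.1 c) t) := by
      by_contra hcon
      push Not at hcon
      apply hvn'
      refine cubic_const_zero k2 ha1 ha2 (v * x' * v)
        (v * (s * u * t * (s * u) + u * s * t * (u * s) + o * t * o) * v)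
        (v * (s * u * t * o + o * t * (u * s)) * v) (v * (s * u * t * (u * s)) * v) fun d hd => ?_
      have hd0 : d ≠ 0 := by rcases hd with rfl | rfl | rfl | rfl <;> simp [ha0]
      have e := not_not.1 (hcon (Units.mk0 d hd0))
      rw [h.conj_torus, ← ho, qtp, ← hx', smul_zero, add_zero, Units.val_inv_eq_inv_val, Units.val_mk0] at e
      have e' := congrArg (d • ·) e
      simp only [smul_zero, mul_add, add_mul, mul_smul_comm, smul_mul_assoc, smul_add, smul_smul,
        mul_inv_cancel₀ hd0, one_smul] at e'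
      simp only [mul_add, add_mul, smul_add] at e' ⊢
      linear_combination (norm := module) e'
    have p : Conn G (QP.conjEnd (h.torus hs.2.1 c) t) x' :=
      (Relation.ReflTransGen.single (hP.adj_symm ⟨hv, ht.conj (h.psi_mem hs.2.1 _), hc⟩)).tail ⟨hv, hm', hvn'⟩
    refine Relation.ReflTransGen.trans ?_ p
    have key : ∀ g ∈ eg G s ⊔ eg G u, g ∈ G ∧ ∀ y, MinFam G y → Conn G y (QP.conjEnd g y) := by
      intro g hg
      rw [← Subgroup.closure_eq (eg G s), ← Subgroup.closure_eq (eg G u), ← Subgroup.closure_union] at hg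
      induction hg using Subgroup.closure_induction with
      | mem z hz =>
        rcases hz with hz | hz
        · obtain ⟨a, ha, rfl⟩ := (mem_eg hs.1.1).1 hz
          exact ⟨eg_le hs.1.1 hz, fun y hy => hP.conn_conj_ex hs hy ha⟩
        · obtain ⟨a, ha, rfl⟩ := (mem_eg hum.1.1).1 hz
          exact ⟨eg_le hum.1.1 hz, fun y hy => hP.conn_conj_ex hum hy ha⟩
      | one => exact ⟨one_mem G, fun y _ => by rw [conjEnd_one]; exact Relation.ReflTransGen.refl⟩
      | mul a b _ _ iha ihb =>
        refine ⟨mul_mem iha.1 ihb.1, fun y hy => ?_⟩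
        rw [← conjEnd_conjEnd]
        exact (ihb.2 y hy).trans (iha.2 _ (hy.conj ihb.1))
      | inv a _ iha =>
        refine ⟨inv_mem iha.1, fun y hy => ?_⟩
        have := iha.2 _ (hy.conj (inv_mem iha.1))
        rw [conjEnd_conjEnd, mul_inv_cancel, conjEnd_one] at this
        exact hP.conn_symm this
    exact (key _ (h.psi_mem_of hs.2.1 (fun c => Subgroup.mem_sup_left (ex_mem_eg hs.1.1 ((mem_self hs.1).smul c)))
      (fun c => Subgroup.mem_sup_right (ex_mem_eg hum.1.1 ((mem_self hum.1).smul c))) _)).2 t ht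
  exact (c3.trans (hP.conn_symm c2)).trans (hP.conn_symm c1)

/-- The two entries of a non-trivial bracket are in one component. -/
lemma conn_of_brk {s t : Module.End k M} (hs : MinFam G s) (ht : MinFam G t) (hn : ¬ Nn s t) (hx : brk s t ≠ 0) :
    Conn G s t := by
  have h1 := hP.conn_brk hs ht hn hx
  have h2 := hP.conn_brk ht hs (not_nn_symm hP.two hP.three hn hs ht) (by rw [brk_swap]; exact neg_ne_zero.2 hx)
  rw [brk_swap] at h2
  refine h2.trans (Relation.ReflTransGen.trans ?_ (hP.conn_symm h1))
  have := hP.conn_neg (h1.minFam ht)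
  exact hP.conn_symm this

end Pair

end Cfsg.Agent.H92.QP
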