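import Cfsg.Agent.H92.QP.FiniteAlg

/-! The finite case, concluded: the algebra is a field and all elementary matrices are reached. -/

set_option autoImplicit false

namespace Cfsg.Agent.H92.QP

open Matrix
open scoped MatrixGroups

variable {k R : Type*} [Field k] [CommRing R] [Algebra k R]

/-- The map exchanging the two scalar families. -/
def thetaFun (w : Rˣ) (M : SL(2, R)) : SL(2, R) :=
  ⟨!![M 1 1, M 1 0 * ((w⁻¹ : Rˣ) : R); M 0 1 * (w : R), M 0 0], by
    rw [Matrix.det_fin_two_of]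
    linear_combination eDet M - M 1 0 * M 0 1 * Units.inv_mul w⟩

@[simp] lemma thetaFun_00 (w : Rˣ) (M : SL(2, R)) : thetaFun w M 0 0 = M 1 1 := rfl
@[simp] lemma thetaFun_01 (w : Rˣ) (M : SL(2, R)) : thetaFun w M 0 1 = M 1 0 * ((w⁻¹ : Rˣ) : R) := rfl
@[simp] lemma thetaFun_10 (w : Rˣ) (M : SL(2, R)) : thetaFun w M 1 0 = M 0 1 * (w : R) := rfl
@[simp] lemma thetaFun_11 (w : Rˣ) (M : SL(2, R)) : thetaFun w M 1 1 = M 0 0 := rfl

lemma thetaFun_mul (w : Rˣ) (M N : SL(2, R)) : thetaFun w (M * N) = thetaFun w M * thetaFun w N := by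
  have h := Units.inv_mul w
  apply eExt <;> simp only [thetaFun_00, thetaFun_01, thetaFun_10, thetaFun_11, eMul]
  · linear_combination -(M 1 0 * N 0 1) * h
  · ring
  · ring
  · linear_combination -(M 0 1 * N 1 0) * h

/-- The automorphism exchanging the two scalar families. -/
def theta (w : Rˣ) : SL(2, R) →* SL(2, R) where
  toFun := thetaFun w
  map_one' := by apply eExt <;> simp [Matrix.SpecialLinearGroup.coe_one]
  map_mul' := thetaFun_mul w

@[simp] lemma theta_00 (w : Rˣ) (M : SL(2, R)) : theta w M 0 0 = M 1 1 := rfl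
@[simp] lemma theta_01 (w : Rˣ) (M : SL(2, R)) : theta w M 0 1 = M 1 0 * ((w⁻¹ : Rˣ) : R) := rfl
@[simp] lemma theta_10 (w : Rˣ) (M : SL(2, R)) : theta w M 1 0 = M 0 1 * (w : R) := rfl
@[simp] lemma theta_11 (w : Rˣ) (M : SL(2, R)) : theta w M 1 1 = M 0 0 := rfl

lemma theta_theta (w : Rˣ) (M : SL(2, R)) : theta w (theta w M) = M := by
  apply eExt <;> simp [mul_assoc]

lemma theta_eU (w : Rˣ) (x : R) : theta w (eU x) = eL (x * w) := by apply eExt <;> simp

lemma theta_eL (w : Rˣ) (x : R) : theta w (eL (x * w)) = eU x := by apply eExt <;> simp [mul_assoc]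

lemma mem_theta {w : Rˣ} {E : Subgroup SL(2, R)} {g : SL(2, R)} :
    g ∈ E.map (theta w) ↔ theta w g ∈ E := by
  refine ⟨?_, fun h => ⟨_, h, theta_theta w g⟩⟩
  rintro ⟨x, hx, rfl⟩
  rwa [theta_theta]

lemma theta_congr {w : Rˣ} {I : Ideal R} {g : SL(2, R)} (h : g ∈ congrSub I) : theta w g ∈ congrSub I := by
  obtain ⟨h1, h2, h3, h4⟩ := mem_congrSub.1 h
  rw [mem_congrSub]
  simp only [theta_00, theta_01, theta_10, theta_11]
  exact ⟨h4, I.mul_mem_right _ h3, I.mul_mem_right _ h2, h1⟩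

variable {w : Rˣ} {E : Subgroup SL(2, R)}

lemma Hyp.theta (h : Hyp k w E) : Hyp k w (E.map (theta w)) := by
  refine ⟨fun c e he => ?_, fun c e he => ?_, fun m hm a b c d hdet => ?_⟩
  · rw [mem_theta] at he ⊢
    rw [map_mul, map_mul, map_inv, theta_eU]
    exact h.normL c _ he
  · rw [mem_theta] at he ⊢
    rw [map_mul, map_mul, map_inv, theta_eL]
    exact h.normU c _ he
  · obtain ⟨e, he, e1, e2, e3, e4⟩ := h.lift m hm d (c * ((w⁻¹ : Rˣ) : R)) (b * w) a (by
      rw [show d * a - c * ((w⁻¹ : Rˣ) : R) * (b * w) - 1 = a * d - b * c - 1 by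
        linear_combination -(b * c) * Units.inv_mul w]
      exact hdet)
    refine ⟨QP.theta w e, ⟨e, he, rfl⟩, ?_, ?_, ?_, ?_⟩ <;> simp only [theta_00, theta_01, theta_10, theta_11]
    · exact e4
    · rw [show e 1 0 * ((w⁻¹ : Rˣ) : R) - b = (e 1 0 - b * w) * ((w⁻¹ : Rˣ) : R) by
        linear_combination b * Units.mul_inv w]
      exact m.mul_mem_right _ e3
    · rw [show e 0 1 * (w : R) - c = (e 0 1 - c * ((w⁻¹ : Rˣ) : R)) * w by
        linear_combination c * Units.inv_mul w]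
      exact m.mul_mem_right _ e2
    · exact e1

variable [Finite R] (p : ℕ) [hp : Fact p.Prime] [CharP R p]

/-- No element of order `p` is trivial modulo a maximal ideal. -/
def NoP (E : Subgroup SL(2, R)) : Prop :=
  ∀ m : Ideal R, m.IsMaximal → ∀ g ∈ E, g ∈ congrSub m → g ^ p = 1 → g = 1

lemma KFree.theta (hK : KFree E) : KFree (E.map (theta w)) := fun g hg hc => by
  rw [mem_theta] at hg
  rw [← theta_theta w g, hK _ hg (theta_congr hc), map_one]

omit [Finite R] hp in
lemma NoP.theta (hN : NoP p E) : NoP p (E.map (theta w)) := fun m hm g hg hc hgp => by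
  rw [mem_theta] at hg
  rw [← theta_theta w g, hN m hm _ hg (theta_congr hc) (by rw [← map_pow, hgp, map_one]), map_one]

omit [Finite R] hp in
lemma NoP.upper_eq_zero (hN : NoP p E) {a : R} (ha : eU a ∈ E) {m : Ideal R} (hm : m.IsMaximal) (ham : a ∈ m) :
    a = 0 :=
  eU_inj ((hN m hm _ ha (by simp [mem_congrSub, ham])
    (by rw [eU_pow, CharP.cast_eq_zero, zero_mul, eU_zero])).trans eU_zero.symm)

include hp

/-- Every residue is the residue of an element of the upper set. -/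
lemma Hyp.upper_residue (h : Hyp k w E) (h2 : IsUnit (2 : R)) (hK : KFree E) (hN : NoP p E)
    {m : Ideal R} (hm : m.IsMaximal) (x : R) : ∃ a, eU a ∈ E ∧ a - x ∈ m := by
  set P := E ⊓ upperMod (nilradical R) with hP
  set C := E ⊓ upperMod m with hC
  set Km := E ⊓ congrSub m with hKm
  set N := Nat.card Km with hNdef
  have hNp : ¬ p ∣ N := by
    intro hdvd
    obtain ⟨q, hq⟩ := exists_prime_orderOf_dvd_card' p hdvd
    have hq' : (q : SL(2, R)) = 1 := hN m hm _ q.2.1 q.2.2 (by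
      rw [← hq, ← Subgroup.coe_pow, pow_orderOf_eq_one, Subgroup.coe_one])
    rw [show q = 1 from Subtype.ext hq', orderOf_one] at hq
    exact hp.out.ne_one hq.symm
  obtain ⟨N', hN'⟩ : ∃ N' : R, (N : R) * N' = 1 := by
    have : IsUnit (N : ZMod p) := by
      rw [ZMod.isUnit_iff_coprime]
      exact ((Nat.Prime.coprime_iff_not_dvd hp.out).2 hNp).symm
    obtain ⟨v, hv⟩ := this.exists_right_inv
    exact ⟨ZMod.castHom (dvd_refl p) R v, by rw [← map_natCast (ZMod.castHom (dvd_refl p) R) N, ← map_mul, hv, map_one]⟩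
  obtain ⟨e, he, e1, e2, e3, e4⟩ := h.lift m hm 1 (N' * x) 0 1 (by simp)
  set φ : SL(2, R) →* SL(2, R ⧸ m) := Matrix.SpecialLinearGroup.map (Ideal.Quotient.mk m) with hφ
  have hφe : φ e = φ (eU (N' * x)) := by
    rw [← Ideal.Quotient.mk_eq_mk_iff_sub_mem] at e1 e2 e3 e4
    exact eExt e1 e2 e3 e4
  have hker : ∀ g, φ g = 1 → g ∈ congrSub m := fun g hg => hg
  have hep : (e ^ N) ^ p = 1 := by
    have hmem : e ^ p ∈ Km := ⟨pow_mem he p, hker _ (by
      rw [map_pow, hφe, ← map_pow, eU_pow, CharP.cast_eq_zero, zero_mul, eU_zero, map_one])⟩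
    rw [← pow_mul, mul_comm, pow_mul, hNdef]
    exact congrArg Subtype.val (pow_card_eq_one' (x := (⟨e ^ p, hmem⟩ : Km)))
  have hφN : φ (e ^ N) = φ (eU x) := by
    rw [map_pow, hφe, ← map_pow, eU_pow, ← mul_assoc, hN', one_mul]
  have hCmem : e ^ N ∈ C := by
    refine ⟨pow_mem he N, ?_⟩
    have hc : (e ^ N) * (eU x)⁻¹ ∈ congrSub m := hker _ (by rw [map_mul, map_inv, hφN, mul_inv_cancel])
    have := mul_mem (congrSub_le_upperMod m hc) (eU_mem_upperMod m x)
    rwa [inv_mul_cancel_right] at this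
  obtain ⟨y, hy, hyP⟩ := exists_conj_of_maximal p (A := Subgroup.zpowers (e ^ N)) (B := P) (C := C)
    (fun z => ⟨1, Subtype.ext (by
      obtain ⟨n, hn⟩ := z.2
      show (z : SL(2, R)) ^ (p ^ 1) = 1
      rw [← hn, pow_one, ← zpow_natCast, ← _root_.zpow_mul, mul_comm, _root_.zpow_mul, zpow_natCast, hep,
        _root_.one_zpow])⟩)
    ((isPGroup_upperMod p).to_inf_right) ((Subgroup.zpowers_le).2 hCmem)
    (inf_le_inf_left E (upperMod_mono (nilradical_le_maximal hm))) (by
      intro S hS hSp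
      obtain ⟨y, hy, hyS⟩ := exists_conj_upperMod p (T := E ⊔ Subgroup.zpowers (eU (1 : R)))
        (Subgroup.mem_sup_right (Subgroup.mem_zpowers _)) hSp ((hS.trans inf_le_left).trans le_sup_left)
      have hyn : y ∈ Subgroup.normalizer (E : Set SL(2, R)) := by
        refine sup_le Subgroup.le_normalizer ?_ hy
        rw [Subgroup.zpowers_le, Subgroup.mem_normalizer_iff]
        refine fun a => ⟨fun ha => by simpa using h.normU 1 a ha, fun ha => ?_⟩
        have := h.normU (-1) _ ha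
        rw [map_neg, map_one, ← eU_inv, inv_inv] at this
        simpa [mul_assoc] using this
      refine Nat.card_le_card_of_injective
        (fun s : S => (⟨y * s * y⁻¹, (Subgroup.mem_normalizer_iff.1 hyn s).1 (hS s.2).1, hyS s s.2⟩ : P))
        fun a b e => Subtype.ext ?_
      simpa using congrArg Subtype.val e)
  have hz := hyP _ (Subgroup.mem_zpowers _)
  have hz' := h.exact_upper h2 hK hz.1 hz.2
  refine ⟨_, hz' ▸ hz.1, ?_⟩
  rw [← Ideal.Quotient.mk_eq_mk_iff_sub_mem]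
  obtain ⟨c, hc⟩ : ∃ c : R, φ y = φ (eU c) := by
    refine ⟨y 0 1, eExt ?_ ?_ ?_ ?_⟩
    · exact (Ideal.Quotient.mk_eq_mk_iff_sub_mem _ _).2 hy.2.2.1
    · rfl
    · exact (Ideal.Quotient.mk_eq_mk_iff_sub_mem _ _).2 (by simpa using hy.2.1)
    · exact (Ideal.Quotient.mk_eq_mk_iff_sub_mem _ _).2 hy.2.2.2
  have hconj : φ (y * e ^ N * y⁻¹) = φ (eU x) := by
    rw [map_mul, map_mul, map_inv, hc, hφN, ← map_inv, ← map_mul, ← map_mul, eU_inv, ← eU_add, ← eU_add,
      add_neg_cancel_comm]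
  exact congrArg (fun M : SL(2, R ⧸ m) => M 0 1) hconj

/-- A torus element with prescribed residue and trivial lower left entry. -/
lemma Hyp.torus (h : Hyp k w E) (h2 : IsUnit (2 : R)) (hK : KFree E) (hN : NoP p E)
    {m : Ideal R} (hm : m.IsMaximal) {t : R} (ht : t ∉ m) :
    ∃ g ∈ E, g 1 0 = 0 ∧ g 0 0 - t ∈ m := by
  obtain ⟨s, hs⟩ : ∃ s, t * s - 1 ∈ m := by
    obtain ⟨y, i, hi, e⟩ := hm.exists_inv ht
    exact ⟨y, by rw [show t * y - 1 = -i by linear_combination e]; exact neg_mem hi⟩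
  obtain ⟨x, hxE, hx1, -, hx3, -⟩ := h.lift m hm t 0 0 s (by rwa [mul_zero, sub_zero])
  obtain ⟨g, hgE, hgt, -, hgP⟩ := exists_torus p (K := E) (fun x hx => by simpa using h.normU 1 x hx) hm
    ⟨x, hxE, hx1, by simpa using hx3⟩ hs
  obtain ⟨a, ha, hax⟩ := h.upper_residue p h2 hK hN hm 1
  have hg10 : g 1 0 ∈ nilradical R := by
    refine mem_nilradical_of_forall fun i hi => conj_mem_ideal hi (fun hai => ?_) (hgP a ha)
    have := hN.upper_eq_zero p ha hi hai
    rw [this, zero_sub, neg_mem_iff] at hax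
    exact hm.ne_top ((Ideal.eq_top_iff_one _).2 hax)
  refine ⟨g, hgE, ?_, hgt⟩
  have hu' : g * eU (algebraMap k R 1) * g⁻¹ ∈ upperMod (nilradical R) := by
    obtain ⟨h1, -, h3, h4⟩ := conj_eU g (algebraMap k R 1)
    rw [mem_upperMod, h1, h3, h4]
    refine ⟨?_, ?_, ?_⟩
    · exact neg_mem (Ideal.mul_mem_left _ _ (by rw [sq]; exact Ideal.mul_mem_left _ _ hg10))
    · rw [sub_sub_cancel_left]; exact neg_mem (Ideal.mul_mem_left _ _ hg10)
    · rw [add_sub_cancel_left]; exact Ideal.mul_mem_left _ _ hg10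
  have hx := h.exact_upper h2 hK (h.comm_mem hgE 1) (mul_mem hu' (inv_mem (eU_mem_upperMod _ _)))
  rw [mul_inv_eq_iff_eq_mul, ← eU_add, map_one] at hx
  exact upper_of_conj_eU (mem_nilradical.1 hg10) hx

/-- The scalars lie in the upper set. -/
lemma Hyp.scalar_mem (h : Hyp k w E) (h2 : IsUnit (2 : R)) {u : k} (hu0 : u ≠ 0) (hu : u ^ 2 ≠ 1)
    (hK : KFree E) (hN : NoP p E) {m : Ideal R} (hm : m.IsMaximal) (c : k) : eU (algebraMap k R c) ∈ E := by
  have hunit : ∀ x : k, x ≠ 0 → algebraMap k R x ∉ m := fun x hx hxm =>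
    hm.ne_top (Ideal.eq_top_of_isUnit_mem _ hxm ((IsUnit.mk0 x hx).map _))
  obtain ⟨g, hg, hg0, hgt⟩ := h.torus p h2 hK hN hm (hunit u hu0)
  obtain ⟨a, ha, hac⟩ := h.upper_residue p h2 hK hN hm (algebraMap k R c)
  have h1 : eU ((g 0 0 ^ 2 - 1) * (algebraMap k R c - a)) ∈ E := by
    have hconj : eU (a * g 0 0 ^ 2) ∈ E := by
      rw [← conj_eU_of_upper g hg0]; exact mul_mem (mul_mem hg ha) (inv_mem hg)
    have := mul_mem (h.fam_of_upper hg hg0 c) (mul_mem (inv_mem hconj) ha)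
    rw [eU_inv, ← eU_add, ← eU_add] at this
    convert this using 2
    ring
  have h0 := hN.upper_eq_zero p h1 hm (Ideal.mul_mem_left _ _ (by rw [← neg_sub]; exact neg_mem hac))
  have hr : IsUnit (g 0 0 ^ 2 - 1) := by
    refine isUnit_of_forall fun i hi hri => ?_
    have := hN.upper_eq_zero p (by simpa using h.fam_of_upper hg hg0 1) hi hri
    apply hunit (u ^ 2 - 1) (sub_ne_zero.2 hu)
    rw [map_sub, map_pow, map_one, show algebraMap k R u ^ 2 - 1 =
      (g 0 0 ^ 2 - 1) - (g 0 0 - algebraMap k R u) * (g 0 0 + algebraMap k R u) by ring, this, zero_sub]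
    exact neg_mem (m.mul_mem_right _ hgt)
  rw [sub_eq_zero.1 (hr.mul_right_eq_zero.1 h0)]
  exact ha

/-- In the remaining case the algebra is a field and the upper set is everything. -/
lemma Hyp.field_case (h : Hyp k w E) (hgen : Algebra.adjoin k ({(w : R)} : Set R) = ⊤) (h2 : IsUnit (2 : R))
    {u : k} (hu0 : u ≠ 0) (hu : u ^ 2 ≠ 1) (hK : KFree E) (hN : NoP p E) :
    (∀ x : R, x ≠ 0 → IsUnit x) ∧ ∀ x : R, eU x ∈ E := by
  haveI : Nontrivial R := CharP.nontrivial_of_char_ne_one hp.out.ne_one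
  obtain ⟨m, hm⟩ := Ideal.exists_maximal R
  have hA1 : ∀ c : k, eU (algebraMap k R c) ∈ E := h.scalar_mem p h2 hu0 hu hK hN hm
  have inj : ∀ a b, eU a ∈ E → eU b ∈ E → a - b ∈ m → a = b := fun a b ha hb hab =>
    sub_eq_zero.1 (hN.upper_eq_zero p (by rw [sub_eq_add_neg, eU_add, ← eU_inv]; exact mul_mem ha (inv_mem hb)) hm hab)
  -- multipliers
  let S : AddSubgroup R :=
    { carrier := {s | ∀ a, eU a ∈ E → eU (s * a) ∈ E}
      zero_mem' := fun a _ => by simp [one_mem]
      add_mem' := fun {x y} hx hy a ha => by rw [add_mul, eU_add]; exact mul_mem (hx a ha) (hy a ha)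
      neg_mem' := fun {x} hx a ha => by rw [neg_mul, ← eU_inv]; exact inv_mem (hx a ha) }
  have hS1 : ∀ s ∈ S, eU s ∈ E := fun s hs => by simpa using hs 1 (by simpa using hA1 1)
  have hSres : ∀ x, ∃ s ∈ S, s - x ∈ m := by
    intro x
    obtain ⟨f, hf⟩ : ∃ f : R, 4 * f = x := by
      obtain ⟨v, hv⟩ := (h2.mul h2).exists_right_inv
      exact ⟨v * x, by linear_combination x * hv⟩
    have sq : ∀ t, ∃ s ∈ S, s - t ^ 2 ∈ m := by
      intro t
      by_cases ht : t ∈ m
      · exact ⟨0, S.zero_mem, by rw [zero_sub, sq]; exact neg_mem (m.mul_mem_left _ ht)⟩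
      obtain ⟨g, hg, hg0, hgt⟩ := h.torus p h2 hK hN hm ht
      refine ⟨g 0 0 ^ 2, fun a ha => ?_, ?_⟩
      · rw [mul_comm, ← conj_eU_of_upper g hg0]; exact mul_mem (mul_mem hg ha) (inv_mem hg)
      · rw [sq_sub_sq]; exact m.mul_mem_left _ hgt
    obtain ⟨s1, h1, e1⟩ := sq (f + 1)
    obtain ⟨s2, h2', e2⟩ := sq (f - 1)
    refine ⟨s1 - s2, sub_mem h1 h2', ?_⟩
    rw [show s1 - s2 - x = (s1 - (f + 1) ^ 2) - (s2 - (f - 1) ^ 2) by linear_combination hf]
    exact sub_mem e1 e2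
  have hAS : ∀ a, eU a ∈ E → a ∈ S := fun a ha => by
    obtain ⟨s, hs, e⟩ := hSres a
    rwa [← inj s a (hS1 s hs) ha e]
  have hunits : ∀ a, eU a ∈ E → a ≠ 0 → IsUnit a := fun a ha ha0 =>
    isUnit_of_forall fun i hi hai => ha0 (hN.upper_eq_zero p ha hi hai)
  have hinv : ∀ a, eU a ∈ E → a ≠ 0 → ∃ b, eU b ∈ E ∧ a * b = 1 := by
    intro a ha ha0
    have hmaps : Function.Injective (fun b : {b : R // eU b ∈ E} =>
        (⟨a * b, hAS a ha _ b.2⟩ : {b : R // eU b ∈ E})) :=
      fun b c e => Subtype.ext ((hunits a ha ha0).mul_left_cancel (congrArg Subtype.val e))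
    obtain ⟨⟨b, hb⟩, e⟩ := (Finite.injective_iff_surjective.1 hmaps) ⟨1, by simpa using hA1 1⟩
    exact ⟨b, hb, congrArg Subtype.val e⟩
  -- the generator
  have hL : eL (w : R) ∈ E := by
    have := h.theta.scalar_mem p h2 hu0 hu hK.theta (hN.theta p) hm 1
    rw [mem_theta, theta_eU] at this
    simpa using this
  have hw : eU (w : R) ∈ E := by
    obtain ⟨x, hx, hxm⟩ := h.upper_residue p h2 hK hN hm (-((w⁻¹ : Rˣ) : R))
    set n := eU x * eL (w : R) * eU x with hn
    have hnE : n ∈ E := mul_mem (mul_mem hx hL) hx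
    set α := 1 + x * (w : R) with hα
    have hαm : α ∈ m := by
      rw [hα, show 1 + x * (w : R) = (x - -((w⁻¹ : Rˣ) : R)) * w by linear_combination -(Units.inv_mul w)]
      exact m.mul_mem_right _ hxm
    have n00 : n 0 0 = α := by simp [hn, eMul, hα]
    have n10 : n 1 0 = (w : R) := by simp [hn, eMul]
    obtain ⟨c00, c01, c10, c11⟩ := conj_eU n 1
    simp only [n00, n10, one_mul] at c00 c01 c10 c11
    obtain ⟨a, ha, ham⟩ := h.theta.upper_residue p h2 hK.theta (hN.theta p) hm (-(w : R))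
    rw [mem_theta, theta_eU] at ha
    set d := n * eU 1 * n⁻¹ * (eL (a * w))⁻¹ with hd
    have hqE : n * eU 1 * n⁻¹ ∈ E := mul_mem (mul_mem hnE (by simpa using hA1 1)) (inv_mem hnE)
    have hdE : d ∈ E := mul_mem hqE (inv_mem ha)
    have hdm : d ∈ congrSub m := by
      rw [mem_congrSub, hd, eL_inv]
      simp only [eMul, c00, c01, c10, c11, eL_00, eL_01, eL_10, eL_11]
      refine ⟨?_, ?_, ?_, ?_⟩
      · rw [show (1 - α * (w : R)) * 1 + α ^ 2 * -(a * w) - 1 = α * (-(w : R) - α * (a * w)) by ring]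
        exact m.mul_mem_right _ hαm
      · rw [show (1 - α * (w : R)) * 0 + α ^ 2 * 1 = α * α by ring]
        exact m.mul_mem_right _ hαm
      · rw [show -(w : R) ^ 2 * 1 + (1 + α * (w : R)) * -(a * w) =
          -((a - -(w : R)) * w) + α * (-(a * w * w)) by ring]
        exact add_mem (neg_mem (m.mul_mem_right _ ham)) (m.mul_mem_right _ hαm)
      · rw [show -(w : R) ^ 2 * 0 + (1 + α * (w : R)) * 1 - 1 = α * w by ring]
        exact m.mul_mem_right _ hαm
    have hscal : ∀ i : Ideal R, i.IsMaximal → d 0 1 ∈ i ∧ d 1 0 ∈ i := by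
      intro i hi
      letI := Ideal.Quotient.field i
      haveI : Finite (R ⧸ i) := Finite.of_surjective _ Ideal.Quotient.mk_surjective
      haveI : CharP (R ⧸ i) p := by
        obtain ⟨q, hq⟩ := CharP.exists (R ⧸ i)
        have : ((p : ℕ) : R ⧸ i) = 0 := by
          rw [← map_natCast (Ideal.Quotient.mk i), CharP.cast_eq_zero, map_zero]
        rcases (Nat.dvd_prime hp.out).1 ((CharP.cast_eq_zero_iff (R ⧸ i) q p).1 this) with h1 | h1
        · exact absurd h1 (CharP.char_ne_one (R ⧸ i) q)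
        · exact h1 ▸ hq
      set φ : SL(2, R) →* SL(2, R ⧸ i) := Matrix.SpecialLinearGroup.map (Ideal.Quotient.mk i) with hφ
      have hEtop : E.map φ = ⊤ := map_eq_top_of_lift h hi
      haveI : ((E ⊓ congrSub m).map φ).Normal := ⟨by
        rintro _ ⟨x, hx, rfl⟩ gg
        obtain ⟨e, he, rfl⟩ : gg ∈ E.map φ := hEtop ▸ Subgroup.mem_top gg
        exact ⟨e * x * e⁻¹, ⟨E.mul_mem (E.mul_mem he hx.1) (E.inv_mem he), (congrSub_normal m).conj_mem _ hx.2 _⟩,
          by simp [map_mul, map_inv]⟩⟩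
      have hnop : ∀ g ∈ (E ⊓ congrSub m).map φ, g ^ p = 1 → g = 1 := by
        intro g hg hgp
        by_contra hg1
        have ho : orderOf g = p := orderOf_eq_prime hgp hg1
        have hdvd : p ∣ Nat.card ((E ⊓ congrSub m).map φ) := by
          rw [← ho, ← Subgroup.orderOf_mk g hg]; exact orderOf_dvd_natCard _
        obtain ⟨q, hq⟩ := exists_prime_orderOf_dvd_card' (G := (E ⊓ congrSub m : Subgroup SL(2, R))) p
          (hdvd.trans (Subgroup.card_map_dvd _ _))
        have hq' : (q : SL(2, R)) = 1 := hN m hm _ q.2.1 q.2.2 (by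
          rw [← hq, ← Subgroup.coe_pow, pow_orderOf_eq_one, Subgroup.coe_one])
        rw [show q = 1 from Subtype.ext hq', orderOf_one] at hq
        exact hp.out.ne_one hq.symm
      have := scalar_of_normal p (u := Ideal.Quotient.mk i (algebraMap k R u))
        (fun e => (h2.map (Ideal.Quotient.mk i)).ne_zero (by rw [map_ofNat]; exact e))
        ((IsUnit.mk0 u hu0).map ((Ideal.Quotient.mk i).comp (algebraMap k R))).ne_zero
        (fun e => hu (((Ideal.Quotient.mk i).comp (algebraMap k R)).injective (by simpa using e)))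
        hnop (φ d) ⟨d, ⟨hdE, hdm⟩, rfl⟩
      exact ⟨Ideal.Quotient.eq_zero_iff_mem.1 this.1, Ideal.Quotient.eq_zero_iff_mem.1 this.2⟩
    have hd01 : d 0 1 ∈ nilradical R := mem_nilradical_of_forall fun i hi => (hscal i hi).1
    have hd10 : d 1 0 ∈ nilradical R := mem_nilradical_of_forall fun i hi => (hscal i hi).2
    have ed01 : d 0 1 = α ^ 2 := by
      simp [hd, eL_inv, eMul, c00, c01]
    have hαN : α ∈ nilradical R :=
      mem_nilradical.2 (IsNilpotent.of_pow (m := 2) (mem_nilradical.1 (ed01 ▸ hd01)))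
    -- the commutator with the upper family is trivial
    have hd00 : d 0 0 = 1 - α * (w : R) - α ^ 2 * (a * w) := by
      simp [hd, eL_inv, eMul, c00, c01]; ring
    have hd11 : d 1 1 = 1 + α * (w : R) := by simp [hd, eL_inv, eMul, c10, c11]
    have hdu : d ∈ upperMod (nilradical R) := by
      refine ⟨hd10, ?_, ?_⟩
      · rw [hd00, show 1 - α * (w : R) - α ^ 2 * (a * w) - 1 = α * (-(w : R) - α * (a * w)) by ring]
        exact Ideal.mul_mem_right _ _ hαN
      · rw [hd11, add_sub_cancel_left]; exact Ideal.mul_mem_right _ _ hαN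
    have hdU := h.exact_upper h2 hK hdE hdu
    have h11 := congrArg (fun M : SL(2, R) => M 1 1) hdU
    simp only [hd11, eU_11, add_eq_left] at h11
    have hα0 : α = 0 := w.isUnit.mul_left_eq_zero.1 h11
    obtain ⟨b, hb, e⟩ := hinv (-x) (by rw [← eU_inv]; exact inv_mem hx) (by
      intro e
      rw [neg_eq_zero] at e
      simp [hα, e] at hα0)
    have : b = (w : R) := by
      rw [hα] at hα0
      linear_combination b * hα0 + (w : R) * e
    rwa [← this]
  have hall : ∀ x : R, eU x ∈ E := by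
    intro x
    have hx : x ∈ Algebra.adjoin k ({(w : R)} : Set R) := hgen ▸ Algebra.mem_top
    induction hx using Algebra.adjoin_induction with
    | mem y hy => rwa [Set.mem_singleton_iff.1 hy]
    | algebraMap c => exact hA1 c
    | add y z _ _ hy hz => rw [eU_add]; exact mul_mem hy hz
    | mul y z _ _ hy hz => exact hAS y hy z hz
  exact ⟨fun x hx => hunits x (hall x) hx, hall⟩

/-- The finite case. -/
theorem finite_machine (h : Hyp k w E) (hgen : Algebra.adjoin k ({(w : R)} : Set R) = ⊤) (h2 : IsUnit (2 : R))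
    {u : k} (hu0 : u ≠ 0) (hu : u ^ 2 ≠ 1) :
    Fam k E ∨ ((∀ x : R, x ≠ 0 → IsUnit x) ∧ (∀ x : R, eU x ∈ E) ∧ ∀ x : R, eL x ∈ E) := by
  by_cases hK : KFree E
  · by_cases hN : NoP p E
    · obtain ⟨h1, h2'⟩ := h.field_case p hgen h2 hu0 hu hK hN
      refine Or.inr ⟨h1, h2', fun x => ?_⟩
      have := (h.theta.field_case p hgen h2 hu0 hu hK.theta (hN.theta p)).2 (x * ((w⁻¹ : Rˣ) : R))
      rw [mem_theta, theta_eU, mul_assoc, Units.inv_mul, mul_one] at this
      exact this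
    · simp only [NoP, not_forall] at hN
      obtain ⟨m, hm, q, hqE, hqm, hqp, hq1⟩ := hN
      exact Or.inl (h.fam_of_p p h2 hu0 hu hK hm hqE hqm hqp hq1)
  · exact Or.inl (h.fam_of_congr p h2 hK)

end Cfsg.Agent.H92.QP
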