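import Cfsg.Agent.H92.QP.Good
import Cfsg.Agent.H92.QP.FiniteField

/-! Two scalar families in SL₂ over a finite-dimensional algebra with one generator. -/

set_option autoImplicit false

namespace Cfsg.Agent.H92.QP

open Matrix
open scoped MatrixGroups

variable {k : Type*} [Field k]

lemma exists_sq_ne_one (h2 : (2 : k) ≠ 0) (hk : Nat.card k ≠ 3) : ∃ u : k, u ≠ 0 ∧ u ^ 2 ≠ 1 := by
  classical
  by_contra hcon
  push Not at hcon
  have hs : ∀ x : k, x ∈ ({0, 1, -1} : Finset k) := fun x => by
    by_cases hx : x = 0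
    · simp [hx]
    · rcases sq_eq_one_iff.1 (hcon x hx) with h | h <;> simp [h]
  haveI : Finite k := Set.finite_univ_iff.1 (Set.Finite.subset (Finset.finite_toSet _) fun x _ => hs x)
  apply hk
  haveI : Fintype k := Fintype.ofFinite k
  rw [Nat.card_eq_fintype_card, ← Finset.card_univ,
    show (Finset.univ : Finset k) = {0, 1, -1} from (Finset.eq_univ_of_forall hs).symm]
  rw [Finset.card_insert_of_notMem, Finset.card_pair]
  · exact fun e => h2 (by linear_combination e)
  · simp

variable {R : Type*} [CommRing R] [Algebra k R]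

/-- Either a degenerate scalar family occurs, or the algebra is a field and all elementary matrices occur, in every
term of the derived series of the generated group. -/
theorem sl2_machine [Module.Finite k R] [Nontrivial R] (h2 : (2 : k) ≠ 0) (hk : Nat.card k ≠ 3) (w : Rˣ)
    (hgen : Algebra.adjoin k ({(w : R)} : Set R) = ⊤) {H : Subgroup SL(2, R)}
    (hU : ∀ c : k, eU (algebraMap k R c) ∈ H) (hL : ∀ c : k, eL (algebraMap k R c * w) ∈ H) (n : ℕ) :
    (∃ r : R, r ≠ 0 ∧ ¬ IsUnit r ∧ ∀ c : k, eU (algebraMap k R c * r) ∈ dser H n) ∨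
      ((∀ x : R, x ≠ 0 → IsUnit x) ∧ (∀ x : R, eU x ∈ dser H n) ∧ ∀ x : R, eL x ∈ dser H n) := by
  obtain ⟨u, hu0, hu⟩ := exists_sq_ne_one h2 hk
  have h2R : IsUnit (2 : R) := by
    simpa only [map_ofNat] using (IsUnit.mk0 (2 : k) h2).map (algebraMap k R)
  rcases finite_or_infinite k with hfin | hinf
  · obtain ⟨p, hchar⟩ := CharP.exists k
    haveI : Fact p.Prime := ⟨CharP.char_is_prime k p⟩
    haveI : CharP R p := charP_of_injective_algebraMap (algebraMap k R).injective p
    haveI : Finite R := Module.finite_of_finite k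
    refine finite_machine p (u := u) ⟨fun c e he => dser_conj n (hU c) he, fun c e he => dser_conj n (hL c) he,
      fun m hm a b c d hdet => ?_⟩ hgen h2R hu0 hu
    letI := Ideal.Quotient.field m
    haveI : Finite (R ⧸ m) := Finite.of_surjective _ Ideal.Quotient.mk_surjective
    set φ : SL(2, R) →* SL(2, R ⧸ m) := Matrix.SpecialLinearGroup.map (Ideal.Quotient.mk m) with hφ
    have h3 : 3 < Nat.card k := by
      have hlow : 1 < Nat.card k := Finite.one_lt_card
      have hne2 : Nat.card k ≠ 2 := by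
        intro h
        haveI : Fintype k := Fintype.ofFinite k
        apply h2
        have h' := FiniteField.cast_card_eq_zero k
        rw [← Nat.card_eq_fintype_card, h] at h'
        exact_mod_cast h'
      omega
    obtain ⟨hall1, hall2⟩ := elem_of_finite (k := k) (F := R ⧸ m)
      (by simpa only [map_ofNat] using (h2R.map (Ideal.Quotient.mk m)).ne_zero) h3
      (lam := Ideal.Quotient.mk m (w : R)) (w.isUnit.map (Ideal.Quotient.mk m)).ne_zero
      (by
        have := congrArg (Subalgebra.map (Ideal.Quotient.mkₐ k m)) hgen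
        rw [AlgHom.map_adjoin, Algebra.map_top, Set.image_singleton,
          (AlgHom.range_eq_top _).2 (Ideal.Quotient.mkₐ_surjective k m)] at this
        exact this)
      (H := H.map φ) (fun c => ⟨_, hU c, by apply eExt <;> simp [hφ] <;> rfl⟩)
      (fun c => ⟨_, hL c, by apply eExt <;> simp [hφ] <;> rfl⟩)
    obtain ⟨g1, g2⟩ := elem_mem_dser hall1 hall2
      (u := Ideal.Quotient.mk m (algebraMap k R u))
      (((IsUnit.mk0 u hu0).map (algebraMap k R)).map _)
      (by
        have := ((IsUnit.mk0 (u ^ 2 - 1) (sub_ne_zero.2 hu)).map (algebraMap k R)).map (Ideal.Quotient.mk m)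
        simpa using this) n
    have htop : (dser H n).map φ = ⊤ := by
      rw [dser_map, eq_top_iff, ← sl2_closure_sx_sy, Subgroup.closure_le]
      rintro _ (⟨t, rfl⟩ | ⟨t, rfl⟩)
      · exact g1 t
      · exact g2 (-t)
    let M : SL(2, R ⧸ m) := ⟨!![Ideal.Quotient.mk m a, Ideal.Quotient.mk m b; Ideal.Quotient.mk m c,
      Ideal.Quotient.mk m d], by
        rw [Matrix.det_fin_two_of, ← map_mul, ← map_mul, ← map_sub, ← map_one (Ideal.Quotient.mk m),
          Ideal.Quotient.mk_eq_mk_iff_sub_mem]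
        exact hdet⟩
    obtain ⟨e, he, heM⟩ : M ∈ (dser H n).map φ := htop ▸ Subgroup.mem_top M
    refine ⟨e, he, ?_, ?_, ?_, ?_⟩ <;> rw [← Ideal.Quotient.mk_eq_mk_iff_sub_mem]
    · exact congrArg (fun N : SL(2, R ⧸ m) => N 0 0) heM
    · exact congrArg (fun N : SL(2, R ⧸ m) => N 0 1) heM
    · exact congrArg (fun N : SL(2, R ⧸ m) => N 1 0) heM
    · exact congrArg (fun N : SL(2, R ⧸ m) => N 1 1) heM
  · obtain ⟨g1, g2⟩ := elem_of_infinite h2 w.isUnit hgen hU hL
    obtain ⟨e1, e2⟩ := elem_mem_dser g1 g2 (u := algebraMap k R u) ((IsUnit.mk0 u hu0).map _)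
      (by simpa using (IsUnit.mk0 (u ^ 2 - 1) (sub_ne_zero.2 hu)).map (algebraMap k R)) n
    by_cases hfield : ∀ x : R, x ≠ 0 → IsUnit x
    · exact Or.inr ⟨hfield, e1, e2⟩
    · push Not at hfield
      obtain ⟨r, hr, hr'⟩ := hfield
      exact Or.inl ⟨r, hr, hr', fun c => e1 _⟩

end Cfsg.Agent.H92.QP
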