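import Cfsg.Agent.H92.QP.Quad
import Cfsg.Agent.H92.QP.Machine

/-! The invertible corner of the operator `st + ts` of two quadratic families. -/

set_option autoImplicit false

namespace Cfsg.Agent.H92.QP

open Polynomial
open scoped MatrixGroups

variable {k : Type*} [Field k] {M : Type*} [AddCommGroup M] [Module k M]

/-- The matrix representation attached to a pair of nilpotents summing to an idempotent. -/
def triEnd {A R : Type*} [Ring A] [CommRing R] (ρ : R → A) (π x y : A) (g : SL(2, R)) : A :=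
  ρ (g 0 0) * (x * y) + ρ (g 0 1) * x + ρ (g 1 0) * y + ρ (g 1 1) * (y * x) + (1 - π)

/-- The axioms for `triEnd`. -/
structure Tri {A R : Type*} [Ring A] [CommRing R] (ρ : R → A) (π x y : A) : Prop where
  add : ∀ a b, ρ (a + b) = ρ a + ρ b
  mul : ∀ a b, ρ (a * b) = ρ a * ρ b
  one : ρ 1 = π
  zero : ρ 0 = 0
  cx : ∀ a, Commute (ρ a) x
  cy : ∀ a, Commute (ρ a) y
  pr : ∀ a, π * ρ a = ρ a
  xx : x * x = 0
  yy : y * y = 0
  xyx : x * y * x = x
  yxy : y * x * y = y
  xp : x * π = x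
  yp : y * π = y
  px : π * x = x
  py : π * y = y
  sum : x * y + y * x = π
  inj : ∀ a, ρ a * x = 0 → a = 0

namespace Tri

variable {A R : Type*} [Ring A] [CommRing R] {ρ : R → A} {π x y : A} (T : Tri ρ π x y)
include T

lemma end_one : triEnd ρ π x y 1 = 1 := by
  simp only [triEnd, Matrix.SpecialLinearGroup.coe_one, Matrix.one_apply_eq, ne_eq, zero_ne_one, one_ne_zero,
    not_false_eq_true, Matrix.one_apply_ne, T.one, T.zero, zero_mul, add_zero]
  rw [← mul_add, T.sum, ← T.one, ← T.mul, one_mul, add_sub_cancel]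

lemma end_mul (g h : SL(2, R)) : triEnd ρ π x y (g * h) = triEnd ρ π x y g * triEnd ρ π x y h := by
  have q1 : ∀ z, x * ((1 - π) * z) = 0 := fun z => by rw [← mul_assoc, mul_sub, mul_one, T.xp, sub_self, zero_mul]
  have q2 : ∀ z, y * ((1 - π) * z) = 0 := fun z => by rw [← mul_assoc, mul_sub, mul_one, T.yp, sub_self, zero_mul]
  have q1' : x * (1 - π) = 0 := by rw [mul_sub, mul_one, T.xp, sub_self]
  have q2' : y * (1 - π) = 0 := by rw [mul_sub, mul_one, T.yp, sub_self]
  have q3 : ∀ a z, (1 - π) * (ρ a * z) = 0 := fun a z => by rw [← mul_assoc, sub_mul, one_mul, T.pr, sub_self, zero_mul]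
  have q4 : (1 - π) * (1 - π) = 1 - π := by
    rw [sub_mul, one_mul, mul_sub, mul_one, ← T.one, ← T.mul, one_mul, sub_self, sub_zero]
  have c1 : ∀ a z, x * (ρ a * z) = ρ a * (x * z) := fun a z => by rw [← mul_assoc, ← (T.cx a).eq, mul_assoc]
  have c2 : ∀ a z, y * (ρ a * z) = ρ a * (y * z) := fun a z => by rw [← mul_assoc, ← (T.cy a).eq, mul_assoc]
  have r1 : ∀ z, x * (x * z) = 0 := fun z => by rw [← mul_assoc, T.xx, zero_mul]
  have r2 : ∀ z, y * (y * z) = 0 := fun z => by rw [← mul_assoc, T.yy, zero_mul]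
  have r3 : ∀ z, x * (y * (x * z)) = x * z := fun z => by rw [← mul_assoc, ← mul_assoc, T.xyx]
  have r4 : ∀ z, y * (x * (y * z)) = y * z := fun z => by rw [← mul_assoc, ← mul_assoc, T.yxy]
  have r5 : x * (y * x) = x := by rw [← mul_assoc, T.xyx]
  have r6 : y * (x * y) = y := by rw [← mul_assoc, T.yxy]
  have m1 : ∀ a b z, ρ a * (ρ b * z) = ρ (a * b) * z := fun a b z => by rw [← mul_assoc, T.mul]
  simp only [triEnd, mul_add, add_mul, mul_assoc, q1, q2, q1', q2', q3, q4, c1, c2, r1, r2, r3, r4, r5, r6,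
    T.xx, T.yy, m1, mul_zero, add_zero, zero_add]
  rw [eMul, eMul, eMul, eMul]
  simp only [T.add, add_mul]
  abel

lemma end_eU (a : R) : triEnd ρ π x y (eU a) = 1 + ρ a * x := by
  simp only [triEnd, eU_00, eU_01, eU_10, eU_11, T.one, T.zero, zero_mul, add_zero]
  rw [← mul_assoc π, T.px, ← mul_assoc π, T.py]
  rw [show x * y + ρ a * x + y * x + (1 - π) = (x * y + y * x) + ρ a * x + (1 - π) by abel, T.sum]
  abel

lemma end_eL (a : R) : triEnd ρ π x y (eL a) = 1 + ρ a * y := by
  simp only [triEnd, eL_00, eL_01, eL_10, eL_11, T.one, T.zero, zero_mul, add_zero]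
  rw [← mul_assoc π, T.px, ← mul_assoc π, T.py]
  rw [show x * y + ρ a * y + y * x + (1 - π) = (x * y + y * x) + ρ a * y + (1 - π) by abel, T.sum]
  abel

lemma end_inj {g : SL(2, R)} (h : triEnd ρ π x y g = 1) : g = 1 := by
  have c1 : ∀ a z, x * (ρ a * z) = ρ a * (x * z) := fun a z => by rw [← mul_assoc, ← (T.cx a).eq, mul_assoc]
  have c2 : ∀ a z, y * (ρ a * z) = ρ a * (y * z) := fun a z => by rw [← mul_assoc, ← (T.cy a).eq, mul_assoc]
  have r1 : ∀ z, x * (x * z) = 0 := fun z => by rw [← mul_assoc, T.xx, zero_mul]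
  have r2 : ∀ z, y * (y * z) = 0 := fun z => by rw [← mul_assoc, T.yy, zero_mul]
  have r3 : ∀ z, x * (y * (x * z)) = x * z := fun z => by rw [← mul_assoc, ← mul_assoc, T.xyx]
  have r4 : ∀ z, y * (x * (y * z)) = y * z := fun z => by rw [← mul_assoc, ← mul_assoc, T.yxy]
  have r5 : x * (y * x) = x := by rw [← mul_assoc, T.xyx]
  have r6 : y * (x * y) = y := by rw [← mul_assoc, T.yxy]
  have px' : ∀ z, π * (x * z) = x * z := fun z => by rw [← mul_assoc, T.px]
  have py' : ∀ z, π * (y * z) = y * z := fun z => by rw [← mul_assoc, T.py]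
  have hyy := congrArg (fun z => y * z * y) h
  have hxx := congrArg (fun z => x * z * x) h
  have hxy := congrArg (fun z => x * z * y) h
  have hyx := congrArg (fun z => y * z * x) h
  simp only [triEnd, mul_add, add_mul, mul_sub, sub_mul, mul_assoc, one_mul, mul_one, c1, c2, r1, r2, r3, r4,
    r5, r6, T.xx, T.yy, px', py', T.px, T.py, sub_self, mul_zero, add_zero, zero_add] at hyy hxx hxy hyx
  have hy0 : ∀ a, ρ a * y = 0 → a = 0 := fun a e => T.inj a (by
    have := congrArg (fun z => x * z * x) e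
    simp only [mul_assoc, c1, r5, mul_zero, zero_mul] at this
    exact this)
  have hxy0 : ∀ a, ρ a * (x * y) = ρ 1 * (x * y) → a = 1 := fun a e => sub_eq_zero.1 (T.inj _ (by
    have h1 := T.add (a - 1) 1
    rw [sub_add_cancel] at h1
    have := congrArg (fun z => z * x) e
    simp only [h1, add_mul, mul_assoc, r5, add_eq_right] at this
    exact this))
  have hyx0 : ∀ a, ρ a * (y * x) = ρ 1 * (y * x) → a = 1 := fun a e => sub_eq_zero.1 (T.inj _ (by
    have h1 := T.add (a - 1) 1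
    rw [sub_add_cancel] at h1
    have := congrArg (fun z => x * z) e
    simp only [h1, add_mul, mul_add, c1, r5, add_eq_right] at this
    exact this))
  refine eExt ?_ ?_ ?_ ?_ <;> simp only [Matrix.SpecialLinearGroup.coe_one, Matrix.one_apply_eq, ne_eq,
    zero_ne_one, one_ne_zero, not_false_eq_true, Matrix.one_apply_ne]
  · exact hyx0 _ (by rw [T.one, py']; exact hyx)
  · exact hy0 _ hyy
  · exact T.inj _ hxx
  · exact hxy0 _ (by rw [T.one, px']; exact hxy)

end Tri

/-- Fitting data for `z = st + ts`. -/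
structure Fit (s t : Module.End k M) (ν : k[X]) (π wi : Module.End k M) (e : ℕ) : Prop where
  ss : s * s = 0
  tt : t * t = 0
  monic : ν.Monic
  deg : ν.natDegree ≠ 0
  coeff0 : ν.coeff 0 ≠ 0
  idem : π * π = π
  pol : ∃ A B : k[X], π = aeval (s * t + t * s) A ∧ wi = aeval (s * t + t * s) B
  ann : π * aeval (s * t + t * s) ν = 0
  dvd : ∀ p : k[X], π * aeval (s * t + t * s) p = 0 → ν ∣ p
  inv : (s * t + t * s) * wi = π
  wiπ : wi * π = wi
  nil : (s * t + t * s) ^ e * (1 - π) = 0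

lemma exists_fit [FiniteDimensional k M] {s t : Module.End k M} (hs : s * s = 0) (ht : t * t = 0)
    (hz : ¬ IsNilpotent (s * t + t * s)) : ∃ ν π wi e, Fit s t ν π wi e := by
  set z := s * t + t * s with hzdef
  have hint : IsIntegral k z := Algebra.IsIntegral.isIntegral z
  set μ := minpoly k z with hμ
  obtain ⟨ν, hν, hndvd⟩ := exists_eq_pow_rootMultiplicity_mul_and_not_dvd μ (minpoly.ne_zero hint) 0
  set e := rootMultiplicity 0 μ
  simp only [map_zero, sub_zero] at hν hndvd
  have hνm : ν.Monic := by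
    have := minpoly.monic hint
    rw [← hμ, hν] at this
    exact (monic_X_pow e).of_mul_monic_left this
  obtain ⟨a, b, hab⟩ := (Polynomial.irreducible_X.coprime_iff_not_dvd.2 hndvd).pow_left (m := e)
  have hz0 : aeval z μ = 0 := minpoly.aeval k z
  have hc0 : ν.coeff 0 ≠ 0 := fun h => hndvd (X_dvd_iff.2 h)
  have hπν : aeval z (a * X ^ e) * aeval z ν = 0 := by
    rw [← map_mul, mul_assoc, ← hν, map_mul, hz0, mul_zero]
  refine ⟨ν, aeval z (a * X ^ e), aeval z (a * X ^ e * (C (-(ν.coeff 0)⁻¹) * ν.divX)), e,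
    hs, ht, hνm, ?_, hc0, ?_, ⟨_, _, rfl, rfl⟩, hπν, ?_, ?_, ?_, ?_⟩
  · intro hd
    have h1 : ν = 1 := by
      rw [eq_C_of_natDegree_eq_zero hd]
      have := hνm.leadingCoeff
      rw [leadingCoeff, hd] at this
      rw [this, map_one]
    apply hz
    refine ⟨e, ?_⟩
    rw [hν, h1, mul_one, map_pow, aeval_X] at hz0
    exact hz0
  · have h1 : a * X ^ e * (a * X ^ e) = a * X ^ e - (a * b) * (X ^ e * ν) := by
      linear_combination (a * X ^ e) * hab
    rw [← map_mul, h1, map_sub, ← hν, map_mul _ (a * b), hz0, mul_zero, sub_zero]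
  · intro p hp
    rw [← hzdef] at hp
    rw [← map_mul] at hp
    have h1 : μ ∣ a * X ^ e * p := minpoly.dvd k z hp
    have h2 : ν ∣ a * X ^ e * p := (Dvd.intro_left _ hν.symm).trans h1
    exact (show IsCoprime ν (a * X ^ e) from ⟨b, 1, by linear_combination hab⟩).dvd_of_dvd_mul_left h2
  · have h1 : X * (a * X ^ e * (C (-(ν.coeff 0)⁻¹) * ν.divX)) =
        a * X ^ e + C (-(ν.coeff 0)⁻¹) * (a * X ^ e * ν) := by
      have := X_mul_divX_add ν
      have hc : C (-(ν.coeff 0)⁻¹) * C (ν.coeff 0) = -1 := by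
        rw [← map_mul, neg_mul, inv_mul_cancel₀ hc0, map_neg, map_one]
      linear_combination C (-(ν.coeff 0)⁻¹) * (a * X ^ e) * this - (a * X ^ e) * hc
    rw [← hzdef]
    conv_lhs => rw [show z * aeval z (a * X ^ e * (C (-(ν.coeff 0)⁻¹) * ν.divX)) =
      aeval z (X * (a * X ^ e * (C (-(ν.coeff 0)⁻¹) * ν.divX))) by rw [map_mul _ X, aeval_X], h1, map_add,
      map_mul _ (C _), map_mul _ (a * X ^ e) ν, hπν, mul_zero, add_zero]
  · have h1 : a * X ^ e * (C (-(ν.coeff 0)⁻¹) * ν.divX) * (a * X ^ e) =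
        a * X ^ e * (C (-(ν.coeff 0)⁻¹) * ν.divX) -
          (a * b * (C (-(ν.coeff 0)⁻¹) * ν.divX)) * (X ^ e * ν) := by
      linear_combination (a * X ^ e * (C (-(ν.coeff 0)⁻¹) * ν.divX)) * hab
    rw [← map_mul, h1, map_sub, ← hν, map_mul _ (a * b * _), hz0, mul_zero, sub_zero]
  · have h1 : X ^ e * (1 - a * X ^ e) = b * (X ^ e * ν) := by linear_combination -(X ^ e) * hab
    rw [← hzdef, ← aeval_X (R := k) z, ← map_pow, aeval_X, show (1 : Module.End k M) = aeval z (1 : k[X]) by simp,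
      ← map_sub, ← map_mul, h1, map_mul, ← hν, hz0, mul_zero]

variable {s t : Module.End k M} {ν : k[X]} {π wi : Module.End k M} {e : ℕ}

/-- The representation of the corner algebra. -/
noncomputable def Fit.rho (_ : Fit s t ν π wi e) (r : AdjoinRoot ν) : Module.End k M :=
  π * aeval (s * t + t * s) (Classical.choose (AdjoinRoot.mk_surjective r))

namespace Fit

variable (F : Fit s t ν π wi e)
include F

lemma commute_aeval {x : Module.End k M} (hx : Commute x (s * t + t * s)) (p : k[X]) :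
    Commute x (aeval (s * t + t * s) p) := by
  induction p using Polynomial.induction_on' with
  | add p q hp hq => rw [map_add]; exact hp.add_right hq
  | monomial n a => rw [aeval_monomial]; exact (show Commute x (algebraMap k (Module.End k M) a) from (Algebra.commutes a x).symm).mul_right (hx.pow_right n)

lemma commute_pi_s : Commute π s := by
  obtain ⟨A, -, rfl, -⟩ := F.pol
  refine (F.commute_aeval ?_ A).symm
  show s * (s * t + t * s) = (s * t + t * s) * s
  simp only [mul_add, add_mul, ← mul_assoc, F.ss, mul_assoc _ s s, zero_mul, mul_zero, zero_add, add_zero]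

lemma commute_pi_t : Commute π t := by
  obtain ⟨A, -, rfl, -⟩ := F.pol
  refine (F.commute_aeval ?_ A).symm
  show t * (s * t + t * s) = (s * t + t * s) * t
  simp only [mul_add, add_mul, ← mul_assoc, F.tt, mul_assoc _ t t, zero_mul, mul_zero, zero_add, add_zero]

lemma commute_z_s : Commute (s * t + t * s) s := by
  show (s * t + t * s) * s = s * (s * t + t * s)
  simp only [mul_add, add_mul, ← mul_assoc, F.ss, mul_assoc _ s s, zero_mul, mul_zero, zero_add, add_zero]

lemma commute_z_t : Commute (s * t + t * s) t := by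
  show (s * t + t * s) * t = t * (s * t + t * s)
  simp only [mul_add, add_mul, ← mul_assoc, F.tt, mul_assoc _ t t, zero_mul, mul_zero, zero_add, add_zero]

lemma commute_wi_s : Commute wi s := by
  obtain ⟨-, B, -, rfl⟩ := F.pol
  exact (F.commute_aeval F.commute_z_s.symm B).symm

lemma commute_wi_t : Commute wi t := by
  obtain ⟨-, B, -, rfl⟩ := F.pol
  exact (F.commute_aeval F.commute_z_t.symm B).symm

lemma commute_pi_z : Commute π (s * t + t * s) := by
  obtain ⟨A, -, rfl, -⟩ := F.pol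
  exact (F.commute_aeval (Commute.refl _) A).symm

lemma commute_wi_pi : Commute wi π := by
  obtain ⟨A, B, rfl, rfl⟩ := F.pol
  exact (F.commute_aeval (F.commute_aeval (Commute.refl _) B).symm A)

lemma rho_mk (p : k[X]) : F.rho (AdjoinRoot.mk ν p) = π * aeval (s * t + t * s) p := by
  obtain ⟨q, hq⟩ := AdjoinRoot.mk_eq_mk.1 (Classical.choose_spec (AdjoinRoot.mk_surjective (AdjoinRoot.mk ν p)))
  unfold Fit.rho
  rw [sub_eq_iff_eq_add.1 hq, map_add, map_mul, mul_add, ← mul_assoc, F.ann, zero_mul, zero_add]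

lemma rho_add (a b : AdjoinRoot ν) : F.rho (a + b) = F.rho a + F.rho b := by
  obtain ⟨p, rfl⟩ := AdjoinRoot.mk_surjective a
  obtain ⟨q, rfl⟩ := AdjoinRoot.mk_surjective b
  rw [← map_add, F.rho_mk, F.rho_mk, F.rho_mk, map_add, mul_add]

lemma rho_mul (a b : AdjoinRoot ν) : F.rho (a * b) = F.rho a * F.rho b := by
  obtain ⟨p, rfl⟩ := AdjoinRoot.mk_surjective a
  obtain ⟨q, rfl⟩ := AdjoinRoot.mk_surjective b
  rw [← map_mul, F.rho_mk, F.rho_mk, F.rho_mk, map_mul]
  rw [mul_assoc π, ← mul_assoc _ π, (F.commute_aeval F.commute_pi_z p).symm.eq, mul_assoc π,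
    ← mul_assoc π π, F.idem]

lemma rho_algebraMap (c : k) : F.rho (algebraMap k _ c) = c • π := by
  have : algebraMap k (AdjoinRoot ν) c = AdjoinRoot.mk ν (C c) := by
    rw [AdjoinRoot.mk_C]; rfl
  rw [this, F.rho_mk, aeval_C, Algebra.algebraMap_eq_smul_one, mul_smul_comm, mul_one]

lemma rho_one : F.rho 1 = π := by
  have := F.rho_algebraMap 1
  rwa [map_one, one_smul] at this

lemma rho_zero : F.rho 0 = 0 := by
  have := F.rho_algebraMap 0
  rwa [map_zero, zero_smul] at this

lemma rho_root : F.rho (AdjoinRoot.root ν) = π * (s * t + t * s) := by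
  rw [← AdjoinRoot.mk_X, F.rho_mk, aeval_X]

lemma rho_eq_zero {r : AdjoinRoot ν} (h : F.rho r = 0) : r = 0 := by
  obtain ⟨p, rfl⟩ := AdjoinRoot.mk_surjective r
  rw [F.rho_mk] at h
  exact AdjoinRoot.mk_eq_zero.2 (F.dvd p h)

lemma rho_comm {x : Module.End k M} (h1 : Commute π x) (h2 : Commute (s * t + t * s) x) (r : AdjoinRoot ν) :
    Commute (F.rho r) x := by
  obtain ⟨p, rfl⟩ := AdjoinRoot.mk_surjective r
  rw [F.rho_mk]
  exact h1.mul_left (F.commute_aeval h2.symm p).symm

lemma pi_rho (r : AdjoinRoot ν) : π * F.rho r = F.rho r := by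
  obtain ⟨p, hp⟩ := AdjoinRoot.mk_surjective r
  have h := F.rho_mk p
  rw [hp] at h
  calc π * F.rho r = π * (π * aeval (s * t + t * s) p) := congrArg (π * ·) h
    _ = π * aeval (s * t + t * s) p := by rw [← mul_assoc, F.idem]
    _ = F.rho r := h.symm

lemma rho_pi (r : AdjoinRoot ν) : F.rho r * π = F.rho r :=
  (F.rho_comm (Commute.refl π) F.commute_pi_z.symm r).eq.trans (F.pi_rho r)

/-- The corner part of `s`. -/
abbrev s1 (_ : Fit s t ν π wi e) : Module.End k M := π * s
/-- The partner of `s`. -/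
abbrev u (_ : Fit s t ν π wi e) : Module.End k M := wi * t

lemma pi_s1 : π * F.s1 = F.s1 := by rw [Fit.s1, ← mul_assoc, F.idem]
lemma s1_pi : F.s1 * π = F.s1 := by rw [Fit.s1, mul_assoc, ← F.commute_pi_s.eq, ← mul_assoc, F.idem]
lemma pi_u : π * F.u = F.u := by rw [Fit.u, ← mul_assoc, ← F.commute_wi_pi.eq, F.wiπ]
lemma u_pi : F.u * π = F.u := by rw [Fit.u, mul_assoc, ← F.commute_pi_t.eq, ← mul_assoc, F.wiπ]

lemma s1_s1 : F.s1 * F.s1 = 0 := by
  rw [← mul_assoc, F.s1_pi, Fit.s1, mul_assoc, F.ss, mul_zero]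

lemma u_u : F.u * F.u = 0 := by
  rw [Fit.u, mul_assoc, ← mul_assoc t wi, ← F.commute_wi_t.eq, mul_assoc wi t t, F.tt, mul_zero, mul_zero]

lemma su_us : F.s1 * F.u + F.u * F.s1 = π := by
  have h1 : F.s1 * F.u = wi * (s * t) := by
    rw [Fit.u, ← mul_assoc, Fit.s1, mul_assoc π s wi, ← F.commute_wi_s.eq, ← mul_assoc π wi,
      ← F.commute_wi_pi.eq, F.wiπ, mul_assoc]
  have h2 : F.u * F.s1 = wi * (t * s) := by
    rw [← mul_assoc, F.u_pi, Fit.u, mul_assoc]
  rw [h1, h2, ← mul_add]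
  have : Commute wi (s * t + t * s) :=
    (F.commute_wi_s.mul_right F.commute_wi_t).add_right (F.commute_wi_t.mul_right F.commute_wi_s)
  rw [this.eq, F.inv]

lemma s1_u_s1 : F.s1 * F.u * F.s1 = F.s1 := by
  have h := congrArg (fun x => x * F.s1) F.su_us
  simp only [add_mul, mul_assoc _ F.s1 F.s1, F.s1_s1, mul_zero, add_zero, F.pi_s1] at h
  exact h

lemma u_s1_u : F.u * F.s1 * F.u = F.u := by
  have h := congrArg (fun x => x * F.u) F.su_us
  simp only [add_mul, mul_assoc _ F.u F.u, F.u_u, mul_zero, zero_add, F.pi_u] at h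
  exact h

lemma rho_commute (r : AdjoinRoot ν) : Commute (F.rho r) F.s1 ∧ Commute (F.rho r) F.u :=
  ⟨(F.rho_comm (Commute.refl π) F.commute_pi_z.symm r).mul_right (F.rho_comm F.commute_pi_s F.commute_z_s r),
   (F.rho_comm F.commute_wi_pi.symm
      ((F.commute_wi_s.mul_right F.commute_wi_t).add_right (F.commute_wi_t.mul_right F.commute_wi_s)).symm r).mul_right
    (F.rho_comm F.commute_pi_t F.commute_z_t r)⟩

lemma rho_s1_eq_zero {r : AdjoinRoot ν} (h : F.rho r * F.s1 = 0) : r = 0 := by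
  apply F.rho_eq_zero
  have h' := congrArg (F.rho r * ·) F.su_us
  simp only [mul_add, ← mul_assoc, h, zero_mul, zero_add, F.rho_pi] at h'
  calc F.rho r = F.rho r * F.u * F.s1 := h'.symm
    _ = F.u * (F.rho r * F.s1) := by rw [(F.rho_commute r).2.eq, mul_assoc]
    _ = 0 := by rw [h, mul_zero]

lemma tri : Tri F.rho π F.s1 F.u :=
  ⟨F.rho_add, F.rho_mul, F.rho_one, F.rho_zero, fun r => (F.rho_commute r).1, fun r => (F.rho_commute r).2,
    F.pi_rho, F.s1_s1, F.u_u, F.s1_u_s1, F.u_s1_u, F.s1_pi, F.u_pi, F.pi_s1, F.pi_u, F.su_us,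
    fun _ => F.rho_s1_eq_zero⟩

/-- The representation of `SL₂` of the corner algebra. -/
noncomputable def phi (F : Fit s t ν π wi e) :
    SL(2, AdjoinRoot ν) →* LinearMap.GeneralLinearGroup k M :=
  MonoidHom.toHomUnits ⟨⟨triEnd F.rho π F.s1 F.u, F.tri.end_one⟩, F.tri.end_mul⟩

lemma phi_val (A : SL(2, AdjoinRoot ν)) : (F.phi A : Module.End k M) = triEnd F.rho π F.s1 F.u A := rfl

lemma phi_eU_val (x : AdjoinRoot ν) : (F.phi (eU x) : Module.End k M) = 1 + F.rho x * F.s1 := F.tri.end_eU x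

lemma phi_eL_val (x : AdjoinRoot ν) : (F.phi (eL x) : Module.End k M) = 1 + F.rho x * F.u := F.tri.end_eL x

lemma phi_injective : Function.Injective F.phi := by
  rw [injective_iff_map_eq_one]
  intro A hA
  exact F.tri.end_inj (congrArg (fun g : LinearMap.GeneralLinearGroup k M => (g : Module.End k M)) hA)

end Fit

end Cfsg.Agent.H92.QP
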