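import Cfsg.Agent.H92.QP.Dser
import Cfsg.Agent.H35.UnipotentPair

/-! Dickson's lemma: two scalar families generate SL₂ over a finite field. -/

set_option autoImplicit false

namespace Cfsg.Agent.H92.QP

open Matrix H35
open scoped MatrixGroups LinearAlgebra.Projectivization

variable {K : Type*} [Field K] [Finite K] {p : ℕ} [Fact p.Prime] [CharP K p]

set_option linter.style.haveILetI false in
set_option maxHeartbeats 800000 in
/-- The pole dichotomy for a subgroup of SL₂ over a finite field with a transvection. -/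
theorem orbit_dichotomy (hp : p ≠ 2) (G : Subgroup SL(2, K)) {u₁ : K} (hu₁ : u₁ ≠ 0) (hA : eU u₁ ∈ G)
    (hmove : ∃ M ∈ G, M 1 0 ≠ 0) :
    (∀ M₁ ∈ G, ∀ M₂ ∈ G, M₁ 1 0 ≠ 0 → M₂ 1 0 ≠ 0 → eU (M₂ 0 0 / M₂ 1 0 - M₁ 0 0 / M₁ 1 0) ∈ G) ∨
    (p = 3 ∧ ∀ M ∈ G, (M 0 0 + M 1 1) ^ 2 - 4 ≠ 0 → M 1 0 ≠ 0 → M 0 0 + M 1 1 ≠ 0 →
      (M 0 0 + M 1 1) ^ 4 + 1 = 0) := by
  have hpp : p.Prime := Fact.out
  -- the projective action over an algebraic closure
  let L := AlgebraicClosure K
  have : CharP L p := charP_of_injective_algebraMap (algebraMap K L).injective p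
  let ι : Matrix.SpecialLinearGroup (Fin 2) K →* Matrix.SpecialLinearGroup (Fin 2) L :=
    Matrix.SpecialLinearGroup.map (algebraMap K L)
  have hι : ∀ (M : Matrix.SpecialLinearGroup (Fin 2) K) (i j : Fin 2),
      (ι M : Matrix (Fin 2) (Fin 2) L) i j = algebraMap K L ((M : Matrix (Fin 2) (Fin 2) K) i j) :=
    fun M i j => rfl
  let φ := (QuotientGroup.mk' (Subgroup.center (Matrix.SpecialLinearGroup (Fin 2) L))).comp ι
  let R := G.map φ
  have : Finite R := Finite.of_surjective (φ.subgroupMap G) (φ.subgroupMap_surjective G)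
  have hR : ∀ M : Matrix.SpecialLinearGroup (Fin 2) K, φ M = 1 ↔
      ι M ∈ Subgroup.center (Matrix.SpecialLinearGroup (Fin 2) L) := fun M => QuotientGroup.eq_one_iff _
  have hlift : ∀ r : R, ∃ M ∈ G, φ M = r.1 := fun r => r.2
  have hsm : ∀ r : R, ∀ M, φ M = r.1 → ∀ x : ℙ L (Fin 2 → L), r • x = ι M • x := by
    intro r M hM x
    show r.1 • x = ι M • x
    rw [← hM]
    rfl
  have hPiff : ∀ r : R, ∀ M, φ M = r.1 →
      ((∃ k : ℕ, r ^ (p ^ k) = 1) ↔
        ∃ k : ℕ, ι M ^ (p ^ k) ∈ Subgroup.center (Matrix.SpecialLinearGroup (Fin 2) L)) := by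
    intro r M hM
    refine exists_congr fun k => ?_
    rw [← map_pow, ← hR, map_pow, hM, Subtype.ext_iff]
    simp
  have hne : ∀ r : R, r ≠ 1 → ∀ M, φ M = r.1 →
      ι M ∉ Subgroup.center (Matrix.SpecialLinearGroup (Fin 2) L) := fun r hr M hM h =>
    hr (Subtype.ext (by rw [← hM, (hR M).2 h]; rfl))
  classical
  have hfix : ∀ r : R, r ≠ 1 → {x : ℙ L (Fin 2 → L) | r • x = x}.ncard =
      if ∃ k : ℕ, r ^ (p ^ k) = 1 then 1 else 2 := by
    intro r hr
    obtain ⟨M, -, hM⟩ := hlift r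
    simp only [hsm r M hM, hPiff r M hM]
    exact ncard_fixed _ (hne r hr M hM)
  let Pset : Set (ℙ L (Fin 2 → L)) := {x | ∃ r : R, r ≠ 1 ∧ r • x = x}
  have hPfin : Pset.Finite := by
    refine ((Set.toFinite {r : R | r ≠ 1}).biUnion (fun r hr => Set.finite_of_ncard_ne_zero
      (s := {x : ℙ L (Fin 2 → L) | r • x = x}) (by rw [hfix r hr]; split_ifs <;> omega))).subset ?_
    rintro x ⟨r, hr, hx⟩
    exact Set.mem_biUnion hr hx
  have := hPfin.to_subtype
  let act : MulAction R Pset :=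
    { smul := fun r x => ⟨r • x.1, by
        obtain ⟨s, hs, hsx⟩ := x.2
        exact ⟨r * s * r⁻¹, fun h => hs (conj_eq_one_iff.1 h),
          by rw [mul_smul, mul_smul, inv_smul_smul, hsx]⟩⟩
      one_smul := fun x => Subtype.ext (one_smul R x.1)
      mul_smul := fun r s x => Subtype.ext (mul_smul r s x.1) }
  have hcount : ∀ r : R, r ≠ 1 → (MulAction.fixedBy Pset r).ncard =
      if ∃ k : ℕ, r ^ (p ^ k) = 1 then 1 else 2 := by
    intro r hr
    rw [← hfix r hr, ← Set.ncard_image_of_injective (MulAction.fixedBy Pset r) Subtype.val_injective]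
    congr 1
    ext x
    constructor
    · rintro ⟨y, hy, rfl⟩; exact congrArg Subtype.val hy
    · intro hx; exact ⟨⟨x, r, hr, hx⟩, Subtype.ext hx, rfl⟩
  have h1 : ∀ r : R, r ≠ 1 → (∃ k : ℕ, r ^ (p ^ k) = 1) → (MulAction.fixedBy Pset r).ncard = 1 :=
    fun r hr hk => by rw [hcount r hr, if_pos hk]
  have h2 : ∀ r : R, (¬ ∃ k : ℕ, r ^ (p ^ k) = 1) → (MulAction.fixedBy Pset r).ncard = 2 :=
    fun r hk => by rw [hcount r (fun h => hk ⟨0, by simp [h]⟩), if_neg hk]
  have h3 : ∀ (x : Pset) (r s : R), (∃ k : ℕ, r ^ (p ^ k) = 1) → (∃ k : ℕ, s ^ (p ^ k) = 1) →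
      r • x = x → s • x = x → ∃ k : ℕ, (r * s) ^ (p ^ k) = 1 := by
    rintro ⟨x, hxP⟩ r s hr hs hrx hsx
    obtain ⟨M, -, hM⟩ := hlift r
    obtain ⟨N, -, hN⟩ := hlift s
    have hrx' : ι M • x = x := (hsm r M hM x).symm.trans (congrArg Subtype.val hrx)
    have hsx' : ι N • x = x := (hsm s N hN x).symm.trans (congrArg Subtype.val hsx)
    induction x using Projectivization.ind with | _ v hv => ?_
    rw [smul_mk_eq_iff] at hrx' hsx'
    obtain ⟨a, ha⟩ := hrx'
    obtain ⟨b, hb⟩ := hsx'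
    have hab : ((ι (M * N) : Matrix.SpecialLinearGroup (Fin 2) L) : Matrix (Fin 2) (Fin 2) L) *ᵥ v =
        (a * b) • v := by
      rw [map_mul, Matrix.SpecialLinearGroup.coe_mul, ← mulVec_mulVec, ← hb, mulVec_smul, ← ha, smul_smul,
        mul_comm]
    rw [hPiff (r * s) (M * N) (by rw [map_mul, hM, hN]; rfl), pElement_iff _ hv hab, mul_pow,
      (pElement_iff _ hv ha.symm).1 ((hPiff r M hM).1 hr),
      (pElement_iff _ hv hb.symm).1 ((hPiff s N hN).1 hs), mul_one]
  -- the base point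
  let u₀ : R := ⟨φ (eU u₁), Subgroup.mem_map_of_mem φ hA⟩
  have hu₀p : ∃ k : ℕ, u₀ ^ (p ^ k) = 1 := ⟨1, Subtype.ext (by
    show φ (eU u₁) ^ (p ^ 1) = 1
    rw [pow_one, ← map_pow, eU_pow, CharP.cast_eq_zero, zero_mul, eU_zero, map_one])⟩
  have hu₀ : u₀ ≠ 1 := by
    intro h
    obtain ⟨c, -, hc⟩ := exists_scalar_of_mem_center ((hR _).1 (congrArg Subtype.val h))
    have := congrFun (hc ![0, 1]) 0
    simp [mulVec, dotProduct, Fin.sum_univ_two, hι] at this
    exact hu₁ this
  have e1ne : (![1, 0] : Fin 2 → L) ≠ 0 := by simp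
  have hu₀x : u₀ • Projectivization.mk L (![1, 0] : Fin 2 → L) e1ne =
      Projectivization.mk L ![1, 0] e1ne := by
    rw [hsm u₀ (eU u₁) rfl, smul_mk_eq_iff]
    exact ⟨1, by ext i; fin_cases i <;> simp [mulVec, dotProduct, Fin.sum_univ_two, hι]⟩
  let x₀ : Pset := ⟨Projectivization.mk L (![1, 0] : Fin 2 → L) e1ne, u₀, hu₀, hu₀x⟩
  have colne : ∀ M : SL(2, K), M 1 0 ≠ 0 →
      (![algebraMap K L (M 0 0), algebraMap K L (M 1 0)] : Fin 2 → L) ≠ 0 := fun M hM h =>
    hM ((algebraMap K L).injective (by rw [map_zero]; exact congrFun h 1))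
  have hcol : ∀ (M : SL(2, K)) (hMG : M ∈ G) (hM : M 1 0 ≠ 0),
      ((⟨φ M, Subgroup.mem_map_of_mem φ hMG⟩ : R) • x₀).1 = Projectivization.mk L _ (colne M hM) ∧
      (⟨φ M, Subgroup.mem_map_of_mem φ hMG⟩ : R) • x₀ ≠ x₀ := by
    intro M hMG hM
    have e : ((⟨φ M, Subgroup.mem_map_of_mem φ hMG⟩ : R) • x₀).1 = Projectivization.mk L _ (colne M hM) := by
      show (⟨φ M, _⟩ : R) • Projectivization.mk L (![1, 0] : Fin 2 → L) e1ne = _
      rw [hsm _ M rfl, smul_mk_eq_iff]
      exact ⟨1, by ext i; fin_cases i <;> simp [mulVec, dotProduct, Fin.sum_univ_two, hι]⟩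
    refine ⟨e, fun h => ?_⟩
    have h' := congrArg Subtype.val h
    rw [e] at h'
    obtain ⟨c, hc⟩ := (Projectivization.mk_eq_mk_iff' L _ _ (colne M hM) e1ne).1 h'
    exact hM ((algebraMap K L).injective (by simpa using (congrFun hc 1).symm))
  obtain ⟨M₀, hM₀G, hM₀⟩ := hmove
  rcases pole_dichotomy hp h1 h2 h3 x₀ u₀ hu₀ hu₀p (Subtype.ext hu₀x)
    ⟨_, (hcol M₀ hM₀G hM₀).2⟩ with htrans | ⟨hp3, horder⟩
  · left
    intro M₁ h1G M₂ h2G n1 n2
    obtain ⟨y1, ne1⟩ := hcol M₁ h1G n1
    obtain ⟨y2, ne2⟩ := hcol M₂ h2G n2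
    obtain ⟨r, hrP, hrx, hry⟩ := htrans _ ⟨_, rfl⟩ ne1 _ ⟨_, rfl⟩ ne2
    obtain ⟨M, hMG, hM⟩ := hlift r
    have hrx' := (hsm r M hM _).symm.trans (congrArg Subtype.val hrx)
    have hry' := (hsm r M hM _).symm.trans (congrArg Subtype.val hry)
    rw [y1, y2, smul_mk_eq_iff] at hry'
    change ι M • Projectivization.mk L _ e1ne = Projectivization.mk L _ e1ne at hrx'
    rw [smul_mk_eq_iff] at hrx'
    obtain ⟨ε, hε⟩ := hrx'
    obtain ⟨c, hc⟩ := hry'
    have hε2 := (pElement_iff _ e1ne hε.symm).1 ((hPiff r M hM).1 hrP)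
    have hd := eDet M
    have a0 := congrFun hε 0
    have a1 := congrFun hε 1
    have c0 := congrFun hc 0
    have c1 := congrFun hc 1
    simp [mulVec, dotProduct, Fin.sum_univ_two, hι] at a0 a1 c0 c1
    have h10 : M 1 0 = 0 := by
      first | exact a1 | exact a1.symm | exact (algebraMap K L).injective (by rw [map_zero]; first | exact a1 | exact a1.symm)
    rw [a0] at hε2
    have h00 : M 0 0 ^ 2 = 1 := (algebraMap K L).injective (by rw [map_pow, map_one]; exact hε2)
    have h11 : M 1 1 = M 0 0 := by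
      linear_combination M 0 0 * hd + (M 0 1 * M 0 0) * h10 - M 1 1 * h00
    rw [h10, map_zero, zero_mul, zero_add, h11] at c1
    have hkey : M 0 1 * M₁ 1 0 * M₂ 1 0 = M 0 0 * (M₁ 1 0 * M₂ 0 0 - M₁ 0 0 * M₂ 1 0) := by
      apply (algebraMap K L).injective
      simp only [map_mul, map_sub]
      linear_combination algebraMap K L (M₂ 0 0) * c1 - algebraMap K L (M₂ 1 0) * c0
    obtain ⟨j, hj⟩ : Even (p + 1) := (hpp.odd_of_ne_two hp).add_one
    have hMeq : ∀ n : ℕ, (M ^ n) 0 0 = M 0 0 ^ n ∧ (M ^ n) 1 0 = 0 ∧ (M ^ n) 1 1 = M 0 0 ^ n ∧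
        (M ^ n) 0 1 * M 0 0 = (n : K) * M 0 1 * M 0 0 ^ n := by
      intro n
      induction n with
      | zero => simp [Matrix.SpecialLinearGroup.coe_one]
      | succ n ih =>
        obtain ⟨i1, i2, i3, i4⟩ := ih
        rw [pow_succ M]
        refine ⟨?_, ?_, ?_, ?_⟩ <;> rw [eMul] <;> simp only [h10, h11, i2, Nat.cast_succ, pow_succ]
        · linear_combination (M 0 0) * i1
        · ring
        · linear_combination (M 0 0) * i3
        · linear_combination M 0 0 * M 0 1 * i1 + M 0 0 * i4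
    obtain ⟨q1, q2, q3, q4⟩ := hMeq (p + 1)
    have hpow : M 0 0 ^ (p + 1) = 1 := by rw [hj, ← two_mul, pow_mul, h00, one_pow]
    rw [Nat.cast_add, CharP.cast_eq_zero, zero_add, Nat.cast_one, one_mul] at q4
    have key : M ^ (p + 1) = eU (M 0 1 * M 0 0) := eExt (by simp [q1, hpow])
      (by simp only [eU_01]; linear_combination M 0 0 * q4 - (M ^ (p + 1)) 0 1 * h00 + M 0 1 * M 0 0 * hpow)
      (by simp [q2]) (by simp [q3, hpow])
    have hrat : M₂ 0 0 / M₂ 1 0 - M₁ 0 0 / M₁ 1 0 = M 0 1 * M 0 0 := by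
      field_simp
      linear_combination -(M 0 0) * hkey - (M₁ 1 0 * M₂ 0 0 - M₁ 0 0 * M₂ 1 0) * h00
    rw [hrat, ← key]
    exact pow_mem hMG _
  · right
    subst hp3
    refine ⟨rfl, fun M hMG ht h10 ht0 => ?_⟩
    have three : (3 : K) = 0 := by exact_mod_cast CharP.cast_eq_zero K 3
    have hd := eDet M
    let r : R := ⟨φ M, Subgroup.mem_map_of_mem φ hMG⟩
    have hnp : ¬ ∃ k : ℕ, r ^ (3 ^ k) = 1 := by
      intro hk
      obtain ⟨μ, v, hv, hμ⟩ := exists_eigen (ι M)
      obtain ⟨w, β, γ, hw, hμγ, hMw⟩ := exists_triangular (ι M) hv hμ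
      have hμ2 := (pElement_iff _ hv hμ).1 ((hPiff r M rfl).1 hk)
      have hγ : γ = μ := by linear_combination μ * hμγ - γ * hμ2
      apply ht
      apply (algebraMap K L).injective
      have htr : algebraMap K L (M 0 0) + algebraMap K L (M 1 1) = μ + γ := by
        have a0 := congrFun hμ 0
        have a1 := congrFun hμ 1
        have b0 := congrFun hMw 0
        have b1 := congrFun hMw 1
        simp [mulVec, dotProduct, Fin.sum_univ_two, hι] at a0 a1 b0 b1
        simp only [det2] at hw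
        linear_combination -(algebraMap K L (M 0 0) + algebraMap K L (M 1 1) - μ - γ) * hw
          + w 1 * a0 - w 0 * a1 + v 0 * b1 - v 1 * b0
      rw [map_sub, map_pow, map_add, htr, hγ, map_ofNat, map_zero]
      linear_combination 4 * hμ2
    have hM10 : ∀ n : ℕ, φ M ^ n = 1 → (M ^ n) 1 0 = 0 := by
      intro n hn
      rw [← map_pow, hR] at hn
      obtain ⟨c, -, hc⟩ := exists_scalar_of_mem_center hn
      have h := congrFun (hc ![1, 0]) 1
      simp [mulVec, dotProduct, Fin.sum_univ_two, hι, -map_pow] at h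
      exact h
    rcases horder r hnp with h | h
    · exfalso
      have h' := hM10 2 (congrArg Subtype.val h)
      rw [pow_two, eMul] at h'
      exact ht0 ((mul_eq_zero.1 (show M 1 0 * (M 0 0 + M 1 1) = 0 by
        linear_combination h')).resolve_left h10)
    · have h' := hM10 5 (congrArg Subtype.val h)
      rw [show (5 : ℕ) = 2 + 2 + 1 from rfl, pow_add, pow_add, pow_two, pow_one] at h'
      simp only [eMul] at h'
      have h'' : M 1 0 * ((M 0 0 + M 1 1) ^ 4 - 3 * (M 0 0 + M 1 1) ^ 2 + 1) = 0 := by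
        linear_combination h' + M 1 0 * (3 * (M 0 0 + M 1 1) ^ 2 - M 0 0 * M 1 1
          + M 0 1 * M 1 0 - 1) * hd
      linear_combination (mul_eq_zero.1 h'').resolve_left h10 + (M 0 0 + M 1 1) ^ 2 * three

/-- Hua: an additive subgroup containing one, closed under inverses and halving, is closed under products. -/
lemma mul_mem_of_inv_mem {F : Type*} [Field F] (h2 : (2 : F) ≠ 0) (B : AddSubgroup F) (h1 : (1 : F) ∈ B)
    (hinv : ∀ x ∈ B, x ≠ 0 → x⁻¹ ∈ B) (hhalf : ∀ x ∈ B, x / 2 ∈ B) {x y : F} (hx : x ∈ B) (hy : y ∈ B) :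
    x * y ∈ B := by
  have sq : ∀ a ∈ B, a ^ 2 ∈ B := by
    intro a ha
    by_cases a0 : a = 0
    · simp [a0, B.zero_mem]
    by_cases a1 : a = 1
    · simp [a1, h1]
    have n1 : (1 : F) - a ≠ 0 := sub_ne_zero.2 (fun e => a1 e.symm)
    have ne : a⁻¹ + (1 - a)⁻¹ ≠ 0 := by
      rw [show a⁻¹ + (1 - a)⁻¹ = (a * (1 - a))⁻¹ by field_simp; ring]
      exact inv_ne_zero (mul_ne_zero a0 n1)
    have := sub_mem ha (hinv _ (add_mem (hinv a ha a0) (hinv _ (sub_mem h1 ha) n1)) ne)
    rwa [show a - (a⁻¹ + (1 - a)⁻¹)⁻¹ = a ^ 2 by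
      rw [show a⁻¹ + (1 - a)⁻¹ = (a * (1 - a))⁻¹ by field_simp; ring, inv_inv]; ring] at this
  have := hhalf _ (sub_mem (sub_mem (sq _ (add_mem hx hy)) (sq _ hx)) (sq _ hy))
  rwa [show ((x + y) ^ 2 - x ^ 2 - y ^ 2) / 2 = x * y by field_simp; ring] at this

set_option linter.style.haveILetI false in
/-- Dickson: over a finite field two scalar families generate all elementary matrices. -/
theorem elem_of_finite {k F : Type*} [Field k] [Field F] [Finite F] [Algebra k F] (h2 : (2 : F) ≠ 0)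
    (hk : 3 < Nat.card k) {lam : F} (hlam : lam ≠ 0) (hgen : Algebra.adjoin k ({lam} : Set F) = ⊤)
    {H : Subgroup SL(2, F)} (hU : ∀ c : k, eU (algebraMap k F c) ∈ H)
    (hL : ∀ c : k, eL (algebraMap k F c * lam) ∈ H) :
    (∀ x : F, eU x ∈ H) ∧ ∀ x : F, eL x ∈ H := by
  classical
  obtain ⟨p, hchar⟩ := CharP.exists F
  haveI : Fact p.Prime := ⟨CharP.char_is_prime F p⟩
  have hp : p ≠ 2 := by
    rintro rfl
    exact h2 (by exact_mod_cast CharP.cast_eq_zero F 2)
  haveI : Finite k := Finite.of_injective _ (algebraMap k F).injective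
  haveI := Fintype.ofFinite k
  have half : ∀ x : F, ∀ A : AddSubgroup F, x ∈ A → x / 2 ∈ A := by
    intro x A hx
    obtain ⟨j, hj⟩ : Even (p + 1) := ((Fact.out : p.Prime).odd_of_ne_two hp).add_one
    have hj' : (2 : F) * (j : F) = 1 := by
      have := congrArg (Nat.cast : ℕ → F) hj
      push_cast at this
      rw [CharP.cast_eq_zero, zero_add] at this
      linear_combination -this
    have : x / 2 = j • x := by
      rw [nsmul_eq_mul, div_eq_iff h2]; linear_combination -x * hj'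
    rw [this]; exact A.nsmul_mem hx j
  have hU1 : eU (1 : F) ∈ H := by simpa using hU 1
  have hL1 : eL lam ∈ H := by simpa using hL 1
  rcases orbit_dichotomy hp H one_ne_zero hU1 ⟨_, hL1, by simpa using hlam⟩ with htr | ⟨hp3, hex⟩
  · set A := upperSet H with hAdef
    have ratio : ∀ M₁ ∈ H, ∀ M₂ ∈ H, M₁ 1 0 ≠ 0 → M₂ 1 0 ≠ 0 →
        M₂ 0 0 / M₂ 1 0 - M₁ 0 0 / M₁ 1 0 ∈ A := htr
    have hinvlam : lam⁻¹ ∈ A := by
      have h := ratio _ (inv_mem hL1) _ hL1 (by rw [eL_inv]; simpa using hlam) (by simpa using hlam)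
      rw [eL_inv] at h
      simp at h
      have := half _ A h
      convert this using 1
      field_simp; ring
    have hneg : eU (-lam⁻¹) ∈ H := neg_mem hinvlam
    obtain ⟨g, hg, e⟩ := eL_eq_conj (H := H) (Units.mk0 lam hlam)
      (by simpa using hneg) (by simpa using hL1)
    have hj : ∀ a ∈ A, a ≠ 0 → (lam ^ 2 * a)⁻¹ ∈ A := by
      intro a ha a0
      have hm : eL (-(a * lam ^ 2)) ∈ H := by
        have h := mul_mem (mul_mem hg (show eU a ∈ H from ha)) (inv_mem hg)
        rw [e a] at h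
        simpa using h
      have h := ratio _ hL1 _ hm (by simpa using hlam) (by simp [a0, hlam])
      simp at h
      have h' := neg_mem (add_mem h hinvlam)
      convert h' using 1
      simp; ring
    set B : AddSubgroup F := A.map (AddMonoidHom.mulLeft lam) with hB
    have memB : ∀ x, x ∈ B ↔ x / lam ∈ A := fun x => by
      rw [hB, AddSubgroup.mem_map]
      refine ⟨?_, fun h => ⟨_, h, by simp; field_simp⟩⟩
      rintro ⟨a, ha, rfl⟩
      simpa [mul_div_cancel_left₀ _ hlam] using ha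
    have hB1 : (1 : F) ∈ B := (memB 1).2 (by rwa [one_div])
    have hmul : ∀ x y, x ∈ B → y ∈ B → x * y ∈ B := fun x y =>
      mul_mem_of_inv_mem h2 B hB1 (fun x hx x0 => (memB _).2 (by
        have := hj _ ((memB x).1 hx) (div_ne_zero x0 hlam)
        convert this using 1
        field_simp)) (fun x hx => half x B hx)
    have hkl : ∀ c : k, algebraMap k F c * lam ∈ B := fun c =>
      (memB _).2 (by rw [mul_div_cancel_right₀ _ hlam]; exact hU c)
    have hk1 : ∀ c : k, algebraMap k F c ∈ B := by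
      intro c
      have hlamB : lam⁻¹ ∈ B := by
        by_contra hcon
        have h1 := hkl 1
        rw [map_one, one_mul] at h1
        exact hcon ((memB _).2 (by
          have := hj _ ((memB lam).1 h1) (div_ne_zero hlam hlam)
          convert this using 1
          field_simp))
      have := hmul _ _ (hkl c) hlamB
      rwa [mul_assoc, mul_inv_cancel₀ hlam, mul_one] at this
    have hall : ∀ x : F, x ∈ B := by
      intro x
      have hx : x ∈ Algebra.adjoin k ({lam} : Set F) := hgen ▸ Algebra.mem_top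
      induction hx using Algebra.adjoin_induction with
      | mem y hy => rw [Set.mem_singleton_iff.1 hy]; simpa using hkl 1
      | algebraMap c => exact hk1 c
      | add y z _ _ hy hz => exact add_mem hy hz
      | mul y z _ _ hy hz => exact hmul y z hy hz
    have hAall : ∀ x : F, eU x ∈ H := fun x => by
      have := (memB (lam * x)).1 (hall _)
      rwa [mul_div_cancel_left₀ _ hlam] at this
    refine ⟨hAall, fun x => ?_⟩
    have := mul_mem (mul_mem hg (hAall (-(x / lam ^ 2)))) (inv_mem hg)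
    rw [e] at this
    simpa [hlam] using this
  · exfalso
    subst hp3
    have three : (3 : F) = 0 := by exact_mod_cast CharP.cast_eq_zero F 3
    haveI : CharP k 3 := ((algebraMap k F).charP_iff (algebraMap k F).injective 3).2 hchar
    have h9 : 9 ≤ Fintype.card k := by
      obtain ⟨n, -, hn⟩ := FiniteField.card k 3
      rw [Nat.card_eq_fintype_card, hn] at hk
      rw [hn]
      have : 2 ≤ (n : ℕ) := by
        by_contra hcon
        have : (n : ℕ) = 1 := by have := n.pos; omega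
        rw [this] at hk; norm_num at hk
      calc 9 = 3 ^ 2 := by norm_num
        _ ≤ 3 ^ (n : ℕ) := Nat.pow_le_pow_right (by norm_num) this
    set q : Polynomial F := (Polynomial.X ^ 2 - 4) * Polynomial.X * (Polynomial.X ^ 4 + 1) with hq
    have hmon : q.Monic := by
      refine (Polynomial.Monic.mul (Polynomial.Monic.mul ?_ Polynomial.monic_X) ?_) <;> monicity!
    have hdeg : q.natDegree ≤ 7 := by rw [hq]; compute_degree
    let f : k ↪ F := ⟨fun c => 2 + algebraMap k F c * lam, fun a b h => by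
      exact (algebraMap k F).injective (mul_right_cancel₀ hlam (add_left_cancel h))⟩
    have hroot : ∀ c : k, f c ∈ q.roots.toFinset := by
      intro c
      rw [Multiset.mem_toFinset, Polynomial.mem_roots hmon.ne_zero, Polynomial.IsRoot.def, hq]
      simp only [Polynomial.eval_mul, Polynomial.eval_sub, Polynomial.eval_pow, Polynomial.eval_X,
        Polynomial.eval_add, Polynomial.eval_one, Polynomial.eval_ofNat]
      have ht : f c = 2 + algebraMap k F c * lam := rfl
      rw [ht]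
      set t := 2 + algebraMap k F c * lam with ht
      have htr : eU (1 : F) * eL (algebraMap k F c * lam) ∈ H := mul_mem hU1 (hL c)
      have e1 : (eU (1 : F) * eL (algebraMap k F c * lam)) 0 0 +
          (eU (1 : F) * eL (algebraMap k F c * lam)) 1 1 = t := by
        simp [eMul, ht]; ring
      by_cases h1 : t ^ 2 - 4 = 0
      · simp [h1]
      by_cases h3 : t = 0
      · simp [h3]
      by_cases h4 : algebraMap k F c * lam = 0
      · exact absurd (show t ^ 2 - 4 = 0 by rw [ht, h4]; norm_num) h1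
      have := hex _ htr (by rwa [e1]) (by simpa [eMul] using h4) (by rwa [e1])
      rw [e1] at this
      rw [this, mul_zero]
    have := Finset.card_le_card (fun x hx => by
      obtain ⟨c, -, rfl⟩ := Finset.mem_map.1 hx
      exact hroot c : (Finset.univ.map f) ⊆ q.roots.toFinset)
    rw [Finset.card_map, Finset.card_univ] at this
    have := this.trans ((Multiset.toFinset_card_le _).trans (q.card_roots'))
    omega

end Cfsg.Agent.H92.QP
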