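import Cfsg.Agent.H92.QP.Elem

/-! Derived series of a subgroup, and perfection of SL₂. -/

set_option autoImplicit false

namespace Cfsg.Agent.H92.QP

open Matrix
open scoped MatrixGroups

variable {G : Type*} [Group G]

/-- The derived series of a subgroup, inside the ambient group. -/
def dser (H : Subgroup G) : ℕ → Subgroup G
  | 0 => H
  | n + 1 => ⁅dser H n, dser H n⁆

lemma dser_le (H : Subgroup G) (n : ℕ) : dser H n ≤ H := by
  induction n with
  | zero => exact le_rfl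
  | succ n ih => exact (Subgroup.commutator_mono ih ih).trans (Subgroup.commutator_le_self H)

lemma dser_conj {H : Subgroup G} (n : ℕ) {g : G} (hg : g ∈ H) {x : G} (hx : x ∈ dser H n) :
    g * x * g⁻¹ ∈ dser H n := by
  suffices (dser H n).map (MulAut.conj g).toMonoidHom ≤ dser H n from this ⟨x, hx, rfl⟩
  clear hx x
  induction n with
  | zero =>
    rintro _ ⟨x, hx, rfl⟩
    exact mul_mem (mul_mem hg hx) (inv_mem hg)
  | succ n ih =>
    show (⁅dser H n, dser H n⁆).map _ ≤ ⁅dser H n, dser H n⁆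
    rw [Subgroup.map_commutator]
    exact Subgroup.commutator_mono ih ih

lemma dser_map {G' : Type*} [Group G'] (f : G →* G') (H : Subgroup G) (n : ℕ) :
    (dser H n).map f = dser (H.map f) n := by
  induction n with
  | zero => rfl
  | succ n ih => show (⁅dser H n, dser H n⁆).map f = _; rw [Subgroup.map_commutator, ih]; rfl

variable {R : Type*} [CommRing R]

lemma eL_eq_conj {H : Subgroup SL(2, R)} (u : Rˣ) (hu : eU ((-u⁻¹ : Rˣ) : R) ∈ H)
    (hl : eL (u : R) ∈ H) :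
    ∃ g ∈ H, ∀ x : R, g * eU x * g⁻¹ = eL (-(x * (u : R) ^ 2)) := by
  set g := eU ((-u⁻¹ : Rˣ) : R) * eL (u : R) * eU ((-u⁻¹ : Rˣ) : R) with hg
  refine ⟨g, mul_mem (mul_mem hu hl) hu, fun x => ?_⟩
  have g00 : g 0 0 = 0 := by simp [hg, eMul]
  have g10 : g 1 0 = (u : R) := by simp [hg, eMul]
  obtain ⟨h1, h2, h3, h4⟩ := conj_eU g x
  apply eExt <;> simp [h1, h2, h3, h4, g00, g10]

lemma perfect_step {S : Subgroup SL(2, R)} (hU : ∀ x, eU x ∈ S) (hL : ∀ x, eL x ∈ S)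
    {u : R} (hu : IsUnit u) (hu' : IsUnit (u ^ 2 - 1)) :
    (∀ x, eU x ∈ ⁅S, S⁆) ∧ ∀ x, eL x ∈ ⁅S, S⁆ := by
  obtain ⟨u, rfl⟩ := hu
  set d := eU (u : R) * eL (((-u⁻¹ : Rˣ)) : R) * eU (u : R) * (eU (-1) * eL 1 * eU (-1)) with hd
  have hdS : d ∈ S := mul_mem (mul_mem (mul_mem (hU _) (hL _)) (hU _))
    (mul_mem (mul_mem (hU _) (hL _)) (hU _))
  have d10 : d 1 0 = 0 := by simp [hd, eMul]
  have d00 : d 0 0 = (u : R) := by simp [hd, eMul]
  obtain ⟨v, hv⟩ := hu'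
  have hU' : ∀ x, eU x ∈ ⁅S, S⁆ := by
    intro x
    have h := Subgroup.commutator_mem_commutator hdS (hU (((v⁻¹ : Rˣ) : R) * x))
    rwa [commutatorElement_def, conj_eU_of_upper d d10, eU_inv, ← eU_add, d00,
      show ((v⁻¹ : Rˣ) : R) * x * (u : R) ^ 2 + -(((v⁻¹ : Rˣ) : R) * x) = x by
        rw [show ((v⁻¹ : Rˣ) : R) * x * (u : R) ^ 2 + -(((v⁻¹ : Rˣ) : R) * x) =
          ((v⁻¹ : Rˣ) : R) * ((u : R) ^ 2 - 1) * x by ring, ← hv]
        simp] at h
  refine ⟨hU', fun x => ?_⟩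
  obtain ⟨g, hg, e⟩ := eL_eq_conj (H := S) (-1) (hU _) (hL _)
  have h := (hU' (-x))
  have h' : g * eU (-x) * g⁻¹ ∈ ⁅S, S⁆ := by
    have : (⁅S, S⁆).map (MulAut.conj g).toMonoidHom ≤ ⁅S, S⁆ := by
      rw [Subgroup.map_commutator]
      have hle : S.map (MulAut.conj g).toMonoidHom ≤ S := by
        rintro _ ⟨y, hy, rfl⟩; exact mul_mem (mul_mem hg hy) (inv_mem hg)
      exact Subgroup.commutator_mono hle hle
    exact this ⟨_, h, rfl⟩
  rw [e] at h'
  simpa using h'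

lemma elem_mem_dser {H : Subgroup SL(2, R)} (hU : ∀ x, eU x ∈ H) (hL : ∀ x, eL x ∈ H)
    {u : R} (hu : IsUnit u) (hu' : IsUnit (u ^ 2 - 1)) (n : ℕ) :
    (∀ x, eU x ∈ dser H n) ∧ ∀ x, eL x ∈ dser H n := by
  induction n with
  | zero => exact ⟨hU, hL⟩
  | succ n ih => exact perfect_step ih.1 ih.2 hu hu'

end Cfsg.Agent.H92.QP
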