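import Mathlib

/-! Elementary matrices in SL₂ over a commutative ring. -/

set_option autoImplicit false

namespace Cfsg.Agent.H92.QP

open Matrix
open scoped MatrixGroups

variable {R : Type*} [CommRing R]

/-- The upper elementary matrix. -/
def eU (x : R) : SL(2, R) := ⟨!![1, x; 0, 1], by simp [Matrix.det_fin_two_of]⟩

/-- The lower elementary matrix. -/
def eL (x : R) : SL(2, R) := ⟨!![1, 0; x, 1], by simp [Matrix.det_fin_two_of]⟩

lemma eExt {M N : SL(2, R)} (h₁ : M 0 0 = N 0 0) (h₂ : M 0 1 = N 0 1)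
    (h₃ : M 1 0 = N 1 0) (h₄ : M 1 1 = N 1 1) : M = N := by
  ext i j; fin_cases i <;> fin_cases j <;> assumption

lemma eDet (M : SL(2, R)) : M 0 0 * M 1 1 - M 0 1 * M 1 0 = 1 := by
  rw [← Matrix.det_fin_two]; exact M.2

lemma eMul (M N : SL(2, R)) (i j : Fin 2) :
    (M * N) i j = M i 0 * N 0 j + M i 1 * N 1 j := by
  rw [Matrix.SpecialLinearGroup.coe_mul, Matrix.mul_apply, Fin.sum_univ_two]

lemma eInv (M : SL(2, R)) : (M⁻¹ 0 0 = M 1 1) ∧ (M⁻¹ 0 1 = -M 0 1) ∧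
    (M⁻¹ 1 0 = -M 1 0) ∧ (M⁻¹ 1 1 = M 0 0) := by
  simp [Matrix.SpecialLinearGroup.coe_inv, Matrix.adjugate_fin_two]

@[simp] lemma eU_00 (x : R) : eU x 0 0 = 1 := rfl
@[simp] lemma eU_01 (x : R) : eU x 0 1 = x := rfl
@[simp] lemma eU_10 (x : R) : eU x 1 0 = 0 := rfl
@[simp] lemma eU_11 (x : R) : eU x 1 1 = 1 := rfl
@[simp] lemma eL_00 (x : R) : eL x 0 0 = 1 := rfl
@[simp] lemma eL_01 (x : R) : eL x 0 1 = 0 := rfl
@[simp] lemma eL_10 (x : R) : eL x 1 0 = x := rfl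
@[simp] lemma eL_11 (x : R) : eL x 1 1 = 1 := rfl

lemma eU_add (x y : R) : eU (x + y) = eU x * eU y := by
  apply eExt <;> simp [eMul, add_comm]

lemma eL_add (x y : R) : eL (x + y) = eL x * eL y := by
  apply eExt <;> simp [eMul, add_comm]

@[simp] lemma eU_zero : eU (0 : R) = 1 := by apply eExt <;> simp
@[simp] lemma eL_zero : eL (0 : R) = 1 := by apply eExt <;> simp

lemma eU_inv (x : R) : (eU x)⁻¹ = eU (-x) := by
  rw [inv_eq_iff_mul_eq_one, ← eU_add]; simp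

lemma eL_inv (x : R) : (eL x)⁻¹ = eL (-x) := by
  rw [inv_eq_iff_mul_eq_one, ← eL_add]; simp

lemma eU_inj {x y : R} (h : eU x = eU y) : x = y := by
  have := congrArg (fun M : SL(2, R) => M 0 1) h
  simpa using this

lemma eU_comm (x y : R) : eU x * eU y = eU y * eU x := by rw [← eU_add, ← eU_add, add_comm]

lemma eU_pow (x : R) (n : ℕ) : eU x ^ n = eU (n * x) := by
  induction n with
  | zero => simp
  | succ n ih => rw [pow_succ, ih, ← eU_add]; push_cast; ring_nf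

/-- Membership of `eU` in a subgroup is additive. -/
def upperSet (H : Subgroup SL(2, R)) : AddSubgroup R where
  carrier := {x | eU x ∈ H}
  zero_mem' := by simp [one_mem]
  add_mem' := fun {x y} hx hy => by
    show eU (x + y) ∈ H
    rw [eU_add]; exact mul_mem hx hy
  neg_mem' := fun {x} hx => by
    show eU (-x) ∈ H
    rw [← eU_inv]; exact inv_mem hx

lemma mem_upperSet {H : Subgroup SL(2, R)} {x : R} : x ∈ upperSet H ↔ eU x ∈ H := Iff.rfl

/-- A conjugate of an upper elementary matrix. -/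
lemma conj_eU (g : SL(2, R)) (x : R) :
    (g * eU x * g⁻¹) 0 0 = 1 - x * g 0 0 * g 1 0 ∧ (g * eU x * g⁻¹) 0 1 = x * g 0 0 ^ 2 ∧
    (g * eU x * g⁻¹) 1 0 = -(x * g 1 0 ^ 2) ∧ (g * eU x * g⁻¹) 1 1 = 1 + x * g 0 0 * g 1 0 := by
  obtain ⟨i1, i2, i3, i4⟩ := eInv g
  have hd := eDet g
  simp only [eMul, eU_00, eU_01, eU_10, eU_11, i1, i2, i3, i4]
  refine ⟨?_, ?_, ?_, ?_⟩ <;> grind

lemma conj_eU_of_upper (g : SL(2, R)) (hg : g 1 0 = 0) (x : R) :
    g * eU x * g⁻¹ = eU (x * g 0 0 ^ 2) := by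
  obtain ⟨h1, h2, h3, h4⟩ := conj_eU g x
  apply eExt <;> simp [h1, h2, h3, h4, hg]

/-- If `g` conjugates `eU 1` into an upper elementary matrix and `g 0 0` is a unit or `g 1 0` is nilpotent, then `g` is
upper triangular. -/
lemma upper_of_conj_eU {g : SL(2, R)} {y : R} (hg : IsNilpotent (g 1 0)) (h : g * eU 1 * g⁻¹ = eU y) :
    g 1 0 = 0 := by
  obtain ⟨h1, -, -, -⟩ := conj_eU g 1
  rw [h, eU_00, one_mul] at h1
  have hu : IsUnit (g 0 0 * g 1 1) := by
    have : g 0 0 * g 1 1 = 1 + g 0 1 * g 1 0 := by linear_combination eDet g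
    rw [this]
    exact IsNilpotent.isUnit_one_add (Commute.isNilpotent_mul_left (Commute.all _ _) hg)
  exact (isUnit_of_mul_isUnit_left hu).mul_right_eq_zero.1 (by linear_combination h1)

/-- An element commuting with `eU 1` is a scalar times an upper elementary matrix. -/
lemma of_commute_eU_one {g : SL(2, R)} (h : g * eU 1 = eU 1 * g) :
    g 1 0 = 0 ∧ g 1 1 = g 0 0 ∧ g 0 0 ^ 2 = 1 := by
  have a := congrArg (fun M : SL(2, R) => M 0 0) h
  have b := congrArg (fun M : SL(2, R) => M 0 1) h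
  simp [eMul] at a b
  have hd := eDet g
  refine ⟨a, ?_, ?_⟩
  · linear_combination -b
  · grind

end Cfsg.Agent.H92.QP
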