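import Cfsg.Agent.H92.QP.FiniteBase
import Cfsg.Agent.H92.QP.DicksonField

/-! Two scalar families over a finite algebra: either the algebra is a field or a degenerate scalar family occurs. -/

set_option autoImplicit false

namespace Cfsg.Agent.H92.QP

open Matrix
open scoped MatrixGroups

variable {k R : Type*} [Field k] [CommRing R] [Algebra k R]

variable (k) in
/-- The data used in the finite case. -/
structure Hyp (w : Rˣ) (E : Subgroup SL(2, R)) : Prop where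
  normU : ∀ c : k, ∀ e ∈ E, eU (algebraMap k R c) * e * (eU (algebraMap k R c))⁻¹ ∈ E
  normL : ∀ c : k, ∀ e ∈ E, eL (algebraMap k R c * w) * e * (eL (algebraMap k R c * w))⁻¹ ∈ E
  lift : ∀ m : Ideal R, m.IsMaximal → ∀ a b c d : R, a * d - b * c - 1 ∈ m →
    ∃ e ∈ E, e 0 0 - a ∈ m ∧ e 0 1 - b ∈ m ∧ e 1 0 - c ∈ m ∧ e 1 1 - d ∈ m

variable (k) in
/-- A scalar family of a non-unit. -/
def Fam (E : Subgroup SL(2, R)) : Prop :=
  ∃ r : R, r ≠ 0 ∧ ¬ IsUnit r ∧ ∀ c : k, eU (algebraMap k R c * r) ∈ E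

/-- No non-trivial element is trivial modulo the nilradical. -/
def KFree (E : Subgroup SL(2, R)) : Prop := ∀ g ∈ E, g ∈ congrSub (nilradical R) → g = 1

lemma upperMod_conj {I : Ideal R} {x a : SL(2, R)} (hx : x 1 0 ∈ I) (ha : a ∈ upperMod I) :
    x * a * x⁻¹ ∈ upperMod I := by
  obtain ⟨a1, a2, a3⟩ := ha
  obtain ⟨i1, i2, i3, i4⟩ := eInv x
  have hd := eDet x
  simp only [mem_upperMod, eMul, i1, i2, i3, i4]
  refine ⟨?_, ?_, ?_⟩
  · rw [show (x 1 0 * a 0 0 + x 1 1 * a 1 0) * x 1 1 + (x 1 0 * a 0 1 + x 1 1 * a 1 1) * -x 1 0 =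
      x 1 0 * (a 0 0 * x 1 1 - (x 1 0 * a 0 1 + x 1 1 * a 1 1)) + a 1 0 * (x 1 1 * x 1 1) by ring]
    exact add_mem (I.mul_mem_right _ hx) (I.mul_mem_right _ a1)
  · rw [show (x 0 0 * a 0 0 + x 0 1 * a 1 0) * x 1 1 + (x 0 0 * a 0 1 + x 0 1 * a 1 1) * -x 1 0 - 1 =
      (a 0 0 - 1) * (x 0 0 * x 1 1) + a 1 0 * (x 0 1 * x 1 1) +
        x 1 0 * (x 0 1 - (x 0 0 * a 0 1 + x 0 1 * a 1 1)) by linear_combination hd]
    exact add_mem (add_mem (I.mul_mem_right _ a2) (I.mul_mem_right _ a1)) (I.mul_mem_right _ hx)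
  · rw [show (x 1 0 * a 0 0 + x 1 1 * a 1 0) * -x 0 1 + (x 1 0 * a 0 1 + x 1 1 * a 1 1) * x 0 0 - 1 =
      (a 1 1 - 1) * (x 1 1 * x 0 0) + a 1 0 * -(x 1 1 * x 0 1) +
        x 1 0 * (x 0 1 + a 0 1 * x 0 0 - a 0 0 * x 0 1) by linear_combination hd]
    exact add_mem (add_mem (I.mul_mem_right _ a3) (I.mul_mem_right _ a1)) (I.mul_mem_right _ hx)

lemma upperMod_mono {I J : Ideal R} (h : I ≤ J) : upperMod I ≤ upperMod J :=
  fun _ hg => ⟨h hg.1, h hg.2.1, h hg.2.2⟩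

lemma commutator_mem_congr {g : SL(2, R)} (hg : g ∈ upperMod (nilradical R)) (x : R) :
    g * eU x * g⁻¹ * (eU x)⁻¹ ∈ congrSub (nilradical R) := by
  obtain ⟨g1, g2, g3⟩ := hg
  obtain ⟨h1, h2, h3, h4⟩ := conj_eU g x
  rw [mem_congrSub, eU_inv]
  simp only [eMul, h1, h2, h3, h4, eU_00, eU_01, eU_10, eU_11]
  refine ⟨?_, ?_, ?_, ?_⟩
  · rw [show (1 - x * g 0 0 * g 1 0) * 1 + x * g 0 0 ^ 2 * 0 - 1 = g 1 0 * (-(x * g 0 0)) by ring]
    exact Ideal.mul_mem_right _ _ g1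
  · rw [show (1 - x * g 0 0 * g 1 0) * -x + x * g 0 0 ^ 2 * 1 =
      g 1 0 * (x * g 0 0 * x) + (g 0 0 - 1) * (x * (g 0 0 + 1)) by ring]
    exact add_mem (Ideal.mul_mem_right _ _ g1) (Ideal.mul_mem_right _ _ g2)
  · rw [show -(x * g 1 0 ^ 2) * 1 + (1 + x * g 0 0 * g 1 0) * 0 = g 1 0 * (-(x * g 1 0)) by ring]
    exact Ideal.mul_mem_right _ _ g1
  · rw [show -(x * g 1 0 ^ 2) * -x + (1 + x * g 0 0 * g 1 0) * 1 - 1 =
      g 1 0 * (x * g 1 0 * x + x * g 0 0) by ring]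
    exact Ideal.mul_mem_right _ _ g1

/-- A unit square root of one which is one modulo the nilradical is one. -/
lemma eq_one_of_sq {x : R} (h2 : IsUnit (2 : R)) (hx : IsNilpotent (x - 1)) (h : x ^ 2 = 1) : x = 1 := by
  have hu : IsUnit (x + 1) := by
    rw [show x + 1 = (x - 1) + 2 by ring]
    exact hx.isUnit_add_right_of_commute h2 (Commute.all _ _)
  exact sub_eq_zero.1 (hu.mul_left_eq_zero.1 (show (x - 1) * (x + 1) = 0 by linear_combination h))

variable {w : Rˣ} {E : Subgroup SL(2, R)}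

lemma Hyp.comm_mem (h : Hyp k w E) {g : SL(2, R)} (hg : g ∈ E) (c : k) :
    g * eU (algebraMap k R c) * g⁻¹ * (eU (algebraMap k R c))⁻¹ ∈ E := by
  rw [mul_assoc, mul_assoc]
  refine mul_mem hg ?_
  rw [← mul_assoc]
  exact h.normU c _ (inv_mem hg)

lemma Hyp.fam_of_upper (h : Hyp k w E) {g : SL(2, R)} (hg : g ∈ E) (hg0 : g 1 0 = 0) (c : k) :
    eU (algebraMap k R c * (g 0 0 ^ 2 - 1)) ∈ E := by
  have := h.comm_mem hg c
  rwa [conj_eU_of_upper g hg0, eU_inv, ← eU_add,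
    show algebraMap k R c * g 0 0 ^ 2 + -algebraMap k R c = algebraMap k R c * (g 0 0 ^ 2 - 1) by ring] at this

lemma Hyp.exact_upper (h : Hyp k w E) (h2 : IsUnit (2 : R)) (hK : KFree E) {g : SL(2, R)} (hg : g ∈ E)
    (hu : g ∈ upperMod (nilradical R)) : g = eU (g 0 1) := by
  have := hK _ (h.comm_mem hg 1) (commutator_mem_congr hu _)
  rw [map_one, mul_inv_eq_one, mul_inv_eq_iff_eq_mul] at this
  obtain ⟨c1, c2, c3⟩ := of_commute_eU_one this
  have := eq_one_of_sq h2 (mem_nilradical.1 hu.2.1) c3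
  apply eExt <;> simp [c1, c2, this]

variable [Finite R] (p : ℕ) [hp : Fact p.Prime] [CharP R p]

include hp

/-- A congruence element modulo the nilradical gives a degenerate family. -/
lemma Hyp.fam_of_congr (h : Hyp k w E) (h2 : IsUnit (2 : R)) (hK : ¬ KFree E) : Fam k E := by
  simp only [KFree, not_forall] at hK
  obtain ⟨q, hqE, hqc, hq1⟩ := hK
  let V : Subgroup SL(2, R) :=
    { carrier := Set.range (eU : R → SL(2, R))
      one_mem' := ⟨0, eU_zero⟩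
      mul_mem' := by rintro _ _ ⟨a, rfl⟩ ⟨b, rfl⟩; exact ⟨a + b, eU_add a b⟩
      inv_mem' := by rintro _ ⟨a, rfl⟩; exact ⟨-a, (eU_inv a).symm⟩ }
  set U₀ := Subgroup.closure (Set.range fun c : k => eU (algebraMap k R c)) with hU₀
  have hnorm : U₀ ≤ Subgroup.normalizer (E : Set SL(2, R)) := by
    rw [hU₀, Subgroup.closure_le]
    rintro _ ⟨c, rfl⟩
    rw [SetLike.mem_coe, Subgroup.mem_normalizer_iff]
    intro x
    refine ⟨fun hx => h.normU c x hx, fun hx => ?_⟩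
    have := h.normU (-c) _ hx
    rw [map_neg, ← eU_inv, inv_inv] at this
    simpa [mul_assoc] using this
  set P := upperMod (nilradical R) ⊓ (E ⊔ U₀) with hP
  have hPp : IsPGroup p P := (isPGroup_upperMod p).to_inf_left
  have hUP : ∀ c : k, eU (algebraMap k R c) ∈ P := fun c =>
    ⟨eU_mem_upperMod _ _, Subgroup.mem_sup_right (Subgroup.subset_closure ⟨c, rfl⟩)⟩
  have hWP : V.subgroupOf P < ⊤ := by
    rw [lt_top_iff_ne_top]
    intro e
    have hle : P ≤ V := Subgroup.subgroupOf_eq_top.1 e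
    obtain ⟨a, rfl⟩ : q ∈ V := hle ⟨congrSub_le_upperMod _ hqc, Subgroup.mem_sup_left hqE⟩
    have hz : eL (w : R) * eU a * (eL (w : R))⁻¹ ∈ V := by
      refine hle ⟨congrSub_le_upperMod _ ((congrSub_normal _).conj_mem _ hqc _), Subgroup.mem_sup_left ?_⟩
      simpa using h.normL 1 _ hqE
    obtain ⟨b, hb⟩ := hz
    have h3 := (conj_eU (eL (w : R)) a).2.2.1
    rw [← hb] at h3
    simp at h3
    have : a = 0 := by
      have hu : IsUnit ((w : R) ^ 2) := w.isUnit.pow 2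
      exact hu.mul_left_eq_zero.1 (by linear_combination h3)
    exact hq1 (by rw [this, eU_zero])
  haveI : Group.IsNilpotent P := hPp.isNilpotent
  have hlt := Group.normalizerCondition_of_isNilpotent (G := P) _ hWP
  obtain ⟨⟨g, hgP⟩, hgn, hgW⟩ := SetLike.exists_of_lt hlt
  have hgU : ∀ c : k, ∃ y, g * eU (algebraMap k R c) * g⁻¹ = eU y := by
    intro c
    obtain ⟨y, hy⟩ := (Subgroup.mem_normalizer_iff.1 hgn ⟨_, hUP c⟩).1 ⟨_, rfl⟩
    exact ⟨y, hy.symm⟩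
  obtain ⟨y, hy⟩ := hgU 1
  rw [map_one] at hy
  have hg0 : g 1 0 = 0 := upper_of_conj_eU (mem_nilradical.1 hgP.1.1) hy
  refine ⟨g 0 0 ^ 2 - 1, fun e => hgW ?_, ?_, fun c => ?_⟩
  · have h00 : g 0 0 = 1 := eq_one_of_sq h2 (mem_nilradical.1 hgP.1.2.1) (sub_eq_zero.1 e)
    have hd := eDet g
    rw [hg0, h00] at hd
    exact ⟨g 0 1, (eExt (by simp [h00]) (by simp) (by simp [hg0]) (by simpa using hd)).symm⟩
  · intro hu
    haveI : Nontrivial R := CharP.nontrivial_of_char_ne_one hp.out.ne_one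
    have : IsNilpotent (g 0 0 ^ 2 - 1) := mem_nilradical.1 (by
      rw [show g 0 0 ^ 2 - 1 = (g 0 0 - 1) * (g 0 0 + 1) by ring]
      exact Ideal.mul_mem_right _ _ hgP.1.2.1)
    exact this.not_isUnit hu
  · have hmem : g ∈ E ⊔ U₀ := hgP.2
    rw [← SetLike.mem_coe, Subgroup.coe_mul_of_right_le_normalizer_left _ _ hnorm] at hmem
    obtain ⟨e, he, u, hu, rfl⟩ := hmem
    have hcomm : u * eU (algebraMap k R c) = eU (algebraMap k R c) * u := by
      have : U₀ ≤ Subgroup.centralizer {eU (algebraMap k R c)} := by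
        rw [hU₀, Subgroup.closure_le]
        rintro _ ⟨d, rfl⟩
        exact Subgroup.mem_centralizer_singleton_iff.2 (eU_comm _ _)
      exact Subgroup.mem_centralizer_singleton_iff.1 (this hu)
    have := h.comm_mem he c
    have e1 : e * eU (algebraMap k R c) * e⁻¹ = (e * u) * eU (algebraMap k R c) * (e * u)⁻¹ := by
      rw [mul_assoc e u, hcomm]; group
    rw [e1, conj_eU_of_upper _ hg0, eU_inv, ← eU_add] at this
    convert this using 2
    ring

/-- A torus element normalising the unipotent part of a subgroup `K`. -/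
lemma exists_torus {K : Subgroup SL(2, R)} (hK1 : ∀ x ∈ K, eU 1 * x * (eU 1)⁻¹ ∈ K)
    {j : Ideal R} (hj : j.IsMaximal) {t s : R}
    (hx : ∃ x ∈ K, x 0 0 - t ∈ j ∧ x 1 0 ∈ j) (hs : t * s - 1 ∈ j) :
    ∃ g ∈ K, g 0 0 - t ∈ j ∧ g 1 0 ∈ j ∧
      ∀ a : R, eU a ∈ K → g * eU a * g⁻¹ ∈ upperMod (nilradical R) := by
  obtain ⟨x, hxK, hxt, hx0⟩ := hx
  set P := K ⊓ upperMod (nilradical R) with hP
  have hPp : IsPGroup p P := (isPGroup_upperMod p).to_inf_right
  have hmax : ∀ S : Subgroup SL(2, R), S ≤ K → IsPGroup p S → Nat.card S ≤ Nat.card P := by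
    intro S hS hSp
    obtain ⟨y, hy, hyS⟩ := exists_conj_upperMod p (T := K ⊔ Subgroup.zpowers (eU (1 : R)))
      (Subgroup.mem_sup_right (Subgroup.mem_zpowers _)) hSp (hS.trans le_sup_left)
    have hyn : y ∈ Subgroup.normalizer (K : Set SL(2, R)) := by
      refine sup_le Subgroup.le_normalizer ?_ hy
      rw [Subgroup.zpowers_le, Subgroup.mem_normalizer_iff]
      have hle : K.map (MulAut.conj (eU (1 : R))).toMonoidHom ≤ K := by
        rintro _ ⟨a, ha, rfl⟩; exact hK1 a ha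
      have heq : K.map (MulAut.conj (eU (1 : R))).toMonoidHom = K :=
        Subgroup.eq_of_le_of_card_ge hle
          (Nat.card_congr (K.equivMapOfInjective _ (MulAut.conj (eU (1 : R))).injective).toEquiv).le
      intro a
      refine ⟨hK1 a, fun ha => ?_⟩
      rw [← heq] at ha
      obtain ⟨b, hb, e⟩ := ha
      simp at e
      rwa [← e]
    refine Nat.card_le_card_of_injective
      (fun s : S => (⟨y * s * y⁻¹, (Subgroup.mem_normalizer_iff.1 hyn s).1 (hS s.2), hyS s s.2⟩ : P))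
      fun a b e => Subtype.ext ?_
    simpa using congrArg Subtype.val e
  set C := K ⊓ upperMod j with hC
  have hPC : P ≤ C := inf_le_inf_left K (upperMod_mono (nilradical_le_maximal hj))
  obtain ⟨y, hy, hyP⟩ := exists_conj_of_maximal p (A := P.map (MulAut.conj x).toMonoidHom) (B := P) (C := C)
    (hPp.map _) hPp (by
      rintro _ ⟨a, ha, rfl⟩
      exact ⟨K.mul_mem (K.mul_mem hxK ha.1) (K.inv_mem hxK), upperMod_conj hx0 (hPC ha).2⟩)
    hPC (fun S hS hSp => hmax S (hS.trans inf_le_left) hSp)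
  refine ⟨y * x, mul_mem hy.1 hxK, ?_, ?_, fun a ha => ?_⟩
  · rw [eMul, show y 0 0 * x 0 0 + y 0 1 * x 1 0 - t = (y 0 0 - 1) * x 0 0 + (x 0 0 - t) + y 0 1 * x 1 0 by ring]
    exact add_mem (add_mem (Ideal.mul_mem_right _ _ hy.2.2.1) hxt) (Ideal.mul_mem_left _ _ hx0)
  · rw [eMul]
    exact add_mem (Ideal.mul_mem_right _ _ hy.2.1) (Ideal.mul_mem_left _ _ hx0)
  · have := (hyP _ ⟨eU a, ⟨ha, eU_mem_upperMod _ _⟩, rfl⟩).2
    simpa [mul_assoc] using this

omit hp in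
lemma conj_mem_ideal {m : Ideal R} (hm : m.IsMaximal) {g : SL(2, R)} {a : R} (ha : a ∉ m)
    (h : g * eU a * g⁻¹ ∈ upperMod (nilradical R)) : g 1 0 ∈ m := by
  have h' := nilradical_le_maximal hm h.1
  rw [(conj_eU g a).2.2.1, neg_mem_iff] at h'
  exact hm.isPrime.mem_of_pow_mem 2 ((hm.isPrime.mem_or_mem h').resolve_left ha)

omit hp in
lemma map_eq_top_of_lift (h : Hyp k w E) {m : Ideal R} (hm : m.IsMaximal) :
    E.map (Matrix.SpecialLinearGroup.map (Ideal.Quotient.mk m)) = ⊤ := by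
  rw [eq_top_iff]
  intro M _
  obtain ⟨a, ha⟩ := Ideal.Quotient.mk_surjective (M 0 0)
  obtain ⟨b, hb⟩ := Ideal.Quotient.mk_surjective (M 0 1)
  obtain ⟨c, hc⟩ := Ideal.Quotient.mk_surjective (M 1 0)
  obtain ⟨d, hd⟩ := Ideal.Quotient.mk_surjective (M 1 1)
  obtain ⟨e, he, e1, e2, e3, e4⟩ := h.lift m hm a b c d (by
    rw [← Ideal.Quotient.mk_eq_mk_iff_sub_mem, map_sub, map_mul, map_mul, ha, hb, hc, hd, map_one]
    exact eDet M)
  rw [← Ideal.Quotient.mk_eq_mk_iff_sub_mem] at e1 e2 e3 e4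
  exact ⟨e, he, eExt (e1.trans ha) (e2.trans hb) (e3.trans hc) (e4.trans hd)⟩

/-- An element of order `p` trivial modulo a maximal ideal gives a degenerate family. -/
lemma Hyp.fam_of_p (h : Hyp k w E) (h2 : IsUnit (2 : R)) {u : k} (hu0 : u ≠ 0) (hu : u ^ 2 ≠ 1)
    (hK : KFree E) {m : Ideal R} (hm : m.IsMaximal) {q : SL(2, R)} (hqE : q ∈ E) (hqm : q ∈ congrSub m)
    (hqp : q ^ p = 1) (hq1 : q ≠ 1) : Fam k E := by
  haveI : Nontrivial R := CharP.nontrivial_of_char_ne_one hp.out.ne_one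
  set K := Subgroup.closure {g : SL(2, R) | g ∈ E ∧ g ∈ congrSub m ∧ g ^ p = 1} with hKdef
  have hKle : K ≤ E ⊓ congrSub m := by
    rw [hKdef, Subgroup.closure_le]; exact fun g hg => ⟨hg.1, hg.2.1⟩
  have hKconj : ∀ y, (∀ e ∈ E, y * e * y⁻¹ ∈ E) → ∀ g ∈ K, y * g * y⁻¹ ∈ K := by
    intro y hy g hg
    suffices K.map (MulAut.conj y).toMonoidHom ≤ K from this ⟨g, hg, rfl⟩
    rw [hKdef, MonoidHom.map_closure, Subgroup.closure_le]
    rintro _ ⟨x, ⟨hx1, hx2, hx3⟩, rfl⟩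
    refine Subgroup.subset_closure ⟨hy x hx1, (congrSub_normal m).conj_mem _ hx2 _, ?_⟩
    show (MulAut.conj y).toMonoidHom x ^ p = 1
    rw [← map_pow, hx3, map_one]
  have hK1 : ∀ x ∈ K, eU 1 * x * (eU 1)⁻¹ ∈ K :=
    hKconj _ (fun e he => by simpa using h.normU 1 e he)
  have hgen : ∀ g ∈ E, g ∈ congrSub m → g ^ p = 1 →
      ∃ y, ∃ a, eU a ∈ K ∧ y * g * y⁻¹ = eU a := by
    intro g hgE hgm hgp
    have hgK : g ∈ K := Subgroup.subset_closure ⟨hgE, hgm, hgp⟩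
    obtain ⟨y, hy, hyS⟩ := exists_conj_upperMod p (T := K ⊔ Subgroup.zpowers (eU (1 : R)))
      (Subgroup.mem_sup_right (Subgroup.mem_zpowers _)) (S := Subgroup.zpowers g)
      (fun x => ⟨1, Subtype.ext (by
        obtain ⟨n, hn⟩ := x.2
        show (x : SL(2, R)) ^ (p ^ 1) = 1
        rw [← hn, pow_one, ← zpow_natCast, ← _root_.zpow_mul, mul_comm, _root_.zpow_mul, zpow_natCast, hgp, _root_.one_zpow])⟩)
      ((Subgroup.zpowers_le).2 (Subgroup.mem_sup_left hgK))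
    have hyn : ∀ x ∈ K, y * x * y⁻¹ ∈ K := by
      intro x hx
      have hn : K ⊔ Subgroup.zpowers (eU (1 : R)) ≤ Subgroup.normalizer (K : Set SL(2, R)) := by
        refine sup_le Subgroup.le_normalizer ?_
        rw [Subgroup.zpowers_le, Subgroup.mem_normalizer_iff]
        refine fun a => ⟨hK1 a, fun ha => ?_⟩
        have := hKconj (eU (1 : R))⁻¹ (fun e he => by
          have := h.normU (-1) e he
          rw [map_neg, map_one, ← eU_inv] at this
          exact this) _ ha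
        simpa [mul_assoc] using this
      exact (Subgroup.mem_normalizer_iff.1 (hn hy) x).1 hx
    exact ⟨y, _, by rw [← h.exact_upper h2 hK (hKle (hyn _ hgK)).1 (hyS _ (Subgroup.mem_zpowers g))]; exact hyn _ hgK,
      h.exact_upper h2 hK (hKle (hyn _ hgK)).1 (hyS _ (Subgroup.mem_zpowers g))⟩
  obtain ⟨y, a, haK, hya⟩ := hgen q hqE hqm hqp
  have ha0 : a ≠ 0 := by
    rintro rfl
    rw [eU_zero] at hya
    exact hq1 (conj_eq_one_iff.1 hya)
  have hanil : ¬ IsNilpotent a := fun hn => ha0 (eU_inj ((hK _ (hKle haK).1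
    (by simp [mem_congrSub, mem_nilradical, hn])).trans eU_zero.symm))
  obtain ⟨j, hj, haj⟩ := exists_maximal_not_mem hanil
  letI := Ideal.Quotient.field j
  set φ : SL(2, R) →* SL(2, R ⧸ j) := Matrix.SpecialLinearGroup.map (Ideal.Quotient.mk j) with hφ
  have hEtop : E.map φ = ⊤ := map_eq_top_of_lift h hj
  haveI hN : (K.map φ).Normal := ⟨by
    rintro _ ⟨x, hx, rfl⟩ gg
    obtain ⟨e, he, rfl⟩ : gg ∈ E.map φ := hEtop ▸ Subgroup.mem_top gg
    exact ⟨e * x * e⁻¹, hKconj e (fun e' he' => mul_mem (mul_mem he he') (inv_mem he)) x hx,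
      by simp [map_mul, map_inv]⟩⟩
  have htop : K.map φ = ⊤ := by
    refine upperMod_sl2_top_of_eU (a := Ideal.Quotient.mk j a) ?_ ?_ ⟨eU a, haK, ?_⟩
    · exact (h2.map (Ideal.Quotient.mk j)).ne_zero ∘ (fun e => by rw [map_ofNat]; exact e)
    · rwa [Ne, Ideal.Quotient.eq_zero_iff_mem]
    · apply eExt <;> simp [hφ]
  set t := algebraMap k R u with ht
  set s := algebraMap k R u⁻¹ with hs
  have hts : t * s = 1 := by rw [ht, hs, ← map_mul, mul_inv_cancel₀ hu0, map_one]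
  have hlift : ∃ x ∈ K, x 0 0 - t ∈ j ∧ x 1 0 ∈ j := by
    let D : SL(2, R ⧸ j) := ⟨!![Ideal.Quotient.mk j t, 0; 0, Ideal.Quotient.mk j s],
      by simp [Matrix.det_fin_two_of, ← map_mul, hts]⟩
    obtain ⟨x, hx, hxD⟩ : D ∈ K.map φ := htop ▸ Subgroup.mem_top D
    refine ⟨x, hx, ?_, ?_⟩
    · rw [← Ideal.Quotient.mk_eq_mk_iff_sub_mem]
      exact congrArg (fun M : SL(2, R ⧸ j) => M 0 0) hxD
    · rw [← Ideal.Quotient.eq_zero_iff_mem]
      exact congrArg (fun M : SL(2, R ⧸ j) => M 1 0) hxD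
  obtain ⟨g, hgK, hgt, -, hgP⟩ := exists_torus p hK1 hj hlift (by rw [hts, sub_self]; exact j.zero_mem)
  have hg10 : g 1 0 ∈ nilradical R := by
    refine mem_nilradical_of_forall fun i hi => ?_
    by_cases hA : ∃ b, eU b ∈ K ∧ b ∉ i
    · obtain ⟨b, hb, hbi⟩ := hA
      exact conj_mem_ideal hi hbi (hgP b hb)
    · push Not at hA
      have : K ≤ congrSub i := by
        rw [hKdef, Subgroup.closure_le]
        rintro x ⟨hx1, hx2, hx3⟩
        obtain ⟨y, b, hb, e⟩ := hgen x hx1 hx2 hx3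
        have hb' : eU b ∈ congrSub i := by simp [mem_congrSub, hA b hb]
        have := (congrSub_normal i).conj_mem _ hb' y⁻¹
        rw [← e] at this
        simpa [mul_assoc] using this
      exact (mem_congrSub.1 (this hgK)).2.2.1
  have hgE := (hKle hgK).1
  have hg0 : g 1 0 = 0 := by
    have hc := h.comm_mem hgE 1
    have hu' : g * eU (algebraMap k R 1) * g⁻¹ ∈ upperMod (nilradical R) := by
      obtain ⟨h1, h2', h3, h4⟩ := conj_eU g (algebraMap k R 1)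
      rw [mem_upperMod, h1, h3, h4]
      refine ⟨?_, ?_, ?_⟩
      · exact neg_mem (Ideal.mul_mem_left _ _ (by rw [sq]; exact Ideal.mul_mem_left _ _ hg10))
      · rw [sub_sub_cancel_left]; exact neg_mem (Ideal.mul_mem_left _ _ hg10)
      · rw [add_sub_cancel_left]; exact Ideal.mul_mem_left _ _ hg10
    have hx := h.exact_upper h2 hK hc (mul_mem hu' (inv_mem (eU_mem_upperMod _ _)))
    rw [mul_inv_eq_iff_eq_mul, ← eU_add, map_one] at hx
    exact upper_of_conj_eU (mem_nilradical.1 hg10) hx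
  refine ⟨g 0 0 ^ 2 - 1, fun e => ?_, fun hu' => ?_, fun c => h.fam_of_upper hgE hg0 c⟩
  · have h1 : t ^ 2 - 1 ∈ j := by
      rw [show t ^ 2 - 1 = (g 0 0 ^ 2 - 1) - (g 0 0 - t) * (g 0 0 + t) by ring, e, zero_sub]
      exact neg_mem (Ideal.mul_mem_right _ _ hgt)
    refine hj.ne_top (Ideal.eq_top_of_isUnit_mem _ h1 ?_)
    rw [ht, ← map_pow, ← map_one (algebraMap k R), ← map_sub]
    exact (IsUnit.mk0 _ (sub_ne_zero.2 hu)).map _
  · refine hm.ne_top (Ideal.eq_top_of_isUnit_mem _ ?_ hu')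
    rw [show g 0 0 ^ 2 - 1 = (g 0 0 - 1) * (g 0 0 + 1) by ring]
    exact Ideal.mul_mem_right _ _ (mem_congrSub.1 (hKle hgK).2).1

end Cfsg.Agent.H92.QP
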