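import Cfsg.Agent.H92.QP.Dser
import Cfsg.Agent.H92.SL2RankOne
import Cfsg.Agent.H92.RankOneNormal
import Cfsg.Agent.H92.RootBasic

/-! Congruence subgroups of SL₂ over a finite commutative algebra. -/

set_option autoImplicit false

namespace Cfsg.Agent.H92.QP

open Matrix
open scoped MatrixGroups

variable {R : Type*} [CommRing R]

/-- Matrices which are upper unitriangular modulo an ideal. -/
def upperMod (I : Ideal R) : Subgroup SL(2, R) where
  carrier := {g | g 1 0 ∈ I ∧ g 0 0 - 1 ∈ I ∧ g 1 1 - 1 ∈ I}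
  one_mem' := by simp [Matrix.SpecialLinearGroup.coe_one]
  mul_mem' := by
    rintro g h ⟨g1, g2, g3⟩ ⟨h1, h2, h3⟩
    refine ⟨?_, ?_, ?_⟩
    · rw [eMul]; exact add_mem (I.mul_mem_right _ g1) (I.mul_mem_left _ h1)
    · rw [eMul, show g 0 0 * h 0 0 + g 0 1 * h 1 0 - 1 =
        (g 0 0 - 1) * h 0 0 + ((h 0 0 - 1) + g 0 1 * h 1 0) by ring]
      exact add_mem (I.mul_mem_right _ g2) (add_mem h2 (I.mul_mem_left _ h1))
    · rw [eMul, show g 1 0 * h 0 1 + g 1 1 * h 1 1 - 1 =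
        g 1 0 * h 0 1 + ((g 1 1 - 1) * h 1 1 + (h 1 1 - 1)) by ring]
      exact add_mem (I.mul_mem_right _ g1) (add_mem (I.mul_mem_right _ g3) h3)
  inv_mem' := by
    rintro g ⟨g1, g2, g3⟩
    obtain ⟨i1, i2, i3, i4⟩ := eInv g
    exact ⟨by rw [i3]; exact neg_mem g1, by rw [i1]; exact g3, by rw [i4]; exact g2⟩

lemma mem_upperMod {I : Ideal R} {g : SL(2, R)} :
    g ∈ upperMod I ↔ g 1 0 ∈ I ∧ g 0 0 - 1 ∈ I ∧ g 1 1 - 1 ∈ I := Iff.rfl

lemma eU_mem_upperMod (I : Ideal R) (x : R) : eU x ∈ upperMod I := by simp [mem_upperMod]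

/-- The congruence subgroup of an ideal. -/
def congrSub (I : Ideal R) : Subgroup SL(2, R) :=
  (Matrix.SpecialLinearGroup.map (Ideal.Quotient.mk I)).ker

lemma mem_congrSub {I : Ideal R} {g : SL(2, R)} :
    g ∈ congrSub I ↔ g 0 0 - 1 ∈ I ∧ g 0 1 ∈ I ∧ g 1 0 ∈ I ∧ g 1 1 - 1 ∈ I := by
  simp only [congrSub, MonoidHom.mem_ker, ← Ideal.Quotient.mk_eq_mk_iff_sub_mem, map_one,
    ← Ideal.Quotient.eq_zero_iff_mem, map_sub, sub_eq_zero]
  constructor
  · intro h
    refine ⟨?_, ?_, ?_, ?_⟩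
    · simpa [Matrix.SpecialLinearGroup.coe_one] using congrArg (fun M : SL(2, R ⧸ I) => M 0 0) h
    · simpa [Matrix.SpecialLinearGroup.coe_one] using congrArg (fun M : SL(2, R ⧸ I) => M 0 1) h
    · simpa [Matrix.SpecialLinearGroup.coe_one] using congrArg (fun M : SL(2, R ⧸ I) => M 1 0) h
    · simpa [Matrix.SpecialLinearGroup.coe_one] using congrArg (fun M : SL(2, R ⧸ I) => M 1 1) h
  · rintro ⟨h1, h2, h3, h4⟩
    apply eExt <;> simp [Matrix.SpecialLinearGroup.coe_one, h1, h2, h3, h4]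

instance congrSub_normal (I : Ideal R) : (congrSub I).Normal := MonoidHom.normal_ker _

lemma congrSub_le_upperMod (I : Ideal R) : congrSub I ≤ upperMod I := fun _ h => by
  obtain ⟨h1, -, h3, h4⟩ := mem_congrSub.1 h
  exact ⟨h3, h1, h4⟩

section Finite

variable [Finite R]

lemma mem_nilradical_of_forall {x : R} (h : ∀ m : Ideal R, m.IsMaximal → x ∈ m) : x ∈ nilradical R := by
  rw [nilradical_eq_sInf, Submodule.mem_sInf]
  intro P hP
  exact h P (IsArtinianRing.isPrime_iff_isMaximal P |>.1 hP)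

lemma exists_maximal_not_mem {x : R} (h : ¬ IsNilpotent x) : ∃ m : Ideal R, m.IsMaximal ∧ x ∉ m := by
  by_contra hcon
  push Not at hcon
  exact h (mem_nilradical.1 (mem_nilradical_of_forall hcon))

omit [Finite R] in
lemma nilradical_le_maximal {m : Ideal R} (hm : m.IsMaximal) : nilradical R ≤ m :=
  nilradical_le_prime m

omit [Finite R] in
lemma isUnit_of_forall {x : R} (h : ∀ m : Ideal R, m.IsMaximal → x ∉ m) : IsUnit x := by
  by_contra hcon
  obtain ⟨m, hm, hx⟩ := exists_max_ideal_of_mem_nonunits (show x ∈ nonunits R from hcon)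
  exact h m hm hx

end Finite

variable (p : ℕ) [hp : Fact p.Prime] [CharP R p]

/-- A `p`-power torsion element is the identity plus a nilpotent matrix. -/
lemma isNilpotent_sub_one {g : SL(2, R)} {j : ℕ} (h : g ^ (p ^ j) = 1) :
    IsNilpotent ((g : Matrix (Fin 2) (Fin 2) R) - 1) := by
  haveI : Nontrivial R := CharP.nontrivial_of_char_ne_one hp.out.ne_one
  refine ⟨p ^ j, ?_⟩
  rw [sub_pow_char_pow_of_commute _ _ (Commute.one_right _), one_pow,
    ← Matrix.SpecialLinearGroup.coe_pow, h, Matrix.SpecialLinearGroup.coe_one, sub_self]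

/-- A `p`-subgroup containing `eU 1` is upper unitriangular modulo the nilradical. -/
lemma pgroup_le_upperMod {Q : Subgroup SL(2, R)} (hQ : IsPGroup p Q) (h1 : eU (1 : R) ∈ Q) :
    Q ≤ upperMod (nilradical R) := by
  intro g hg
  have tr : ∀ x ∈ Q, x 0 0 + x 1 1 - 2 ∈ nilradical R := by
    intro x hx
    obtain ⟨j, hj⟩ := hQ ⟨x, hx⟩
    obtain ⟨n, hn⟩ := isNilpotent_sub_one p (congrArg Subtype.val hj : x ^ (p ^ j) = 1)
    have hd : IsNilpotent (((x : Matrix (Fin 2) (Fin 2) R) - 1).det) := by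
      refine ⟨n + 1, ?_⟩
      rw [← Matrix.det_pow, pow_succ, hn, zero_mul, Matrix.det_zero]
    have e : x 0 0 + x 1 1 - 2 = -((x : Matrix (Fin 2) (Fin 2) R) - 1).det := by
      rw [Matrix.det_fin_two]
      simp [Matrix.sub_apply]
      linear_combination eDet x
    rw [e]
    exact neg_mem (mem_nilradical.2 hd)
  have hg0 := tr g hg
  have hc : g 1 0 ∈ nilradical R := by
    have := sub_mem (tr _ (mul_mem hg h1)) hg0
    simp only [eMul, eU_00, eU_01, eU_10, eU_11] at this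
    convert this using 1
    ring
  have ha : g 0 0 - 1 ∈ nilradical R := by
    refine mem_nilradical.2 (IsNilpotent.of_pow (m := 2) (mem_nilradical.1 ?_))
    rw [show (g 0 0 - 1) ^ 2 = g 0 0 * (g 0 0 + g 1 1 - 2) - g 0 1 * g 1 0 by
      linear_combination -eDet g]
    exact sub_mem (Ideal.mul_mem_left _ _ hg0) (Ideal.mul_mem_left _ _ hc)
  refine ⟨hc, ha, ?_⟩
  rw [show g 1 1 - 1 = (g 0 0 + g 1 1 - 2) - (g 0 0 - 1) by ring]
  exact sub_mem hg0 ha

lemma isPGroup_upperMod : IsPGroup p (upperMod (nilradical R)) := by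
  haveI : Nontrivial R := CharP.nontrivial_of_char_ne_one hp.out.ne_one
  rintro ⟨g, h1, h2, h3⟩
  set M := (g : Matrix (Fin 2) (Fin 2) R) - 1 with hM
  set t := (g 0 0 - 1) + (g 1 1 - 1) with ht
  set d := (g 0 0 - 1) * (g 1 1 - 1) - g 0 1 * g 1 0 with hd
  have htn : IsNilpotent t := mem_nilradical.1 (add_mem h2 h3)
  have hdn : IsNilpotent d :=
    mem_nilradical.1 (sub_mem (Ideal.mul_mem_left _ _ h3) (Ideal.mul_mem_left _ _ h1))
  have e : M * M = t • M - d • 1 := by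
    ext i j
    fin_cases i <;> fin_cases j <;>
      simp [hM, ht, hd, Matrix.mul_apply, Fin.sum_univ_two, Matrix.sub_apply] <;> ring
  have n1 : IsNilpotent (t • M) := by
    obtain ⟨n, hn⟩ := htn
    exact ⟨n, by rw [smul_pow, hn, zero_smul]⟩
  have n2 : IsNilpotent (d • (1 : Matrix (Fin 2) (Fin 2) R)) := by
    obtain ⟨n, hn⟩ := hdn
    exact ⟨n, by rw [smul_pow, hn, zero_smul]⟩
  have hMM : IsNilpotent (M * M) := by
    rw [e]; exact Commute.isNilpotent_sub ((Commute.one_right _).smul_right _) n1 n2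
  obtain ⟨n, hn⟩ := hMM
  refine ⟨2 * n, Subtype.ext (Subtype.ext ?_)⟩
  have h0 : M ^ (p ^ (2 * n)) = 0 := by
    refine pow_eq_zero_of_le (m := 2 * n) (Nat.lt_pow_self hp.out.one_lt).le ?_
    rw [pow_mul, sq, hn]
  rw [hM, sub_pow_char_pow_of_commute _ _ (Commute.one_right _), one_pow, sub_eq_zero] at h0
  simpa [Matrix.SpecialLinearGroup.coe_pow, Matrix.SpecialLinearGroup.coe_one] using h0

section Sylow

variable {G : Type*} [Group G] [Finite G]

/-- A `p`-subgroup is conjugate into any `p`-subgroup of maximal order. -/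
lemma exists_conj_of_maximal {A B C : Subgroup G} (hA : IsPGroup p A) (hB : IsPGroup p B)
    (hAC : A ≤ C) (hBC : B ≤ C)
    (hBm : ∀ S : Subgroup G, S ≤ C → IsPGroup p S → Nat.card S ≤ Nat.card B) :
    ∃ y ∈ C, ∀ a ∈ A, y * a * y⁻¹ ∈ B := by
  obtain ⟨Q, hQ⟩ := (hB.comap_subtype (K := C)).exists_le_sylow
  obtain ⟨P, hP⟩ := (hA.comap_subtype (K := C)).exists_le_sylow
  have hQB : (Q : Subgroup C).map C.subtype = B := by
    refine (Subgroup.eq_of_le_of_card_ge ?_ (hBm _ (Subgroup.map_subtype_le _) (Q.2.map _))).symm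
    intro b hb
    exact ⟨⟨b, hBC hb⟩, hQ hb, rfl⟩
  obtain ⟨y, hy⟩ := MulAction.exists_smul_eq C P Q
  refine ⟨y, y.2, fun a ha => ?_⟩
  rw [← hQB]
  refine ⟨y * ⟨a, hAC ha⟩ * y⁻¹, ?_, rfl⟩
  rw [← hy]
  exact ⟨⟨a, hAC ha⟩, hP ha, rfl⟩

end Sylow

/-- Every `p`-subgroup of `T` is conjugate in `T` into the upper unitriangular matrices modulo the nilradical. -/
lemma exists_conj_upperMod [Finite R] {T : Subgroup SL(2, R)} (hT : eU (1 : R) ∈ T) {S : Subgroup SL(2, R)}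
    (hS : IsPGroup p S) (hST : S ≤ T) : ∃ y ∈ T, ∀ s ∈ S, y * s * y⁻¹ ∈ upperMod (nilradical R) := by
  obtain ⟨P, hP⟩ := (hS.comap_subtype (K := T)).exists_le_sylow
  have hu : IsPGroup p (Subgroup.zpowers (eU (1 : R))) := by
    refine (isPGroup_upperMod p).to_le ?_
    rw [Subgroup.zpowers_le]; exact eU_mem_upperMod _ _
  obtain ⟨Q, hQ⟩ := (hu.comap_subtype (K := T)).exists_le_sylow
  obtain ⟨y, hy⟩ := MulAction.exists_smul_eq T P Q
  refine ⟨y, y.2, fun s hs => ?_⟩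
  refine pgroup_le_upperMod p (Q := (Q : Subgroup T).map T.subtype) (Q.2.map _)
    ⟨⟨_, hT⟩, hQ (Subgroup.mem_zpowers (eU (1 : R))), rfl⟩ ⟨y * ⟨s, hST hs⟩ * y⁻¹, ?_, rfl⟩
  rw [← hy]
  exact ⟨⟨s, hST hs⟩, hP hs, rfl⟩

section Field

variable {F : Type*} [Field F]

omit hp in
lemma upperMod_sl2_top_of_eU {N : Subgroup SL(2, F)} [N.Normal] (h2 : (2 : F) ≠ 0) {a : F} (ha : a ≠ 0)
    (haN : eU a ∈ N) : N = ⊤ := by
  have sq : ∀ s : F, a * s ^ 2 ∈ upperSet N := by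
    intro s
    by_cases hs : s = 0
    · simp [hs, (upperSet N).zero_mem]
    · let d : SL(2, F) := ⟨!![s, 0; 0, s⁻¹], by simp [Matrix.det_fin_two_of, hs]⟩
      have := ‹N.Normal›.conj_mem _ haN d
      rwa [conj_eU_of_upper d rfl] at this
  have hx : ∀ x : F, eU x ∈ N := by
    intro x
    have h := sub_mem (sq (x / a / 2 ^ 2 + 1)) (sq (x / a / 2 ^ 2 - 1))
    rw [show a * (x / a / 2 ^ 2 + 1) ^ 2 - a * (x / a / 2 ^ 2 - 1) ^ 2 = x by field_simp; ring] at h
    exact h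
  have hy : ∀ x : F, eL x ∈ N := by
    intro x
    let w : SL(2, F) := ⟨!![0, 1; -1, 0], by simp [Matrix.det_fin_two_of]⟩
    have := ‹N.Normal›.conj_mem _ (hx (-x)) w
    obtain ⟨h1, h2, h3, h4⟩ := conj_eU w (-x)
    convert this using 1
    apply eExt <;> simp [h1, h2, h3, h4, w]
  rw [eq_top_iff, ← sl2_closure_sx_sy, Subgroup.closure_le]
  rintro _ (⟨t, rfl⟩ | ⟨t, rfl⟩)
  · exact hx t
  · exact hy (-t)

/-- A normal subgroup of SL₂ without elements of order `p` consists of scalars. -/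
lemma scalar_of_normal [Finite F] [CharP F p] (h2 : (2 : F) ≠ 0) {u : F} (hu0 : u ≠ 0) (hu : u ^ 2 ≠ 1)
    {N : Subgroup SL(2, F)} [N.Normal] (hN : ∀ g ∈ N, g ^ p = 1 → g = 1) :
    ∀ g ∈ N, g 0 1 = 0 ∧ g 1 0 = 0 := by
  have hpair : IsRankOneGroup SL(2, F) (lowerUnipotentSL2 F) (upperUnipotentSL2 F) := by
    refine ⟨?_, sl2_specialPair.1⟩
    rw [eq_top_iff, ← sl2_closure_sx_sy, Subgroup.closure_le]
    rintro _ (⟨t, rfl⟩ | ⟨t, rfl⟩)
    · exact Subgroup.mem_sup_right (mem_upperUnipotentSL2.2 ⟨t, rfl⟩)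
    · exact Subgroup.mem_sup_left (mem_lowerUnipotentSL2.2 ⟨t, rfl⟩)
  rcases rankOne_normal hpair N inferInstance with h | h
  · exfalso
    have hc : (⁅(⊤ : Subgroup SL(2, F)), ⊤⁆) ≤ N := by
      rw [← QuotientGroup.ker_mk' N, ← Subgroup.map_eq_bot_iff, Subgroup.map_commutator,
        ← h, Subgroup.map_sup, QuotientGroup.map_mk'_self, bot_sup_eq]
      refine commutator_eq_bot_of_commute ?_
      rintro _ ⟨a, ha, rfl⟩ _ ⟨b, hb, rfl⟩
      obtain ⟨s, rfl⟩ := mem_lowerUnipotentSL2.1 ha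
      obtain ⟨t, rfl⟩ := mem_lowerUnipotentSL2.1 hb
      rw [← map_mul, ← map_mul, ← sy_add, ← sy_add, add_comm]
    have h1 := hc ((perfect_step (S := (⊤ : Subgroup SL(2, F))) (fun _ => Subgroup.mem_top _)
      (fun _ => Subgroup.mem_top _) (IsUnit.mk0 u hu0) (IsUnit.mk0 _ (sub_ne_zero.2 hu))).1 1)
    have := hN _ h1 (by rw [eU_pow, CharP.cast_eq_zero, zero_mul, eU_zero])
    exact one_ne_zero (eU_inj (this.trans eU_zero.symm))
  · intro g hg
    obtain ⟨r, -, hr⟩ := Matrix.SpecialLinearGroup.mem_center_iff.1 (h hg)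
    rw [← hr]
    simp

end Field

end Cfsg.Agent.H92.QP
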