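import Cfsg.Agent.H92.QP.Dser

/-! The group generated by two scalar families over an infinite field contains all elementary matrices. -/

set_option autoImplicit false

namespace Cfsg.Agent.H92.QP

open Matrix Polynomial
open scoped MatrixGroups

section Ops

variable {S : Type*} [CommRing S]

/-- First reduction step on coefficient sequences. -/
def stepA (n : ℕ) (a c : ℕ → S) (i : ℕ) : S := c (n + 1) * a i - a (n + 1) * c i

/-- Second reduction step on coefficient sequences. -/
def stepC (n : ℕ) (a c : ℕ → S) (i : ℕ) : S :=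
  stepA n a c n * c i - c (n + 1) * (if i = 0 then 0 else stepA n a c (i - 1))

/-- Reduced first sequence. -/
def nextA (n : ℕ) (a c : ℕ → S) (i : ℕ) : S := stepA n a c n * stepA n a c i

/-- Reduced second sequence. -/
def nextC (n : ℕ) (a c : ℕ → S) (i : ℕ) : S := c (n + 1) * stepC n a c i

/-- The reduction algorithm never meets a zero leading coefficient. -/
def Good : ℕ → (ℕ → S) → (ℕ → S) → Prop
  | 0, a, c => a 0 ≠ 0 ∧ c 0 = 0
  | n + 1, a, c => c (n + 1) ≠ 0 ∧ stepA n a c n ≠ 0 ∧ Good n (nextA n a c) (nextC n a c)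

lemma nextC_zero {n : ℕ} {a c : ℕ → S} (h : c 0 = 0) : nextC n a c 0 = 0 := by
  simp [nextC, stepC, h]

lemma Good.smul [IsDomain S] {n : ℕ} : ∀ {a c : ℕ → S}, Good n a c → ∀ {s : S}, s ≠ 0 →
    Good n (fun i => s * a i) (fun i => s * c i) := by
  induction n with
  | zero => exact fun h s hs => ⟨mul_ne_zero hs h.1, by simp [h.2]⟩
  | succ n ih =>
    intro a c h s hs
    refine ⟨mul_ne_zero hs h.1, ?_, ?_⟩
    · rw [show stepA n (fun i => s * a i) (fun i => s * c i) n = s ^ 2 * stepA n a c n by
        simp only [stepA]; ring]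
      exact mul_ne_zero (pow_ne_zero _ hs) h.2.1
    · convert ih h.2.2 (pow_ne_zero 4 hs) using 1
      · funext i; simp only [nextA, stepA]; ring
      · funext i
        simp only [nextC, stepC, stepA]
        split_ifs <;> ring

end Ops

variable {k : Type*} [Field k]

lemma good_exists (n : ℕ) : ∃ a c : ℕ → k, Good n a c ∧ a n ≠ 0 ∧ c 0 = 0 ∧
    ∀ i, n < i → a i = 0 ∧ c i = 0 := by
  induction n with
  | zero =>
    refine ⟨fun i => if i = 0 then 1 else 0, 0, ⟨by simp, rfl⟩, by simp, rfl, fun i hi => ?_⟩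
    simp [Nat.ne_zero_of_lt hi]
  | succ n ih =>
    obtain ⟨a, c, hg, hn, hc, hsupp⟩ := ih
    set C : ℕ → k := fun i => c i + (if i = 0 then 0 else a (i - 1)) with hC
    set A : ℕ → k := fun i => a i + C i with hA
    have C1 : C (n + 1) = a n := by simp [hC, (hsupp (n + 1) (by omega)).2]
    have A1 : A (n + 1) = a n := by simp [hA, C1, (hsupp (n + 1) (by omega)).1]
    have sA : ∀ i, stepA n A C i = a n * a i := fun i => by
      simp only [stepA]; rw [C1, A1]; simp only [hA]; ring
    refine ⟨A, C, ⟨by rwa [C1], by rw [sA]; exact mul_ne_zero hn hn, ?_⟩, by rwa [A1], by simp [hC, hc],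
      fun i hi => ?_⟩
    · convert hg.smul (pow_ne_zero 3 hn) using 1
      · funext i; simp only [nextA, sA]; ring
      · funext i
        simp only [nextC, stepC, sA]
        rw [C1]
        simp only [hC]
        split_ifs <;> ring
    · have h1 := hsupp i (by omega)
      have h2 := hsupp (i - 1) (by omega)
      simp [hA, hC, h1.1, h1.2, h2.1]

lemma good_cofinite (n : ℕ) : ∀ {a c : ℕ → k[X]}, c 0 = 0 →
    Good n (fun i => (a i).eval 0) (fun i => (c i).eval 0) →
    {t : k | ¬ Good n (fun i => (a i).eval t) (fun i => (c i).eval t)}.Finite := by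
  have root : ∀ p : k[X], p.eval 0 ≠ 0 → {t : k | p.eval t = 0}.Finite := fun p hp =>
    Polynomial.finite_setOfPred_isRoot (fun e => hp (by simp [e]))
  induction n with
  | zero =>
    intro a c hc h
    refine (root _ h.1).subset fun t ht => ?_
    by_contra e
    exact ht ⟨e, by simp [hc]⟩
  | succ n ih =>
    intro a c hc h
    have eA : ∀ t : k, (fun i => (nextA n a c i).eval t) =
        nextA n (fun i => (a i).eval t) (fun i => (c i).eval t) := fun t => by
      funext i; simp [nextA, stepA]
    have eC : ∀ t : k, (fun i => (nextC n a c i).eval t) =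
        nextC n (fun i => (a i).eval t) (fun i => (c i).eval t) := fun t => by
      funext i; simp only [nextC, stepC, stepA]; split_ifs <;> simp
    have e1 : ∀ t : k, stepA n (fun i => (a i).eval t) (fun i => (c i).eval t) n =
        (stepA n a c n).eval t := fun t => by simp [stepA]
    obtain ⟨h1, h2, h3⟩ := h
    rw [e1] at h2
    rw [← eA, ← eC] at h3
    refine (((root _ h1).union (root _ h2)).union (ih (nextC_zero hc) h3)).subset fun t ht => ?_
    simp only [Set.mem_union, Set.mem_setOf_eq]
    by_contra hcon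
    push Not at hcon
    apply ht
    exact ⟨hcon.1.1, by rw [e1]; exact hcon.1.2, by rw [← eA, ← eC]; exact hcon.2⟩

variable {R : Type*} [CommRing R] [Algebra k R]

/-- Evaluation of a coefficient sequence at `z`. -/
def res (z : R) (n : ℕ) (a : ℕ → k) : R := ∑ i ∈ Finset.range (n + 1), a i • z ^ i

lemma good_word {H : Subgroup SL(2, R)} {z : R} (hU : ∀ c : k, eU (algebraMap k R c) ∈ H)
    (hL : ∀ c : k, eL (algebraMap k R c * z) ∈ H) :
    ∀ (n : ℕ) {a c : ℕ → k}, Good n a c →
      ∃ g ∈ H, ∃ s : k, s ≠ 0 ∧ g 0 0 = s • res z n a ∧ g 1 0 = s • res z n c := by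
  intro n
  induction n with
  | zero =>
    intro a c h
    refine ⟨1, one_mem _, (a 0)⁻¹, inv_ne_zero h.1, ?_, ?_⟩ <;> simp [res, h.1, h.2, smul_smul]
  | succ n ih =>
    intro a c h
    obtain ⟨hβ, hγ, h'⟩ := h
    obtain ⟨g, hg, s, hs, g0, g1⟩ := ih h'
    set β := c (n + 1) with hβdef
    set α := a (n + 1) with hαdef
    set γ := stepA n a c n with hγdef
    refine ⟨eU (algebraMap k R (α / β)) * (eL (algebraMap k R (β ^ 2 / γ) * z) * g),
      mul_mem (hU _) (mul_mem (hL _) hg), s * β * γ, mul_ne_zero (mul_ne_zero hs hβ) hγ, ?_⟩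
    set A := res z (n + 1) a with hA
    set C := res z (n + 1) c with hC
    have eA' : res z n (stepA n a c) = β • A - α • C := by
      have : res z (n + 1) (stepA n a c) = res z n (stepA n a c) := by
        rw [res, Finset.sum_range_succ]
        simp [res, stepA, mul_comm]
      rw [← this, hA, hC]
      simp only [res, stepA, sub_smul, mul_smul, Finset.sum_sub_distrib, Finset.smul_sum]
      rfl
    have eC' : res z n (stepC n a c) = γ • C - β • (z * res z n (stepA n a c)) := by
      have top : stepC n a c (n + 1) = 0 := by simp [stepC, ← hβdef, ← hγdef, mul_comm]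
      have : res z (n + 1) (stepC n a c) = res z n (stepC n a c) := by
        rw [res, Finset.sum_range_succ, top]; simp [res]
      rw [← this, hC]
      simp only [res, stepC, sub_smul, Finset.sum_sub_distrib, Finset.smul_sum, mul_smul, Finset.mul_sum]
      congr 1
      rw [Finset.sum_range_succ']
      simp only [Nat.succ_ne_zero, ↓reduceIte, Nat.add_sub_cancel, zero_smul, smul_zero, add_zero]
      refine Finset.sum_congr rfl fun i _ => ?_
      rw [mul_smul_comm, pow_succ']
    have g0' : g 0 0 = (s * γ) • (β • A - α • C) := by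
      rw [g0, ← eA']
      simp only [res, nextA, Finset.smul_sum, smul_smul, mul_assoc]
      rfl
    have g1' : g 1 0 = (s * β) • (γ • C - β • (z * (β • A - α • C))) := by
      rw [g1, ← eA', ← eC']
      simp only [res, nextC, Finset.smul_sum, smul_smul, mul_assoc]
      rfl
    simp only [eMul, eU_00, eU_01, eU_10, eU_11, eL_00, eL_01, eL_10, eL_11, g0', g1', Algebra.smul_def,
      map_mul]
    have i1 : algebraMap k R (α / β) * algebraMap k R β = algebraMap k R α := by
      rw [← map_mul, div_mul_cancel₀ _ hβ]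
    have i2 : algebraMap k R (β ^ 2 / γ) * algebraMap k R γ = algebraMap k R β ^ 2 := by
      rw [← map_mul, div_mul_cancel₀ _ hγ, map_pow]
    generalize algebraMap k R (α / β) = X at i1 ⊢
    generalize algebraMap k R (β ^ 2 / γ) = Y at i2 ⊢
    generalize algebraMap k R α = a' at i1 ⊢
    generalize algebraMap k R β = b' at i1 i2 ⊢
    generalize algebraMap k R γ = c' at i1 i2 ⊢
    constructor
    · linear_combination (algebraMap k R s * c' * C) * i1 +
        (X * z * algebraMap k R s * (b' * A - a' * C)) * i2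
    · linear_combination (z * algebraMap k R s * (b' * A - a' * C)) * i2

/-- Over an infinite field the two scalar families generate all upper elementary matrices. -/
theorem upper_of_infinite [Infinite k] (h2 : (2 : k) ≠ 0) [Module.Finite k R] {z : R} (hz : IsUnit z)
    (hgen : Algebra.adjoin k ({z} : Set R) = ⊤) {H : Subgroup SL(2, R)}
    (hU : ∀ c : k, eU (algebraMap k R c) ∈ H) (hL : ∀ c : k, eL (algebraMap k R c * z) ∈ H) :
    ∀ e : R, eU e ∈ H := by
  intro e
  rcases subsingleton_or_nontrivial R with hR | hR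
  · rw [Subsingleton.elim e 0, eU_zero]; exact one_mem _
  have hint : IsIntegral k z := Algebra.IsIntegral.isIntegral z
  set D := (minpoly k z).natDegree with hD
  set n := D + 1 with hn
  have reduce : ∀ x : R, ∃ b : ℕ → k, (∀ i, D ≤ i → b i = 0) ∧ res z D b = x ∧ res z n b = x := by
    intro x
    obtain ⟨p, rfl⟩ : ∃ p : k[X], aeval z p = x := by
      have : x ∈ Algebra.adjoin k ({z} : Set R) := hgen ▸ Algebra.mem_top
      rwa [Algebra.adjoin_singleton_eq_range_aeval] at this
    have hdeg : (p %ₘ minpoly k z).natDegree < D :=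
      natDegree_modByMonic_lt p (minpoly.monic hint) (minpoly.ne_one k z)
    refine ⟨(p %ₘ minpoly k z).coeff, fun i hi => coeff_eq_zero_of_natDegree_lt (by omega), ?_, ?_⟩ <;>
      rw [res, ← aeval_eq_sum_range' (by omega), aeval_modByMonic_eq_self_of_root (minpoly.aeval k z)]
  obtain ⟨a, c, hg, -, hc, -⟩ := good_exists (k := k) n
  obtain ⟨g₀, hg₀, s₀, hs₀, g00, g10⟩ := good_word hU hL n hg
  obtain ⟨da, hda0, -, hda⟩ := reduce (e * res z n a)
  obtain ⟨w, rfl⟩ := hz
  obtain ⟨q, hq0, hq, -⟩ := reduce ((w⁻¹ : Rˣ) * (e * res (w : R) n c))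
  set dc : ℕ → k := fun i => if i = 0 then 0 else q (i - 1) with hdc
  have hdcres : res (w : R) n dc = e * res (w : R) n c := by
    rw [res, hn, Finset.sum_range_succ']
    simp only [hdc, Nat.succ_ne_zero, ↓reduceIte, Nat.add_sub_cancel, zero_smul, add_zero]
    have : ∑ i ∈ Finset.range (D + 1), q i • (w : R) ^ (i + 1) = (w : R) * res (w : R) D q := by
      rw [res, Finset.mul_sum]
      exact Finset.sum_congr rfl fun i _ => by rw [mul_smul_comm, pow_succ']
    rw [this, hq, Units.mul_inv_cancel_left, hn]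
  have hfin := good_cofinite n (a := fun i => C (a i) + X * C (da i)) (c := fun i => C (c i) + X * C (dc i))
    (by simp [hc, hdc]) (by simpa using hg)
  have key : ∀ t : k, Good n (fun i => a i + t * da i) (fun i => c i + t * dc i) →
      ∀ r : k, algebraMap k R r * (1 + algebraMap k R t * e) ^ 2 ∈ upperSet H := by
    intro t ht r
    obtain ⟨g, hg', s, hs, g0, g1⟩ := good_word hU hL n ht
    have lin : ∀ b d : ℕ → k, res (w : R) n (fun i => b i + t * d i) =
        res (w : R) n b + algebraMap k R t * res (w : R) n d := fun b d => by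
      simp only [res, add_smul, mul_smul, Finset.sum_add_distrib, Finset.mul_sum, ← Algebra.smul_def]
    set σ := algebraMap k R (s / s₀) * (1 + algebraMap k R t * e) with hσ
    have i1 : algebraMap k R (s / s₀) * algebraMap k R s₀ = algebraMap k R s := by
      rw [← map_mul, div_mul_cancel₀ _ hs₀]
    have e0 : g 0 0 = σ * g₀ 0 0 := by
      rw [g0, lin, hda, g00, hσ, Algebra.smul_def, Algebra.smul_def]; grind
    have e1 : g 1 0 = σ * g₀ 1 0 := by
      rw [g1, lin, hdcres, g10, hσ, Algebra.smul_def, Algebra.smul_def]; grind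
    have hd := eDet g₀
    obtain ⟨j1, j2, j3, j4⟩ := eInv g₀
    have h00 : (g₀⁻¹ * g) 0 0 = σ := by rw [eMul, j1, j2, e0, e1]; grind
    have h10 : (g₀⁻¹ * g) 1 0 = 0 := by rw [eMul, j3, j4, e0, e1]; grind
    have hh : g₀⁻¹ * g ∈ H := mul_mem (inv_mem hg₀) hg'
    have := mul_mem (mul_mem hh (hU (r * (s₀ / s) ^ 2))) (inv_mem hh)
    rw [conj_eU_of_upper _ h10, h00, hσ] at this
    rw [mem_upperSet]
    convert this using 2
    have i3 : algebraMap k R (s₀ / s) * algebraMap k R (s / s₀) = 1 := by
      rw [← map_mul, div_mul_div_comm, mul_comm s₀ s, div_self (mul_ne_zero hs hs₀), map_one]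
    rw [map_mul, map_pow]; grind
  set T := {t : k | Good n (fun i => a i + t * da i) (fun i => c i + t * dc i)} with hT
  have hTfin : Tᶜ.Finite := hfin.subset fun t ht => by simpa [hT, mul_comm t] using ht
  obtain ⟨t₁, ht₁⟩ := (hTfin.union (Set.finite_singleton (0 : k))).exists_notMem
  obtain ⟨t₂, ht₂⟩ := ((hTfin.union (Set.finite_singleton (0 : k))).union
    (Set.finite_singleton t₁)).exists_notMem
  simp only [Set.mem_union, Set.mem_compl_iff, Set.mem_singleton_iff, not_or, not_not] at ht₁ ht₂
  obtain ⟨h₁, n₁⟩ := ht₁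
  obtain ⟨⟨h₂, n₂⟩, n₁₂⟩ := ht₂
  set N := (2 * t₁ * t₂ * (t₂ - t₁)) with hN
  have hN0 : N ≠ 0 := mul_ne_zero (mul_ne_zero (mul_ne_zero h2 n₁) n₂) (sub_ne_zero.2 n₁₂)
  have hmem : ∀ r : k, algebraMap k R r ∈ upperSet H := fun r => hU r
  have hin := sub_mem (sub_mem (key t₁ h₁ (t₂ ^ 2 / N)) (hmem (t₂ ^ 2 / N)))
    (sub_mem (key t₂ h₂ (t₁ ^ 2 / N)) (hmem (t₁ ^ 2 / N)))
  rw [mem_upperSet] at hin
  convert hin using 2
  have iN : algebraMap k R N * algebraMap k R N⁻¹ = 1 := by rw [← map_mul, mul_inv_cancel₀ hN0, map_one]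
  simp only [div_eq_mul_inv, map_mul, map_pow, hN, map_sub, map_ofNat] at iN ⊢
  grind

/-- Over an infinite field the two scalar families generate all elementary matrices. -/
theorem elem_of_infinite [Infinite k] (h2 : (2 : k) ≠ 0) [Module.Finite k R] {z : R} (hz : IsUnit z)
    (hgen : Algebra.adjoin k ({z} : Set R) = ⊤) {H : Subgroup SL(2, R)}
    (hU : ∀ c : k, eU (algebraMap k R c) ∈ H) (hL : ∀ c : k, eL (algebraMap k R c * z) ∈ H) :
    (∀ x : R, eU x ∈ H) ∧ ∀ x : R, eL x ∈ H := by
  have h := upper_of_infinite h2 hz hgen hU hL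
  refine ⟨h, fun x => ?_⟩
  obtain ⟨w, rfl⟩ := hz
  obtain ⟨g, hg, e⟩ := eL_eq_conj w (h _) (by simpa using hL 1)
  have := mul_mem (mul_mem hg (h (-(x * ((w⁻¹ : Rˣ) : R) ^ 2)))) (inv_mem hg)
  rw [e] at this
  convert this using 2
  rw [neg_mul, neg_neg, mul_assoc, ← mul_pow, Units.inv_mul, one_pow, mul_one]

end Cfsg.Agent.H92.QP
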