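import Cfsg.Agent.H92.QP.Corner

/-! Lifting the derived series of the corner group into the ambient group. -/

set_option autoImplicit false

namespace Cfsg.Agent.H92.QP

open Polynomial
open scoped MatrixGroups commutatorElement

variable {k : Type*} [Field k] {M : Type*} [AddCommGroup M] [Module k M]
variable {s t : Module.End k M} {ν : k[X]} {π wi : Module.End k M} {e : ℕ}

/-- A family of subspaces multiplying like the powers of an ideal, killed on the right by `1 - q`. -/
structure Filt (q : Module.End k M) (J : ℕ → Submodule k (Module.End k M)) : Prop where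
  mul : ∀ i j, ∀ a ∈ J i, ∀ b ∈ J j, a * b ∈ J (i + j)
  mono : ∀ i j, i ≤ j → J j ≤ J i
  fixed : ∀ a ∈ J 1, a * q = a

variable {q : Module.End k M} {J : ℕ → Submodule k (Module.End k M)}

/-- Group elements congruent to one at a level, seen through `q`. -/
def Filt.level (hJ : Filt q J) (i : ℕ) : Subgroup (LinearMap.GeneralLinearGroup k M) where
  carrier := {g | Commute (g : Module.End k M) q ∧ ((g : Module.End k M) - 1) * q ∈ J (i + 1) ∧
    (((g⁻¹ : LinearMap.GeneralLinearGroup k M) : Module.End k M) - 1) * q ∈ J (i + 1)}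
  one_mem' := by simp
  mul_mem' := by
    rintro g h ⟨g1, g2, g3⟩ ⟨h1, h2, h3⟩
    have key : ∀ a b : Module.End k M, Commute b q → (a - 1) * q ∈ J (i + 1) → (b - 1) * q ∈ J (i + 1) →
        (a * b - 1) * q ∈ J (i + 1) := by
      intro a b hb ha hb'
      have hc : Commute (b - 1) q := hb.sub_left (Commute.one_left q)
      have e : (a - 1) * q * ((b - 1) * q) = (a - 1) * ((b - 1) * q) := by
        have := hJ.fixed _ (hJ.mono 1 (i + 1) (Nat.le_add_left 1 i) hb')
        rw [mul_assoc, ← mul_assoc q, ← hc.eq, this]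
      rw [show (a * b - 1) * q = (a - 1) * ((b - 1) * q) + (a - 1) * q + (b - 1) * q by noncomm_ring, ← e]
      exact add_mem (add_mem (hJ.mono _ _ (Nat.le_add_right _ _) (hJ.mul _ _ _ ha _ hb')) ha) hb'
    refine ⟨g1.mul_left h1, key _ _ h1 g2 h2, ?_⟩
    rw [mul_inv_rev, Units.val_mul]
    refine key _ _ ?_ h3 g3
    exact g1.units_inv_left
  inv_mem' := by
    rintro g ⟨g1, g2, g3⟩
    exact ⟨g1.units_inv_left, g3, by rwa [inv_inv]⟩

lemma Filt.level_commutator (hJ : Filt q J) (hq : q * q = q) (i : ℕ) :
    ⁅hJ.level i, hJ.level i⁆ ≤ hJ.level (2 * i + 1) := by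
  rw [Subgroup.commutator_le]
  intro g hg h hh
  have key : ∀ g h : LinearMap.GeneralLinearGroup k M, g ∈ hJ.level i → h ∈ hJ.level i →
      ((⁅g, h⁆ : LinearMap.GeneralLinearGroup k M) : Module.End k M) * q - q ∈ J (2 * i + 1 + 1) := by
    rintro g h ⟨g1, g2, g3⟩ ⟨h1, h2, h3⟩
    have gi : Commute (((g⁻¹ : LinearMap.GeneralLinearGroup k M)) : Module.End k M) q := g1.units_inv_left
    have hi : Commute (((h⁻¹ : LinearMap.GeneralLinearGroup k M)) : Module.End k M) q := h1.units_inv_left
    set a := ((g : Module.End k M) - 1) * q with ha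
    set b := ((h : Module.End k M) - 1) * q with hb
    set a' := (((g⁻¹ : LinearMap.GeneralLinearGroup k M)) : Module.End k M) * q - q with ha'
    set b' := (((h⁻¹ : LinearMap.GeneralLinearGroup k M)) : Module.End k M) * q - q with hb'
    have ga : (g : Module.End k M) * q = q + a := by rw [ha, sub_mul, one_mul]; abel
    have hb0 : (h : Module.End k M) * q = q + b := by rw [hb, sub_mul, one_mul]; abel
    have hab : a * b - b * a ∈ J (2 * i + 2) := by
      rw [show 2 * i + 2 = (i + 1) + (i + 1) by ring]
      exact sub_mem (hJ.mul _ _ _ g2 _ h2) (hJ.mul _ _ _ h2 _ g2)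
    have hA : a' ∈ J (i + 1) := by rw [ha']; rwa [sub_mul, one_mul] at g3
    have hB : b' ∈ J (i + 1) := by rw [hb']; rwa [sub_mul, one_mul] at h3
    have e1 : ((g : Module.End k M) * h - h * g) * q = a * b - b * a := by
      rw [sub_mul, mul_assoc, mul_assoc]
      rw [show (h : Module.End k M) * q = q + b from hb0, show (g : Module.End k M) * q = q + a from ga]
      rw [mul_add, mul_add, show (g : Module.End k M) * q = q + a from ga,
        show (h : Module.End k M) * q = q + b from hb0]
      have e2 : (g : Module.End k M) * b = b + a * b := by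
        have : q * b = b := by
          rw [hb, ← mul_assoc, ← (h1.sub_left (Commute.one_left q)).eq, mul_assoc, hq]
        calc (g : Module.End k M) * b = (g : Module.End k M) * (q * b) := by rw [this]
          _ = (q + a) * b := by rw [← mul_assoc, ga]
          _ = b + a * b := by rw [add_mul, this]
      have e3 : (h : Module.End k M) * a = a + b * a := by
        have : q * a = a := by
          rw [ha, ← mul_assoc, ← (g1.sub_left (Commute.one_left q)).eq, mul_assoc, hq]
        calc (h : Module.End k M) * a = (h : Module.End k M) * (q * a) := by rw [this]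
          _ = (q + b) * a := by rw [← mul_assoc, hb0]
          _ = a + b * a := by rw [add_mul, this]
      rw [e2, e3]; abel
    have e4 : ((⁅g, h⁆ : LinearMap.GeneralLinearGroup k M) : Module.End k M) * q - q =
        (a * b - b * a) * ((q + a') * (q + b')) := by
      have h0 : ((⁅g, h⁆ : LinearMap.GeneralLinearGroup k M) : Module.End k M) - 1 =
          ((g : Module.End k M) * h - h * g) * ((((g⁻¹ : LinearMap.GeneralLinearGroup k M)) : Module.End k M) *
            ((h⁻¹ : LinearMap.GeneralLinearGroup k M) : Module.End k M)) := by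
        rw [commutatorElement_def, Units.val_mul, Units.val_mul, Units.val_mul, sub_mul]
        simp [mul_assoc]
      have hgi : (((g⁻¹ : LinearMap.GeneralLinearGroup k M)) : Module.End k M) * q = q + a' := by rw [ha']; abel
      have hhi : (((h⁻¹ : LinearMap.GeneralLinearGroup k M)) : Module.End k M) * q = q + b' := by rw [hb']; abel
      rw [← hgi, ← hhi, ← e1,
        show ((⁅g, h⁆ : LinearMap.GeneralLinearGroup k M) : Module.End k M) * q - q =
          (((⁅g, h⁆ : LinearMap.GeneralLinearGroup k M) : Module.End k M) - 1) * q by rw [sub_mul, one_mul], h0]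
      have : ∀ x y z : Module.End k M, Commute y q → Commute z q →
          x * (y * z) * q = x * q * (y * q * (z * q)) := by
        intro x y z hy hz
        have eyz : y * q * (z * q) = y * z * q := by rw [mul_assoc, ← mul_assoc q, ← hz.eq, mul_assoc z, hq, mul_assoc]
        rw [eyz]
        calc x * (y * z) * q = x * (y * z * (q * q)) := by rw [hq, mul_assoc]
          _ = x * (q * (y * z) * q) := by rw [← mul_assoc (y * z), (hy.mul_left hz).eq]
          _ = x * q * (y * z * q) := by simp only [mul_assoc]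
      exact this _ _ _ gi hi
    rw [e4, mul_add, add_mul q a' q, hq]
    have qf : (a * b - b * a) * q = a * b - b * a := hJ.fixed _ (hJ.mono 1 _ (by omega) hab)
    rw [mul_add, mul_add, qf]
    refine add_mem (add_mem hab ?_) ?_
    · rw [← mul_assoc]
      refine hJ.mono _ (2 * i + 2 + (i + 1)) (by omega) ?_
      rw [hJ.fixed _ (hJ.mono 1 (2 * i + 2 + (i + 1)) (by omega) (hJ.mul _ _ _ hab _ hA))]
      exact hJ.mul _ _ _ hab _ hA
    · rw [← mul_assoc]
      refine hJ.mono _ (2 * i + 2 + (i + 1)) (by omega) ?_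
      have : (a * b - b * a) * (q + a') ∈ J (2 * i + 2) := by
        rw [mul_add, qf]
        exact add_mem hab (hJ.mono _ _ (Nat.le_add_right _ _) (hJ.mul _ _ _ hab _ hA))
      exact hJ.mul _ _ _ this _ hB
  refine ⟨?_, ?_, ?_⟩
  · obtain ⟨g1, -, -⟩ := hg
    obtain ⟨h1, -, -⟩ := hh
    rw [commutatorElement_def, Units.val_mul, Units.val_mul, Units.val_mul]
    exact ((g1.mul_left h1).mul_left g1.units_inv_left).mul_left h1.units_inv_left
  · rw [sub_mul, one_mul]; exact key g h hg hh
  · rw [sub_mul, one_mul, commutatorElement_inv]; exact key h g hh hg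

lemma Filt.dser_le (hJ : Filt q J) (hq : q * q = q) {H : Subgroup (LinearMap.GeneralLinearGroup k M)}
    (hH : H ≤ hJ.level 0) : ∀ n, dser H n ≤ hJ.level (2 ^ n - 1) := by
  intro n
  induction n with
  | zero => exact hH
  | succ n ih =>
    refine (Subgroup.commutator_mono ih ih).trans ((hJ.level_commutator hq _).trans (le_of_eq ?_))
    congr 1
    have := Nat.one_le_two_pow (n := n)
    rw [pow_succ]; omega

namespace Fit

variable (F : Fit s t ν π wi e)
include F

lemma q_idem : (1 - π) * (1 - π) = 1 - π := by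
  rw [sub_mul, one_mul, mul_sub, mul_one, F.idem, sub_self, sub_zero]

lemma exists_filt : ∃ J : ℕ → Submodule k (Module.End k M), Filt (1 - π) J ∧
    s * (1 - π) ∈ J 1 ∧ t * (1 - π) ∈ J 1 ∧ ∀ j, 2 * e + 1 ≤ j → J j = ⊥ := by
  set z := s * t + t * s with hz
  set q := 1 - π with hq
  have hqq : q * q = q := F.q_idem
  set N := Submodule.span k ({s * q, t * q} : Set (Module.End k M)) with hN
  have cqs : Commute q s := (Commute.one_left s).sub_left F.commute_pi_s
  have cqt : Commute q t := (Commute.one_left t).sub_left F.commute_pi_t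
  have cqz : Commute q z := (Commute.one_left z).sub_left F.commute_pi_z
  refine ⟨fun i => ⨆ j : ℕ, N ^ (i + j), ⟨?_, ?_, ?_⟩, ?_, ?_, ?_⟩
  · intro i j a ha b hb
    have hle : (⨆ l : ℕ, N ^ (i + l)) * (⨆ l : ℕ, N ^ (j + l)) ≤ ⨆ l : ℕ, N ^ (i + j + l) := by
      simp only [Submodule.iSup_mul, Submodule.mul_iSup, iSup_le_iff]
      intro l' l
      rw [← pow_add, show i + l + (j + l') = i + j + (l + l') by ring]
      exact le_iSup (fun l => N ^ (i + j + l)) (l + l')
    exact hle (Submodule.mul_mem_mul ha hb)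
  · intro i j hij
    refine iSup_le fun l => ?_
    rw [show j + l = i + (j - i + l) by omega]
    exact le_iSup (fun l => N ^ (i + l)) _
  · have hfix : N ≤ LinearMap.ker (LinearMap.mulRight k q - LinearMap.id) := by
      rw [hN, Submodule.span_le]
      rintro x (rfl | rfl) <;> simp [mul_assoc, hqq]
    intro a ha
    have : (⨆ l : ℕ, N ^ (1 + l)) ≤ LinearMap.ker (LinearMap.mulRight k q - LinearMap.id) := by
      refine iSup_le fun l => ?_
      rw [add_comm, pow_succ, Submodule.mul_le]
      intro x _ y hy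
      have := hfix hy
      simp [sub_eq_zero] at this ⊢
      rw [mul_assoc, this]
    simpa [sub_eq_zero] using this ha
  · refine Submodule.mem_iSup_of_mem 0 ?_
    rw [add_zero, pow_one]; exact Submodule.subset_span (Or.inl rfl)
  · refine Submodule.mem_iSup_of_mem 0 ?_
    rw [add_zero, pow_one]; exact Submodule.subset_span (Or.inr rfl)
  · have hodd : ∀ m : ℕ, N ^ (2 * m + 1) ≤ Submodule.span k ({z ^ m * (s * q), z ^ m * (t * q)} : Set (Module.End k M)) := by
      intro m
      induction m with
      | zero => simp [hN]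
      | succ m ih =>
        rw [show 2 * (m + 1) + 1 = (2 * m + 1) + 2 by ring, pow_add, pow_two]
        refine (mul_le_mul' ih le_rfl).trans ?_
        rw [hN, Submodule.span_mul_span, Submodule.span_mul_span, Submodule.span_le]
        rintro _ ⟨a, ha, b, hb, rfl⟩
        obtain ⟨b1, hb1, b2, hb2, rfl⟩ := hb
        have sq' : ∀ x y, Commute q y → x * q * (y * q) = x * y * q := fun x y h => by
          rw [mul_assoc, ← mul_assoc q, h.eq, mul_assoc y, hqq, mul_assoc]
        have key : ∀ a b c : Module.End k M, Commute q b → Commute q c →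
            z ^ m * (a * q) * (b * q * (c * q)) = z ^ m * (a * b * c * q) := fun a b c hb hc => by
          rw [sq' b c hc, mul_assoc (z ^ m), sq' a (b * c) (hb.mul_right hc)]
          simp only [mul_assoc]
        have w1 : z ^ m * (s * t * s * q) = z ^ (m + 1) * (s * q) := by
          rw [pow_succ, mul_assoc (z ^ m) z, ← mul_assoc z s q,
            show z * s = s * t * s by rw [hz, add_mul, mul_assoc t s s, F.ss, mul_zero, add_zero]]
        have w2 : z ^ m * (t * s * t * q) = z ^ (m + 1) * (t * q) := by
          rw [pow_succ, mul_assoc (z ^ m) z, ← mul_assoc z t q,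
            show z * t = t * s * t by rw [hz, add_mul, mul_assoc s t t, F.tt, mul_zero, zero_add]]
        simp only [SetLike.mem_coe]
        rcases ha with rfl | rfl <;> rcases hb1 with rfl | rfl <;> rcases hb2 with rfl | rfl <;>
          simp only [key _ _ _ cqs cqs, key _ _ _ cqs cqt, key _ _ _ cqt cqs, key _ _ _ cqt cqt, w1, w2,
            F.ss, F.tt, mul_assoc _ s s, mul_assoc _ t t, mul_zero, zero_mul, Submodule.zero_mem]
        · exact Submodule.subset_span (Or.inl rfl)
        · exact Submodule.subset_span (Or.inr rfl)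
    have he : N ^ (2 * e + 1) = ⊥ := by
      rw [eq_bot_iff]
      refine (hodd e).trans ?_
      rw [Submodule.span_le]
      rintro x (rfl | rfl)
      · rw [← cqs.eq, ← mul_assoc, F.nil, zero_mul]; exact Submodule.zero_mem _
      · rw [← cqt.eq, ← mul_assoc, F.nil, zero_mul]; exact Submodule.zero_mem _
    intro j hj
    rw [eq_bot_iff]
    refine iSup_le fun l => ?_
    rw [show j + l = 2 * e + 1 + (j + l - (2 * e + 1)) by omega, pow_add, he]
    simp

lemma phi_mem_of_dser {G : Subgroup (LinearMap.GeneralLinearGroup k M)} (hs : Fam' G s) (ht : Fam' G t)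
    {n : ℕ} (hn : 2 * e + 1 ≤ 2 ^ n) {g : SL(2, AdjoinRoot ν)}
    (hg : g ∈ dser (Subgroup.closure (Set.range (fun c : k => eU (algebraMap k (AdjoinRoot ν) c)) ∪
      Set.range (fun c : k => eL (algebraMap k (AdjoinRoot ν) c * AdjoinRoot.root ν)))) n) :
    F.phi g ∈ G := by
  obtain ⟨J, hJ, hs1, ht1, hJ0⟩ := F.exists_filt
  set Γ := Subgroup.closure (Set.range (fun c : k => eU (algebraMap k (AdjoinRoot ν) c)) ∪
      Set.range (fun c : k => eL (algebraMap k (AdjoinRoot ν) c * AdjoinRoot.root ν))) with hΓ
  set gens : Set (SL(2, AdjoinRoot ν) × LinearMap.GeneralLinearGroup k M) :=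
    Set.range (fun c : k => (eU (algebraMap k (AdjoinRoot ν) c), ex (c • s))) ∪
      Set.range (fun c : k => (eL (algebraMap k (AdjoinRoot ν) c * AdjoinRoot.root ν), ex (c • t))) with hgens
  set T := Subgroup.closure gens with hT
  let P : Subgroup (SL(2, AdjoinRoot ν) × LinearMap.GeneralLinearGroup k M) :=
    { carrier := {x | Commute (x.2 : Module.End k M) π ∧ (x.2 : Module.End k M) * π = (F.phi x.1 : Module.End k M) * π}
      one_mem' := ⟨Commute.one_left _, by simp⟩
      mul_mem' := by
        rintro ⟨a, x⟩ ⟨b, y⟩ ⟨hx, hx'⟩ ⟨hy, hy'⟩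
        refine ⟨hx.mul_left hy, ?_⟩
        have hb : Commute ((F.phi b : Module.End k M)) π := by
          rw [F.phi_val, triEnd]
          have hr := fun r => (show Commute (F.rho r) π from (F.rho_pi r).trans (F.pi_rho r).symm)
          have hsx : Commute F.s1 π := F.s1_pi.trans F.pi_s1.symm
          have hux : Commute F.u π := F.u_pi.trans F.pi_u.symm
          exact ((((hr _).mul_left (hsx.mul_left hux)).add_left ((hr _).mul_left hsx)).add_left
            ((hr _).mul_left hux)).add_left ((hr _).mul_left (hux.mul_left hsx)) |>.add_left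
            ((Commute.one_left π).sub_left (Commute.refl π))
        simp only [Prod.snd_mul, Prod.fst_mul, map_mul, Units.val_mul] at hx' hy' ⊢
        calc (x : Module.End k M) * y * π = x * π * (F.phi b : Module.End k M) := by
              rw [mul_assoc, hy', hb.eq, mul_assoc]
          _ = (F.phi a : Module.End k M) * π * (F.phi b : Module.End k M) := by rw [hx']
          _ = _ := by rw [mul_assoc, ← hb.eq, mul_assoc]
      inv_mem' := by
        rintro ⟨a, x⟩ ⟨hx, hx'⟩
        refine ⟨hx.units_inv_left, ?_⟩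
        simp only [Prod.snd_inv, Prod.fst_inv, map_inv] at hx' ⊢
        calc ((x⁻¹ : LinearMap.GeneralLinearGroup k M) : Module.End k M) * π
            = ((F.phi a)⁻¹ : LinearMap.GeneralLinearGroup k M) * ((F.phi a : Module.End k M) * π) *
                ((x⁻¹ : LinearMap.GeneralLinearGroup k M) : Module.End k M) := by
              rw [← mul_assoc, Units.inv_mul, one_mul, hx.units_inv_left.eq]
          _ = ((F.phi a)⁻¹ : LinearMap.GeneralLinearGroup k M) * ((x : Module.End k M) * π) *
                ((x⁻¹ : LinearMap.GeneralLinearGroup k M) : Module.End k M) := by rw [hx']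
          _ = _ := by
              rw [hx.eq, mul_assoc, mul_assoc, Units.mul_inv, mul_one] }
  have smulpi : ∀ (c : k) (x : Module.End k M), c • π * x = c • (π * x) := fun c x => smul_mul_assoc c π x
  have hTP : T ≤ P := by
    rw [hT, Subgroup.closure_le]
    rintro _ (⟨c, rfl⟩ | ⟨c, rfl⟩)
    · refine ⟨?_, ?_⟩
      · simp only [ex_val (smul_sq hs.1 c)]
        exact (Commute.one_left π).add_left (F.commute_pi_s.symm.smul_left c)
      · simp only [ex_val (smul_sq hs.1 c), F.phi_eU_val, F.rho_algebraMap, smulpi, F.pi_s1]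
        rw [add_mul, add_mul, smul_mul_assoc, smul_mul_assoc, F.s1_pi, Fit.s1, F.commute_pi_s.eq]
    · refine ⟨?_, ?_⟩
      · simp only [ex_val (smul_sq ht.1 c)]
        exact (Commute.one_left π).add_left (F.commute_pi_t.symm.smul_left c)
      · simp only [ex_val (smul_sq ht.1 c), F.phi_eL_val, F.rho_mul, F.rho_algebraMap, F.rho_root, smulpi]
        have : π * (π * (s * t + t * s)) * F.u = π * t := by
          rw [← mul_assoc π π, F.idem, Fit.u, mul_assoc π, ← mul_assoc _ wi, F.inv, ← mul_assoc, F.idem]
        rw [add_mul, add_mul, smul_mul_assoc, smul_mul_assoc, this, smul_mul_assoc, mul_assoc π t π,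
          ← F.commute_pi_t.eq, ← mul_assoc, F.idem]
  have hlev : T.map (MonoidHom.snd _ _) ≤ hJ.level 0 := by
    rw [hT, MonoidHom.map_closure, Subgroup.closure_le]
    have mk : ∀ (y : Module.End k M), y * y = 0 → Commute π y → y * (1 - π) ∈ J 1 → ∀ c : k,
        ex (c • y) ∈ hJ.level 0 := by
      intro y hy hc hy1 c
      have e1 : ∀ d : k, ((ex (d • y) : Module.End k M) - 1) * (1 - π) ∈ J 1 := fun d => by
        rw [ex_val (smul_sq hy d), add_sub_cancel_left, smul_mul_assoc]
        exact Submodule.smul_mem _ d hy1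
      refine ⟨?_, e1 c, ?_⟩
      · rw [ex_val (smul_sq hy c)]
        exact (Commute.one_left _).add_left (((Commute.one_right y).sub_right hc.symm).smul_left c)
      · rw [ex_inv (smul_sq hy c), ← neg_smul]; exact e1 (-c)
    rintro _ ⟨_, ⟨c, rfl⟩ | ⟨c, rfl⟩, rfl⟩
    · exact mk s hs.1 F.commute_pi_s hs1 c
    · exact mk t ht.1 F.commute_pi_t ht1 c
  have hG : T.map (MonoidHom.snd _ _) ≤ G := by
    rw [hT, MonoidHom.map_closure, Subgroup.closure_le]
    rintro _ ⟨_, ⟨c, rfl⟩ | ⟨c, rfl⟩, rfl⟩
    · exact hs.2 c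
    · exact ht.2 c
  have hfst : Γ ≤ T.map (MonoidHom.fst _ _) := by
    rw [hΓ, hT, MonoidHom.map_closure]
    refine Subgroup.closure_mono ?_
    rintro _ (⟨c, rfl⟩ | ⟨c, rfl⟩)
    · exact ⟨_, Or.inl ⟨c, rfl⟩, rfl⟩
    · exact ⟨_, Or.inr ⟨c, rfl⟩, rfl⟩
  have hmono : ∀ {A B : Subgroup SL(2, AdjoinRoot ν)}, A ≤ B → ∀ n, dser A n ≤ dser B n := by
    intro A B hAB n
    induction n with
    | zero => exact hAB
    | succ n ih => exact Subgroup.commutator_mono ih ih
  have hg' := hmono hfst n hg
  rw [← dser_map] at hg'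
  obtain ⟨⟨g₀, h⟩, hgh, e0⟩ := hg'
  change g₀ = g at e0
  subst e0
  have hsnd : h ∈ (dser T n).map (MonoidHom.snd _ _) := ⟨_, hgh, rfl⟩
  rw [dser_map] at hsnd
  obtain ⟨-, hl, -⟩ := hJ.dser_le F.q_idem hlev n hsnd
  rw [show 2 ^ n - 1 + 1 = 2 ^ n from Nat.sub_add_cancel Nat.one_le_two_pow, hJ0 _ hn, Submodule.mem_bot,
    sub_mul, one_mul, sub_eq_zero] at hl
  obtain ⟨-, hp⟩ := hTP (dser_le T n hgh)
  have hph : (F.phi g₀ : Module.End k M) * (1 - π) = 1 - π := by
    rw [F.phi_val, triEnd]
    have gen : ∀ x y a b c d : Module.End k M, x * (1 - π) = 0 → y * (1 - π) = 0 →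
        (a * (x * y) + b * x + c * y + d * (y * x) + (1 - π)) * (1 - π) = 1 - π := by
      intro x y a b c d hx hy
      simp only [add_mul, mul_assoc, hx, hy, mul_zero, zero_add, F.q_idem]
    exact gen _ _ _ _ _ _ (by rw [mul_sub, mul_one, F.s1_pi, sub_self]) (by rw [mul_sub, mul_one, F.u_pi, sub_self])
  have : h = F.phi g₀ := by
    apply Units.ext
    calc (h : Module.End k M) = (h : Module.End k M) * π + h * (1 - π) := by
          rw [← mul_add, add_sub_cancel, mul_one]
      _ = (F.phi g₀ : Module.End k M) * π + (1 - π) := by rw [hl]; exact congrArg (· + (1 - π)) hp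
      _ = _ := by rw [← hph]; rw [← mul_add, add_sub_cancel, mul_one]
  rw [← this]
  exact hG (dser_le _ n hsnd)

end Fit

end Cfsg.Agent.H92.QP
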