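import Cfsg.Agent.H92.QP.Quad
import Cfsg.Agent.H92.QP.Corner
import Cfsg.Agent.H92.SL2RankOne

/-! The copy of SL₂(k) attached to a normalised pair of quadratic families. -/

set_option autoImplicit false

namespace Cfsg.Agent.H92.QP

open scoped MatrixGroups

variable {k : Type*} [Field k] {M : Type*} [AddCommGroup M] [Module k M]

/-- Two families normalised to each other. -/
structure Sl2 (G : Subgroup (LinearMap.GeneralLinearGroup k M)) (s u : Module.End k M) : Prop where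
  fs : Fam' G s
  fu : Fam' G u
  sus : s * u * s = s
  usu : u * s * u = u

namespace Sl2

variable {G : Subgroup (LinearMap.GeneralLinearGroup k M)} {s u : Module.End k M} (h : Sl2 G s u)
include h

lemma symm : Sl2 G u s := ⟨h.fu, h.fs, h.usu, h.sus⟩

lemma ss : s * s = 0 := h.fs.1

lemma uu : u * u = 0 := h.fu.1

lemma pi_s : (s * u + u * s) * s = s := by rw [add_mul, h.sus, mul_assoc u, h.ss, mul_zero, add_zero]

lemma s_pi : s * (s * u + u * s) = s := by rw [mul_add, ← mul_assoc, h.ss, zero_mul, zero_add, ← mul_assoc, h.sus]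

lemma pi_u : (s * u + u * s) * u = u := by rw [add_mul, h.usu, mul_assoc s, h.uu, mul_zero, zero_add]

lemma u_pi : u * (s * u + u * s) = u := by rw [mul_add, ← mul_assoc u u, h.uu, zero_mul, add_zero, ← mul_assoc, h.usu]

lemma idem : (s * u + u * s) * (s * u + u * s) = s * u + u * s := by
  rw [mul_add, ← mul_assoc, h.pi_s, ← mul_assoc, h.pi_u]

omit h in
lemma e0_s (h : Sl2 G s u) : (1 - (s * u + u * s)) * s = 0 := by rw [sub_mul, one_mul, h.pi_s, sub_self]

lemma s_e0 : s * (1 - (s * u + u * s)) = 0 := by rw [mul_sub, mul_one, h.s_pi, sub_self]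

lemma e0_u : (1 - (s * u + u * s)) * u = 0 := by rw [sub_mul, one_mul, h.pi_u, sub_self]

lemma u_e0 : u * (1 - (s * u + u * s)) = 0 := by rw [mul_sub, mul_one, h.u_pi, sub_self]

lemma tri (hs0 : s ≠ 0) : Tri (fun c : k => c • (s * u + u * s)) (s * u + u * s) s u where
  add a b := add_smul a b _
  mul a b := by rw [smul_mul_assoc, mul_smul_comm, h.idem, smul_smul]
  one := one_smul _ _
  zero := zero_smul _ _
  cx a := by rw [Commute, SemiconjBy, smul_mul_assoc, h.pi_s, mul_smul_comm, h.s_pi]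
  cy a := by rw [Commute, SemiconjBy, smul_mul_assoc, h.pi_u, mul_smul_comm, h.u_pi]
  pr a := by rw [mul_smul_comm, h.idem]
  xx := h.ss
  yy := h.uu
  xyx := h.sus
  yxy := h.usu
  xp := h.s_pi
  yp := h.u_pi
  px := h.pi_s
  py := h.pi_u
  sum := rfl
  inj a e := by
    rw [smul_mul_assoc, h.pi_s, smul_eq_zero] at e
    exact e.resolve_right hs0

/-- The representation of SL₂(k). -/
noncomputable def psi (hs0 : s ≠ 0) : SL(2, k) →* LinearMap.GeneralLinearGroup k M :=
  MonoidHom.toHomUnits ⟨⟨triEnd (fun c : k => c • (s * u + u * s)) (s * u + u * s) s u, (h.tri hs0).end_one⟩,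
    (h.tri hs0).end_mul⟩

lemma psi_val (hs0 : s ≠ 0) (A : SL(2, k)) : (h.psi hs0 A : Module.End k M) =
    A 0 0 • (s * u) + A 0 1 • s + A 1 0 • u + A 1 1 • (u * s) + (1 - (s * u + u * s)) := by
  show triEnd (fun c : k => c • (s * u + u * s)) (s * u + u * s) s u A = _
  simp only [triEnd, smul_mul_assoc, ← mul_assoc (s * u + u * s), h.pi_s, h.pi_u]

lemma psi_injective (hs0 : s ≠ 0) : Function.Injective (h.psi hs0) := by
  rw [injective_iff_map_eq_one]
  intro A hA
  exact (h.tri hs0).end_inj (congrArg (fun g : LinearMap.GeneralLinearGroup k M => (g : Module.End k M)) hA)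

lemma psi_sx (hs0 : s ≠ 0) (c : k) : h.psi hs0 (sx c) = ex (c • s) := by
  apply Units.ext
  rw [psi_val, ex_val (smul_sq h.ss c)]
  simp only [sx_00, sx_01, sx_10, sx_11, one_smul, zero_smul, add_zero]
  abel

lemma psi_sy (hs0 : s ≠ 0) (c : k) : h.psi hs0 (sy c) = ex ((-c) • u) := by
  apply Units.ext
  rw [psi_val, ex_val (smul_sq h.uu _)]
  simp only [sy_00, sy_01, sy_10, sy_11, one_smul, zero_smul, add_zero]
  abel

lemma psi_mem_of (hs0 : s ≠ 0) {H : Subgroup (LinearMap.GeneralLinearGroup k M)}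
    (hs : ∀ c : k, ex (c • s) ∈ H) (hu : ∀ c : k, ex (c • u) ∈ H) (A : SL(2, k)) : h.psi hs0 A ∈ H := by
  have hle : (⊤ : Subgroup SL(2, k)) ≤ H.comap (h.psi hs0) := by
    rw [← sl2_closure_sx_sy, Subgroup.closure_le]
    rintro _ (⟨c, rfl⟩ | ⟨c, rfl⟩)
    · show h.psi hs0 (sx c) ∈ H
      rw [psi_sx]; exact hs c
    · show h.psi hs0 (sy c) ∈ H
      rw [psi_sy]; exact hu _
  exact hle (Subgroup.mem_top A)

lemma psi_mem (hs0 : s ≠ 0) (A : SL(2, k)) : h.psi hs0 A ∈ G := h.psi_mem_of hs0 h.fs.2 h.fu.2 A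

/-- The Weyl element. -/
noncomputable def weyl (hs0 : s ≠ 0) : LinearMap.GeneralLinearGroup k M := h.psi hs0 sw

lemma weyl_val (hs0 : s ≠ 0) : (h.weyl hs0 : Module.End k M) = s - u + (1 - (s * u + u * s)) := by
  rw [weyl, psi_val]
  simp only [sw_00, sw_01, sw_10, sw_11, one_smul, zero_smul, neg_smul, add_zero, zero_add]
  abel

lemma weyl_inv_val (hs0 : s ≠ 0) : (((h.weyl hs0)⁻¹ : LinearMap.GeneralLinearGroup k M) : Module.End k M) =
    -s + u + (1 - (s * u + u * s)) := by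
  rw [weyl, ← map_inv, psi_val]
  simp [Matrix.SpecialLinearGroup.coe_inv, Matrix.adjugate_fin_two]

lemma weyl_eq (hs0 : s ≠ 0) : h.weyl hs0 = ex s * ex (-u) * ex s := by
  rw [weyl, sw_eq, map_mul, map_mul, psi_sx, psi_sy]
  simp

lemma braid (hs0 : s ≠ 0) : ex s * ex (-u) * ex s = ex (-u) * ex s * ex (-u) := by
  have := congrArg (h.psi hs0) (sl2_braid (k := k) (t := 1) one_ne_zero)
  simp only [inv_one, map_mul, psi_sx, psi_sy, one_smul, neg_smul] at this
  exact this.symm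

lemma conj_weyl_s (hs0 : s ≠ 0) : conjEnd (h.weyl hs0) s = -u := by
  rw [conjEnd, weyl_val, weyl_inv_val]
  have e1 : (s - u + (1 - (s * u + u * s))) * s = -(u * s) := by
    rw [add_mul, sub_mul, h.ss, h.e0_s, zero_sub, add_zero]
  rw [e1, mul_add, mul_add, neg_mul, neg_mul, neg_mul, mul_neg, mul_assoc u s s, h.ss, mul_assoc u s (1 - _),
    h.s_e0, h.usu, mul_zero]
  simp

lemma conj_weyl_u (hs0 : s ≠ 0) : conjEnd (h.weyl hs0) u = -s := by
  rw [conjEnd, weyl_val, weyl_inv_val]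
  have e1 : (s - u + (1 - (s * u + u * s))) * u = s * u := by
    rw [add_mul, sub_mul, h.uu, h.e0_u, sub_zero, add_zero]
  rw [e1, mul_add, mul_add, mul_neg, mul_assoc s u u, h.uu, mul_assoc s u (1 - _),
    h.u_e0, h.sus, mul_zero]
  simp

omit h in
/-- A diagonal matrix. -/
def dg (c : kˣ) : SL(2, k) := ⟨!![(c : k), 0; 0, ((c⁻¹ : kˣ) : k)], by simp [Matrix.det_fin_two_of]⟩

omit h in
@[simp] lemma dg_00 (c : kˣ) : dg c 0 0 = (c : k) := rfl
omit h in
@[simp] lemma dg_01 (c : kˣ) : dg c 0 1 = 0 := rfl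
omit h in
@[simp] lemma dg_10 (c : kˣ) : dg c 1 0 = 0 := rfl
omit h in
@[simp] lemma dg_11 (c : kˣ) : dg c 1 1 = ((c⁻¹ : kˣ) : k) := rfl

omit h in
lemma dg_inv (c : kˣ) : (dg c)⁻¹ = dg c⁻¹ := by
  refine inv_eq_of_mul_eq_one_right ?_
  apply sl2_ext <;> simp [sl2_mul_apply]

/-- The torus. -/
noncomputable def torus (hs0 : s ≠ 0) (c : kˣ) : LinearMap.GeneralLinearGroup k M := h.psi hs0 (dg c)

lemma torus_val (hs0 : s ≠ 0) (c : kˣ) : (h.torus hs0 c : Module.End k M) =
    (c : k) • (s * u) + ((c⁻¹ : kˣ) : k) • (u * s) + (1 - (s * u + u * s)) := by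
  rw [torus, psi_val]
  simp

lemma torus_inv_val (hs0 : s ≠ 0) (c : kˣ) : (((h.torus hs0 c)⁻¹ : LinearMap.GeneralLinearGroup k M) : Module.End k M) =
    ((c⁻¹ : kˣ) : k) • (s * u) + (c : k) • (u * s) + (1 - (s * u + u * s)) := by
  rw [torus, ← map_inv, dg_inv, psi_val]
  simp

lemma torus_commutator (hs0 : s ≠ 0) (c : kˣ) (d : k) :
    ex ((((c : k) * (c : k) - 1) * d) • s) = h.torus hs0 c * ex (d • s) * (h.torus hs0 c)⁻¹ * (ex (d • s))⁻¹ := by
  rw [torus, ← psi_sx h hs0, ← psi_sx h hs0, ← map_inv, ← map_inv, ← map_mul, ← map_mul, ← map_mul]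
  congr 1
  rw [dg_inv, sx_inv]
  apply sl2_ext <;> simp [sl2_mul_apply]
  ring

lemma neg_one_val (hs0 : s ≠ 0) :
    (h.psi hs0 (-1) : Module.End k M) = (1 - (s * u + u * s)) - (s * u + u * s) := by
  rw [psi_val]
  simp
  abel

/-- The torus decomposes an operator into weights. -/
lemma conj_torus (hs0 : s ≠ 0) (c : kˣ) (x : Module.End k M) : conjEnd (h.torus hs0 c) x =
    ((c : k) * c) • (s * u * x * (u * s)) +
    (c : k) • (s * u * x * (1 - (s * u + u * s)) + (1 - (s * u + u * s)) * x * (u * s)) +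
    (s * u * x * (s * u) + u * s * x * (u * s) + (1 - (s * u + u * s)) * x * (1 - (s * u + u * s))) +
    ((c⁻¹ : kˣ) : k) • (u * s * x * (1 - (s * u + u * s)) + (1 - (s * u + u * s)) * x * (s * u)) +
    (((c⁻¹ : kˣ) : k) * ((c⁻¹ : kˣ) : k)) • (u * s * x * (s * u)) := by
  rw [conjEnd, torus_val, torus_inv_val]
  set p := s * u
  set q := u * s
  set o := (1 : Module.End k M) - (p + q)
  simp only [add_mul, mul_add, smul_mul_assoc, mul_smul_comm, smul_smul, smul_add, Units.mul_inv, Units.inv_mul,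
    one_smul]
  abel

end Sl2

end Cfsg.Agent.H92.QP
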