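import Cfsg.Prelude.Def_RootSubgroups

/-! Unipotent linear groups: products, and families of subgroups which are pairwise unipotent. -/

set_option autoImplicit false

namespace Cfsg.Agent.H92.QP

open Cfsg

variable {k : Type*} [Field k] {M : Type*} [AddCommGroup M] [Module k M]

/-- `g - 1`. -/
def sub1 (g : LinearMap.GeneralLinearGroup k M) : Module.End k M := (g : Module.End k M) - 1

/-- The non-unital algebra spanned by the `g - 1`. -/
def augSpan (H : Subgroup (LinearMap.GeneralLinearGroup k M)) : Submodule k (Module.End k M) :=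
  Submodule.span k (sub1 '' (H : Set (LinearMap.GeneralLinearGroup k M)))

lemma sub1_mem_augSpan {H : Subgroup (LinearMap.GeneralLinearGroup k M)} {g : LinearMap.GeneralLinearGroup k M}
    (hg : g ∈ H) : sub1 g ∈ augSpan H := Submodule.subset_span ⟨g, hg, rfl⟩

lemma augSpan_mono {H K : Subgroup (LinearMap.GeneralLinearGroup k M)} (h : H ≤ K) : augSpan H ≤ augSpan K :=
  Submodule.span_mono (Set.image_mono h)

lemma augSpan_mul_self (H : Subgroup (LinearMap.GeneralLinearGroup k M)) : augSpan H * augSpan H ≤ augSpan H := by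
  rw [augSpan, Submodule.span_mul_span, Submodule.span_le]
  rintro _ ⟨_, ⟨a, ha, rfl⟩, _, ⟨b, hb, rfl⟩, rfl⟩
  have : sub1 a * sub1 b = sub1 (a * b) - sub1 a - sub1 b := by
    simp only [sub1, Units.val_mul, sub_mul, mul_sub, one_mul, mul_one]; abel
  show sub1 a * sub1 b ∈ _
  rw [this]
  exact sub_mem (sub_mem (sub1_mem_augSpan (mul_mem ha hb)) (sub1_mem_augSpan ha)) (sub1_mem_augSpan hb)

lemma map_sub1 (l : List (LinearMap.GeneralLinearGroup k M)) :
    (l.map fun g => (g : M →ₗ[k] M) - 1) = l.map sub1 := by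
  induction l with
  | nil => rfl
  | cons a l ih => simp_all [sub1]

lemma isUnipotentOn_iff {H : Subgroup (LinearMap.GeneralLinearGroup k M)} :
    IsUnipotentOn H ↔ ∃ n, augSpan H ^ n = ⊥ := by
  constructor
  · rintro ⟨n, hn⟩
    refine ⟨n, ?_⟩
    rw [augSpan, Submodule.span_pow, Submodule.span_eq_bot]
    intro x hx
    obtain ⟨f, rfl⟩ := Set.mem_pow.1 hx
    choose g hg e using fun i => (f i).2
    have := hn (List.ofFn g) (fun a ha => by
      obtain ⟨i, rfl⟩ := List.mem_ofFn.1 ha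
      exact hg i) (List.length_ofFn ..)
    rw [← this, map_sub1, List.map_ofFn]
    congr 2
    funext i
    exact (e i).symm
  · rintro ⟨n, hn⟩
    refine ⟨n, fun l hl hlen => ?_⟩
    have key : ∀ l : List (LinearMap.GeneralLinearGroup k M), (∀ g ∈ l, g ∈ H) →
        (l.map sub1).prod ∈ augSpan H ^ l.length := by
      intro l
      induction l with
      | nil => intro _; rw [List.map_nil, List.prod_nil, List.length_nil, pow_zero]; exact Submodule.one_le.1 le_rfl
      | cons a l ih =>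
        intro h
        rw [List.map_cons, List.prod_cons, List.length_cons, pow_succ']
        exact Submodule.mul_mem_mul (sub1_mem_augSpan (h a List.mem_cons_self))
          (ih fun g hg => h g (List.mem_cons_of_mem _ hg))
    have := key l hl
    rw [hlen, hn, Submodule.mem_bot] at this
    rw [map_sub1]
    exact this

lemma unipotent_mono {H K : Subgroup (LinearMap.GeneralLinearGroup k M)} (h : H ≤ K) (hK : IsUnipotentOn K) :
    IsUnipotentOn H := by
  obtain ⟨n, hn⟩ := hK
  exact ⟨n, fun l hl => hn l fun g hg => h (hl g hg)⟩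

/-- The group of elements congruent to one modulo a subspace closed under products. -/
def congrGroup (J : Submodule k (Module.End k M)) (hJ : J * J ≤ J) : Subgroup (LinearMap.GeneralLinearGroup k M) where
  carrier := {g | sub1 g ∈ J ∧ sub1 g⁻¹ ∈ J}
  one_mem' := by simp [sub1]
  mul_mem' := by
    rintro g h ⟨g1, g2⟩ ⟨h1, h2⟩
    have key : ∀ a b : Module.End k M, a - 1 ∈ J → b - 1 ∈ J → a * b - 1 ∈ J := fun a b ha hb => by
      rw [show a * b - 1 = (a - 1) * (b - 1) + (a - 1) + (b - 1) by noncomm_ring]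
      exact add_mem (add_mem (hJ (Submodule.mul_mem_mul ha hb)) ha) hb
    exact ⟨key _ _ g1 h1, by rw [sub1, mul_inv_rev, Units.val_mul]; exact key _ _ h2 g2⟩
  inv_mem' := by
    rintro g ⟨g1, g2⟩
    exact ⟨g2, by rwa [inv_inv]⟩

lemma augSpan_le_of_le_congr {J : Submodule k (Module.End k M)} {hJ : J * J ≤ J}
    {H : Subgroup (LinearMap.GeneralLinearGroup k M)} (h : H ≤ congrGroup J hJ) : augSpan H ≤ J := by
  rw [augSpan, Submodule.span_le]
  rintro _ ⟨g, hg, rfl⟩
  exact (h hg).1

/-- Generators with vanishing long products generate a unipotent group. -/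
lemma isUnipotentOn_closure {S : Set (LinearMap.GeneralLinearGroup k M)} (hinv : ∀ g ∈ S, g⁻¹ ∈ S) {L : ℕ}
    (hL : Submodule.span k (sub1 '' S) ^ L = ⊥) : IsUnipotentOn (Subgroup.closure S) := by
  set N := Submodule.span k (sub1 '' S) with hN
  set J := ⨆ j : ℕ, N ^ (j + 1) with hJ
  have hJJ : J * J ≤ J := by
    simp only [hJ, Submodule.iSup_mul, Submodule.mul_iSup, iSup_le_iff]
    intro a b
    rw [← pow_add]
    refine le_trans (le_of_eq ?_) (le_iSup (fun j => N ^ (j + 1)) (a + b + 1))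
    congr 1; omega
  have hle : Subgroup.closure S ≤ congrGroup J hJJ := by
    rw [Subgroup.closure_le]
    intro g hg
    constructor <;> refine Submodule.mem_iSup_of_mem 0 ?_ <;> rw [zero_add, pow_one]
    · exact Submodule.subset_span ⟨g, hg, rfl⟩
    · exact Submodule.subset_span ⟨g⁻¹, hinv g hg, rfl⟩
  have hJpow : ∀ i : ℕ, 1 ≤ i → J ^ i ≤ ⨆ j : ℕ, N ^ (i + j) := by
    intro i hi
    induction i, hi using Nat.le_induction with
    | base => rw [pow_one, hJ]; exact iSup_mono fun j => le_of_eq (by rw [add_comm])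
    | succ i _ ih =>
      rw [pow_succ]
      refine (mul_le_mul' ih le_rfl).trans ?_
      simp only [hJ, Submodule.iSup_mul, Submodule.mul_iSup, iSup_le_iff]
      intro a b
      rw [← pow_add]
      refine le_trans (le_of_eq ?_) (le_iSup (fun j => N ^ (i + 1 + j)) (a + b))
      congr 1; omega
  rw [isUnipotentOn_iff]
  refine ⟨L + 1, ?_⟩
  rw [eq_bot_iff]
  refine (pow_le_pow_left' (augSpan_le_of_le_congr hle) _).trans ((hJpow _ (by omega)).trans (iSup_le fun j => ?_))
  rw [show L + 1 + j = L + (1 + j) by ring, pow_add, hL]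
  simp

/-- A unipotent group normalised by a unipotent group gives a unipotent group. -/
lemma isUnipotentOn_sup {H K : Subgroup (LinearMap.GeneralLinearGroup k M)} (hH : IsUnipotentOn H)
    (hK : IsUnipotentOn K) (hn : K ≤ Subgroup.normalizer (H : Set (LinearMap.GeneralLinearGroup k M))) :
    IsUnipotentOn (H ⊔ K) := by
  obtain ⟨n, hn'⟩ := isUnipotentOn_iff.1 hH
  obtain ⟨m, hm'⟩ := isUnipotentOn_iff.1 hK
  set A := augSpan H with hA
  set B := augSpan K with hB
  -- moving a factor from `B` past a factor from `A`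
  have hswap : B * A ≤ A * B ⊔ A := by
    rw [hA, hB, augSpan, augSpan, Submodule.span_mul_span, Submodule.span_le]
    rintro _ ⟨_, ⟨g, hg, rfl⟩, _, ⟨h, hh, rfl⟩, rfl⟩
    have hc : g * h * g⁻¹ ∈ H := (Subgroup.mem_normalizer_iff.1 (hn hg) h).1 hh
    have e : sub1 g * sub1 h = sub1 (g * h * g⁻¹) * sub1 g + (sub1 (g * h * g⁻¹) - sub1 h) := by
      simp only [sub1, sub_mul, mul_sub, one_mul, mul_one, Units.val_mul, mul_assoc, Units.inv_mul]
      abel
    show sub1 g * sub1 h ∈ _
    rw [e]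
    exact add_mem (Submodule.mem_sup_left (Submodule.mul_mem_mul (sub1_mem_augSpan hc) (sub1_mem_augSpan hg)))
      (Submodule.mem_sup_right (sub_mem (sub1_mem_augSpan hc) (sub1_mem_augSpan hh)))
  set R : ℕ → Submodule k (Module.End k M) := fun i => A ^ i * ⊤ with hR
  have hAR : ∀ i, A * R i = R (i + 1) := fun i => by rw [hR, ← mul_assoc, ← pow_succ']
  have hanti : ∀ i, R (i + 1) ≤ R i := fun i => by
    simp only [hR]; rw [pow_succ, mul_assoc]; exact mul_le_mul' le_rfl le_top
  have hBR : ∀ i, B * R i ≤ R i := by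
    intro i
    induction i with
    | zero => simp only [hR, pow_zero, one_mul]; exact le_top
    | succ i ih =>
      rw [← hAR, ← mul_assoc]
      refine (mul_le_mul' hswap le_rfl).trans ?_
      rw [Submodule.sup_mul, mul_assoc, sup_le_iff]
      exact ⟨mul_le_mul' le_rfl ih, le_rfl⟩
  have hBpow : ∀ l i, B ^ l * R i ≤ R i := by
    intro l
    induction l with
    | zero => intro i; simp
    | succ l ih => intro i; rw [pow_succ', mul_assoc]; exact (mul_le_mul' le_rfl (ih i)).trans (hBR i)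
  set N := A ⊔ B with hN
  have key : ∀ l i, N ^ l * R i ≤ R (i + 1) ⊔ B ^ l * R i := by
    intro l
    induction l with
    | zero => intro i; simp
    | succ l ih =>
      intro i
      rw [pow_succ', mul_assoc]
      refine (mul_le_mul' le_rfl (ih i)).trans ?_
      rw [hN, Submodule.sup_mul, Submodule.mul_sup, Submodule.mul_sup, hAR, ← mul_assoc B (B ^ l), ← pow_succ']
      refine sup_le (sup_le ((hanti _).trans le_sup_left) (le_sup_of_le_left ?_))
        (sup_le ((hBR _).trans le_sup_left) le_sup_right)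
      rw [← hAR i]
      exact mul_le_mul' le_rfl (hBpow l i)
  have hstep : ∀ i, N ^ m * R i ≤ R (i + 1) := fun i => (key m i).trans (by simp [hm'])
  have hall : ∀ i, N ^ (m * i) * R 0 ≤ R i := by
    intro i
    induction i with
    | zero => simp
    | succ i ih =>
      rw [show m * (i + 1) = m + m * i by ring, pow_add, mul_assoc]
      exact (mul_le_mul' le_rfl ih).trans (hstep i)
  have hsup : H ⊔ K = Subgroup.closure ((H : Set (LinearMap.GeneralLinearGroup k M)) ∪ K) := by
    rw [Subgroup.closure_union, Subgroup.closure_eq, Subgroup.closure_eq]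
  rw [hsup]
  refine isUnipotentOn_closure (L := m * n) ?_ ?_
  · rintro g (hg | hg)
    · exact Or.inl (inv_mem hg)
    · exact Or.inr (inv_mem hg)
  · rw [Set.image_union, Submodule.span_union, eq_bot_iff]
    intro x hx
    have h0 := hall n
    have hn0 : R n = ⊥ := by simp [hR, hn']
    rw [hn0] at h0
    have : x * 1 ∈ (⊥ : Submodule k (Module.End k M)) :=
      h0 (Submodule.mul_mem_mul hx (by simp [hR]))
    rwa [mul_one] at this

lemma exists_nat_max {α : Type*} {P : α → Prop} {f : α → ℕ} {b : ℕ} (hb : ∀ a, P a → f a ≤ b) (h : ∃ a, P a) :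
    ∃ a, P a ∧ ∀ a', P a' → f a' ≤ f a := by
  classical
  obtain ⟨a0, ha0⟩ := h
  obtain ⟨a, ha, hfa⟩ := Nat.findGreatest_spec (P := fun d => ∃ a, P a ∧ f a = d) (hb a0 ha0) ⟨a0, ha0, rfl⟩
  exact ⟨a, ha, fun a' ha' => hfa ▸ Nat.le_findGreatest (hb a' ha') ⟨a', ha', rfl⟩⟩

section Family

/-- In a unipotent group generated by an invariant family, a proper subfamily has a larger normaliser. -/
lemma exists_normalizing {V D : Set (Subgroup (LinearMap.GeneralLinearGroup k M))}
    (hV : IsUnipotentOn (⨆ A ∈ V, A)) (hDV : D ⊆ V) (hne : D ≠ V)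
    (hconj : ∀ g ∈ (⨆ A ∈ V, A : Subgroup (LinearMap.GeneralLinearGroup k M)), ∀ A ∈ V, conjBy A g ∈ V) :
    ∃ A ∈ V, A ∉ D ∧
      A ≤ Subgroup.normalizer (((⨆ B ∈ D, B) : Subgroup (LinearMap.GeneralLinearGroup k M)) : Set _) := by
  by_contra hcon
  push Not at hcon
  set U := ⨆ A ∈ V, A with hU
  set X := ⨆ B ∈ D, B with hX
  set N := U ⊓ Subgroup.normalizer (X : Set (LinearMap.GeneralLinearGroup k M)) with hN
  obtain ⟨n, hn⟩ := isUnipotentOn_iff.1 hV
  have hmemN : ∀ A ∈ V, A ≤ N → A ∈ D := fun A hA hle => by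
    by_contra hAD
    exact hcon A hA hAD (hle.trans inf_le_right)
  have hXN : X ≤ N := le_inf (biSup_mono fun A hA => hDV hA) Subgroup.le_normalizer
  have hself : ∀ g ∈ U, (∀ x ∈ N, g * x * g⁻¹ ∈ N) → ∀ x ∈ X, g * x * g⁻¹ ∈ X := by
    intro g hg hgN x hx
    have hle : X.map (MulAut.conj g).toMonoidHom ≤ X := by
      simp only [hX, Subgroup.map_iSup]
      refine iSup₂_le fun A hA => ?_
      refine le_iSup₂_of_le (conjBy A g) (hmemN _ (hconj g hg A (hDV hA)) ?_) le_rfl
      rintro _ ⟨y, hy, rfl⟩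
      exact hgN y (hXN ((le_iSup₂ (f := fun A (_ : A ∈ D) => A) A hA) hy))
    exact hle ⟨x, hx, rfl⟩
  have hpow : ∀ (a : Module.End k M) (j : ℕ), a ∈ augSpan U ^ (j + 1) → ∀ y ∈ U,
      a * (y : Module.End k M) ∈ augSpan U ^ (j + 1) := by
    intro a j ha y hy
    have e2 : a * (y : Module.End k M) = a * sub1 y + a := by
      rw [sub1, mul_sub, mul_one]; abel
    rw [e2]
    refine add_mem ?_ ha
    have h2 : augSpan U ^ (j + 1 + 1) ≤ augSpan U ^ (j + 1) := by
      rw [pow_succ _ (j + 1), pow_succ, mul_assoc]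
      exact mul_le_mul' le_rfl (augSpan_mul_self U)
    exact h2 (by rw [pow_succ]; exact Submodule.mul_mem_mul ha (sub1_mem_augSpan hy))
  have key : ∀ i : ℕ, ∀ g ∈ U, sub1 g ∈ augSpan U ^ (n - i + 1) → g ∈ N := by
    intro i
    induction i with
    | zero =>
      intro g _ hg0
      rw [Nat.sub_zero, pow_succ, hn, Submodule.bot_mul, Submodule.mem_bot, sub1, sub_eq_zero] at hg0
      have : g = 1 := Units.ext hg0
      rw [this]; exact one_mem N
    | succ i ih =>
      intro g hg hg1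
      by_cases hi : n ≤ i
      · refine ih g hg ?_
        rwa [show n - i = n - (i + 1) by omega]
      have hside : ∀ g ∈ U, sub1 g ∈ augSpan U ^ (n - (i + 1) + 1) → ∀ x ∈ N, g * x * g⁻¹ ∈ N := by
        intro g hg hg1 x hx
        have hxU : x ∈ U := hx.1
        have hc : g * x * g⁻¹ * x⁻¹ ∈ N := by
          refine ih _ (mul_mem (mul_mem (mul_mem hg hxU) (inv_mem hg)) (inv_mem hxU)) ?_
          have e : sub1 (g * x * g⁻¹ * x⁻¹) = (sub1 g * sub1 x - sub1 x * sub1 g) *
              (((g⁻¹ : LinearMap.GeneralLinearGroup k M) : Module.End k M) *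
                ((x⁻¹ : LinearMap.GeneralLinearGroup k M) : Module.End k M)) := by
            have : sub1 g * sub1 x - sub1 x * sub1 g = (g : Module.End k M) * x - x * g := by
              simp only [sub1, sub_mul, mul_sub, one_mul, mul_one]; abel
            rw [this, sub1, sub_mul]
            simp only [Units.val_mul, mul_assoc]
            simp
          have hm : sub1 g * sub1 x - sub1 x * sub1 g ∈ augSpan U ^ (n - i + 1) := by
            have he : n - i + 1 = n - (i + 1) + 1 + 1 := by omega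
            refine sub_mem ?_ ?_
            · have := Submodule.mul_mem_mul hg1 (sub1_mem_augSpan hxU)
              rwa [← pow_succ, ← he] at this
            · have := Submodule.mul_mem_mul (sub1_mem_augSpan hxU) hg1
              rwa [← pow_succ', ← he] at this
          rw [e, ← mul_assoc]
          exact hpow _ _ (hpow _ _ hm _ (inv_mem hg)) _ (inv_mem hxU)
        have := mul_mem hc hx
        simpa [mul_assoc] using this
      have hinv : sub1 g⁻¹ ∈ augSpan U ^ (n - (i + 1) + 1) := by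
        have e : sub1 g⁻¹ = -(sub1 g * ((g⁻¹ : LinearMap.GeneralLinearGroup k M) : Module.End k M)) := by
          simp only [sub1, sub_mul, one_mul, Units.mul_inv, neg_sub]
        rw [e]
        exact neg_mem (hpow _ _ hg1 _ (inv_mem hg))
      refine ⟨hg, Subgroup.mem_normalizer_iff.2 fun x => ⟨fun hx => hself g hg (hside g hg hg1) x hx,
        fun hx => ?_⟩⟩
      have := hself g⁻¹ (inv_mem hg) (hside g⁻¹ (inv_mem hg) hinv) _ hx
      simpa [mul_assoc] using this
  have hUN : U ≤ N := fun g hg => key n g hg (by rw [Nat.sub_self, zero_add, pow_one]; exact sub1_mem_augSpan hg)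
  exact hne (Set.Subset.antisymm hDV fun A hA =>
    hmemN A hA ((le_iSup₂ (f := fun A (_ : A ∈ V) => A) A hA).trans hUN))

variable [FiniteDimensional k M] in
/-- A pairwise unipotent family invariant under itself generates a unipotent group. -/
theorem isUnipotentOn_family {G : Subgroup (LinearMap.GeneralLinearGroup k M)}
    {W : Set (Subgroup (LinearMap.GeneralLinearGroup k M))} (hWG : ∀ A ∈ W, A ≤ G)
    (hWW : ∀ A ∈ W, ∀ B ∈ W, IsUnipotentOn (A ⊔ B))
    (hWconj : ∀ A ∈ W, ∀ g ∈ G, conjBy A g ∈ W) : IsUnipotentOn (⨆ A ∈ W, A) := by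
  classical
  set join : Set (Subgroup (LinearMap.GeneralLinearGroup k M)) → Subgroup (LinearMap.GeneralLinearGroup k M) :=
    fun V => ⨆ A ∈ V, A with hjoin
  have hle_join : ∀ {V : Set (Subgroup (LinearMap.GeneralLinearGroup k M))} {A}, A ∈ V → A ≤ join V :=
    fun {V A} hA => le_iSup₂ (f := fun A (_ : A ∈ V) => A) A hA
  have hjmono : ∀ {V V' : Set (Subgroup (LinearMap.GeneralLinearGroup k M))}, V ⊆ V' → join V ≤ join V' :=
    fun h => iSup₂_le fun A hA => hle_join (h hA)
  let IsMax : Set (Subgroup (LinearMap.GeneralLinearGroup k M)) → Prop := fun V =>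
    V ⊆ W ∧ IsUnipotentOn (join V) ∧ (∀ A ∈ W, augSpan A ≤ augSpan (join V) → A ∈ V) ∧
      ∀ V', V ⊆ V' → V' ⊆ W → IsUnipotentOn (join V') → V' = V
  have hbd : ∀ V : Set (Subgroup (LinearMap.GeneralLinearGroup k M)),
      Module.finrank k (augSpan (join V)) ≤ Module.finrank k (Module.End k M) := fun V => Submodule.finrank_le _
  -- a maximal unipotent subfamily
  have hmax : ∀ V ⊆ W, IsUnipotentOn (join V) → ∃ V', V ⊆ V' ∧ IsMax V' := by
    intro V hVW hV
    obtain ⟨V', ⟨h1, h2, h3⟩, h4⟩ := exists_nat_max (P := fun V' => V ⊆ V' ∧ V' ⊆ W ∧ IsUnipotentOn (join V'))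
      (f := fun V' => Module.finrank k (augSpan (join V'))) (fun a _ => hbd a) ⟨V, subset_rfl, hVW, hV⟩
    set J := augSpan (join V') with hJ
    set V'' := {A | A ∈ W ∧ augSpan A ≤ J} with hV''
    have hsub : V' ⊆ V'' := fun A hA => ⟨h2 hA, augSpan_mono (hle_join hA)⟩
    have hup : augSpan (join V'') = J := by
      refine le_antisymm (augSpan_le_of_le_congr (hJ := augSpan_mul_self _) (iSup₂_le fun A hA g hg =>
        ⟨hA.2 (sub1_mem_augSpan hg), hA.2 (sub1_mem_augSpan (inv_mem hg))⟩)) (augSpan_mono (hjmono hsub))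
    have hu : IsUnipotentOn (join V'') := by
      rw [isUnipotentOn_iff, hup]; exact isUnipotentOn_iff.1 h3
    refine ⟨V'', h1.trans hsub, fun A hA => hA.1, hu, fun A hA h => ⟨hA, hup ▸ h⟩, fun V3 hV3 hV3W hu3 => ?_⟩
    refine Set.Subset.antisymm (fun A hA => ⟨hV3W hA, ?_⟩) hV3
    have heq := Submodule.eq_of_le_of_finrank_le (augSpan_mono (hjmono (hsub.trans hV3)))
      (h4 V3 ⟨h1.trans (hsub.trans hV3), hV3W, hu3⟩)
    rw [hJ, heq]
    exact augSpan_mono (hle_join hA)
  have hclosed : ∀ V, IsMax V → ∀ g ∈ join V, ∀ A ∈ V, conjBy A g ∈ V := by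
    rintro V ⟨hVW, hu, hc, -⟩ g hg A hA
    refine hc _ (hWconj A (hVW hA) g (iSup₂_le (fun A hA => hWG A (hVW hA)) hg)) (augSpan_mono ?_)
    rintro _ ⟨y, hy, rfl⟩
    exact mul_mem (mul_mem hg (hle_join hA hy)) (inv_mem hg)
  obtain ⟨V0, -, hV0⟩ := hmax ∅ (Set.empty_subset W) (by
    rw [isUnipotentOn_iff]
    refine ⟨1, ?_⟩
    rw [pow_one, augSpan, Submodule.span_eq_bot]
    rintro _ ⟨g, hg, rfl⟩
    simp only [hjoin, Set.mem_empty_iff_false, iSup_false, iSup_bot, SetLike.mem_coe, Subgroup.mem_bot] at hg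
    simp [sub1, hg])
  by_cases hall : W ⊆ V0
  · exact unipotent_mono (hjmono hall) hV0.2.1
  exfalso
  obtain ⟨A', hA'W, hA'⟩ := Set.not_subset.1 hall
  obtain ⟨V0', hV0's, hV0'⟩ := hmax {A'} (by simpa using hA'W) (by
    have := hWW A' hA'W A' hA'W
    simpa [hjoin] using this)
  obtain ⟨⟨V1, V2⟩, ⟨h1, h2, h12⟩, hbest⟩ := exists_nat_max
    (P := fun p : Set (Subgroup (LinearMap.GeneralLinearGroup k M)) × Set (Subgroup (LinearMap.GeneralLinearGroup k M)) =>
      IsMax p.1 ∧ IsMax p.2 ∧ p.1 ≠ p.2)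
    (f := fun p => Module.finrank k (augSpan (join (p.1 ∩ p.2)))) (fun a _ => hbd _)
    ⟨(V0, V0'), hV0, hV0', fun h => hA' (by show A' ∈ (V0, V0').1; rw [h]; exact hV0's rfl)⟩
  simp only at h1 h2 h12 hbest
  set D := V1 ∩ V2 with hD
  have hne1 : D ≠ V1 := fun h => h12 (h1.2.2.2 V2 (fun A hA => (h.symm ▸ hA : A ∈ D).2) h2.1 h2.2.1).symm
  have hne2 : D ≠ V2 := fun h => h12 (h2.2.2.2 V1 (fun A hA => (h.symm ▸ hA : A ∈ D).1) h1.1 h1.2.1)
  obtain ⟨A1, hA1, hA1D, hA1n⟩ := exists_normalizing h1.2.1 Set.inter_subset_left hne1 (hclosed V1 h1)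
  obtain ⟨A2, hA2, hA2D, hA2n⟩ := exists_normalizing h2.2.1 Set.inter_subset_right hne2 (hclosed V2 h2)
  have hDu : IsUnipotentOn (join D) := unipotent_mono (hjmono Set.inter_subset_left) h1.2.1
  have hu := isUnipotentOn_sup hDu (hWW A1 (h1.1 hA1) A2 (h2.1 hA2)) (sup_le hA1n hA2n)
  obtain ⟨V3, hV3s, hV3⟩ := hmax (D ∪ {A1, A2})
    (by
      rintro A (hA | rfl | rfl)
      · exact h1.1 hA.1
      · exact h1.1 hA1
      · exact h2.1 hA2)
    (unipotent_mono (iSup₂_le fun A hA => by
      rcases hA with hA | rfl | rfl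
      · exact le_sup_of_le_left (hle_join hA)
      · exact le_sup_of_le_right le_sup_left
      · exact le_sup_of_le_right le_sup_right) hu)
  have h13 : V1 ≠ V3 := fun h => hA2D ⟨h ▸ hV3s (Or.inr (Or.inr rfl)), hA2⟩
  have hsub : D ⊆ V1 ∩ V3 := fun A hA => ⟨hA.1, hV3s (Or.inl hA)⟩
  have heq := Submodule.eq_of_le_of_finrank_le (augSpan_mono (hjmono hsub)) (hbest (V1, V3) ⟨h1, hV3, h13⟩)
  refine hA1D ⟨hA1, h2.2.2.1 A1 (h1.1 hA1) ((augSpan_mono (hle_join (?_ : A1 ∈ V1 ∩ V3))).trans ?_)⟩
  · exact ⟨hA1, hV3s (Or.inr (Or.inl rfl))⟩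
  · rw [← heq]; exact augSpan_mono (hjmono Set.inter_subset_right)

/-- A family of subgroups permuted by a group has an invariant join. -/
lemma conjBy_biSup {G : Subgroup (LinearMap.GeneralLinearGroup k M)}
    {W : Set (Subgroup (LinearMap.GeneralLinearGroup k M))}
    (hWconj : ∀ A ∈ W, ∀ g ∈ G, conjBy A g ∈ W) {g : LinearMap.GeneralLinearGroup k M} (hg : g ∈ G) :
    conjBy (⨆ A ∈ W, A) g = ⨆ A ∈ W, A := by
  have hle : ∀ g ∈ G, conjBy (⨆ A ∈ W, A) g ≤ ⨆ A ∈ W, A := by
    intro g hg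
    simp only [conjBy, Subgroup.map_iSup]
    exact iSup₂_le fun A hA => le_iSup₂_of_le (conjBy A g) (hWconj A hA g hg) le_rfl
  refine le_antisymm (hle g hg) fun x hx => ⟨g⁻¹ * x * g, ?_, by simp [mul_assoc]⟩
  exact hle g⁻¹ (inv_mem hg) ⟨x, hx, by simp [mul_assoc]⟩

end Family

end Cfsg.Agent.H92.QP
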