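import Cfsg.Agent.H92.QP.PairN
import Cfsg.Agent.H92.QP.Bridge
import Cfsg.Agent.H92.QP.Unip
import Cfsg.Agent.H92.QP.Sl2Pair
import Cfsg.Agent.H92.RootBasic

/-! Minimal quadratic families with the same action, and the relations between two of them. -/

set_option autoImplicit false

namespace Cfsg.Agent.H92.QP

open Cfsg
open scoped commutatorElement

variable {k : Type*} [Field k] {M : Type*} [AddCommGroup M] [Module k M]
  {G : Subgroup (LinearMap.GeneralLinearGroup k M)}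

/-- A family acting inside the same two subspaces as `s`. -/
def Mem (G : Subgroup (LinearMap.GeneralLinearGroup k M)) (s y : Module.End k M) : Prop :=
  Fam' G y ∧ LinearMap.range y ≤ LinearMap.range s ∧ LinearMap.ker s ≤ LinearMap.ker y

lemma mem_self {s : Module.End k M} (hs : Fam' G s) : Mem G s s := ⟨hs, le_rfl, le_rfl⟩

lemma mem_zero (s : Module.End k M) : Mem G s 0 := ⟨Fam'.zero, by simp, by simp⟩

lemma mul_eq_zero_iff_range_le_ker {a b : Module.End k M} : a * b = 0 ↔ LinearMap.range b ≤ LinearMap.ker a := by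
  rw [LinearMap.range_le_ker_iff, Module.End.mul_eq_comp]

lemma range_le_ker_of_sq {s : Module.End k M} (hs : s * s = 0) : LinearMap.range s ≤ LinearMap.ker s :=
  mul_eq_zero_iff_range_le_ker.1 hs

lemma Mem.mul {s y z : Module.End k M} (hs : s * s = 0) (hy : Mem G s y) (hz : Mem G s z) : y * z = 0 :=
  mul_eq_zero_iff_range_le_ker.2 (hz.2.1.trans ((range_le_ker_of_sq hs).trans hy.2.2))

lemma Mem.add {s y z : Module.End k M} (hs : s * s = 0) (hy : Mem G s y) (hz : Mem G s z) : Mem G s (y + z) := by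
  refine ⟨hy.1.add hz.1 (hy.mul hs hz) (hz.mul hs hy), ?_, ?_⟩
  · rintro _ ⟨m, rfl⟩
    exact add_mem (hy.2.1 ⟨m, rfl⟩) (hz.2.1 ⟨m, rfl⟩)
  · intro m hm
    simp [LinearMap.mem_ker.1 (hy.2.2 hm), LinearMap.mem_ker.1 (hz.2.2 hm)]

lemma Mem.smul {s y : Module.End k M} (hy : Mem G s y) (c : k) : Mem G s (c • y) := by
  refine ⟨hy.1.smul c, ?_, ?_⟩
  · rintro _ ⟨m, rfl⟩
    exact Submodule.smul_mem _ c (hy.2.1 ⟨m, rfl⟩)
  · intro m hm
    simp [LinearMap.mem_ker.1 (hy.2.2 hm)]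

lemma Mem.neg {s y : Module.End k M} (hy : Mem G s y) : Mem G s (-y) := by
  simpa using hy.smul (-1)

lemma Mem.trans {s y z : Module.End k M} (hy : Mem G s y) (hz : Mem G y z) : Mem G s z :=
  ⟨hz.1, hz.2.1.trans hy.2.1, hy.2.2.trans hz.2.2⟩

/-- The subspace of all families with the action of `s`. -/
def lsub (G : Subgroup (LinearMap.GeneralLinearGroup k M)) {s : Module.End k M} (hs : s * s = 0) :
    Submodule k (Module.End k M) where
  carrier := {y | Mem G s y}
  add_mem' := fun hy hz => Mem.add hs hy hz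
  zero_mem' := mem_zero s
  smul_mem' := fun c _ hy => Mem.smul hy c

open Classical in
/-- The subgroup of the `1 + y`. -/
noncomputable def eg (G : Subgroup (LinearMap.GeneralLinearGroup k M)) (s : Module.End k M) :
    Subgroup (LinearMap.GeneralLinearGroup k M) :=
  if hs : s * s = 0 then
    { carrier := ex '' {y | Mem G s y}
      one_mem' := ⟨0, mem_zero s, ex_zero⟩
      mul_mem' := by
        rintro _ _ ⟨y, hy, rfl⟩ ⟨z, hz, rfl⟩
        exact ⟨y + z, hy.add hs hz, ex_add hy.1.1 hz.1.1 (hy.mul hs hz) (hz.mul hs hy)⟩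
      inv_mem' := by
        rintro _ ⟨y, hy, rfl⟩
        exact ⟨-y, hy.neg, (ex_inv hy.1.1).symm⟩ }
  else ⊥

lemma mem_eg {s : Module.End k M} (hs : s * s = 0) {g : LinearMap.GeneralLinearGroup k M} :
    g ∈ eg G s ↔ ∃ y, Mem G s y ∧ ex y = g := by
  rw [eg, dif_pos hs]; rfl

lemma ex_mem_eg {s y : Module.End k M} (hs : s * s = 0) (hy : Mem G s y) : ex y ∈ eg G s :=
  (mem_eg hs).2 ⟨y, hy, rfl⟩

lemma eg_le {s : Module.End k M} (hs : s * s = 0) : eg G s ≤ G := by
  intro g hg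
  obtain ⟨y, hy, rfl⟩ := (mem_eg hs).1 hg
  simpa using hy.1.2 1

lemma eg_comm {s : Module.End k M} (hs : s * s = 0) {a b : LinearMap.GeneralLinearGroup k M}
    (ha : a ∈ eg G s) (hb : b ∈ eg G s) : a * b = b * a := by
  obtain ⟨y, hy, rfl⟩ := (mem_eg hs).1 ha
  obtain ⟨z, hz, rfl⟩ := (mem_eg hs).1 hb
  rw [← ex_add hy.1.1 hz.1.1 (hy.mul hs hz) (hz.mul hs hy), ← ex_add hz.1.1 hy.1.1 (hz.mul hs hy) (hy.mul hs hz),
    add_comm]

lemma eg_ne_bot {s : Module.End k M} (hs : Fam' G s) (hs0 : s ≠ 0) : eg G s ≠ ⊥ := by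
  intro e
  have h := ex_mem_eg hs.1 (mem_self hs)
  rw [e, Subgroup.mem_bot, ← ex_zero] at h
  exact hs0 (ex_inj hs.1 (by simp) h)

section Conj

lemma range_conjEnd (g : LinearMap.GeneralLinearGroup k M) (x : Module.End k M) :
    LinearMap.range (conjEnd g x) = (LinearMap.range x).map (g : Module.End k M) := by
  have hs : Function.Surjective ((g⁻¹ : LinearMap.GeneralLinearGroup k M) : Module.End k M) := fun m =>
    ⟨(g : Module.End k M) m, LinearMap.congr_fun (show ((g⁻¹ : LinearMap.GeneralLinearGroup k M) : Module.End k M) *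
      (g : Module.End k M) = 1 by simp) m⟩
  rw [conjEnd, Module.End.mul_eq_comp, LinearMap.range_comp_of_range_eq_top _ (LinearMap.range_eq_top.2 hs),
    Module.End.mul_eq_comp, LinearMap.range_comp]

lemma ker_conjEnd (g : LinearMap.GeneralLinearGroup k M) (x : Module.End k M) :
    LinearMap.ker (conjEnd g x) =
      (LinearMap.ker x).comap ((g⁻¹ : LinearMap.GeneralLinearGroup k M) : Module.End k M) := by
  have hi : Function.Injective (g : Module.End k M) := Function.LeftInverse.injective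
    (g := ((g⁻¹ : LinearMap.GeneralLinearGroup k M) : Module.End k M))
    (fun m => LinearMap.congr_fun (show ((g⁻¹ : LinearMap.GeneralLinearGroup k M) : Module.End k M) *
      (g : Module.End k M) = 1 by simp) m)
  ext m
  simp only [conjEnd, Submodule.mem_comap, LinearMap.mem_ker, Module.End.mul_apply]
  exact ⟨fun h => hi (by rw [h, map_zero]), fun h => by rw [h, map_zero]⟩

lemma conjEnd_conjEnd (g h : LinearMap.GeneralLinearGroup k M) (x : Module.End k M) :
    conjEnd g (conjEnd h x) = conjEnd (g * h) x := by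
  simp [conjEnd, mul_assoc]

lemma conjEnd_one (x : Module.End k M) : conjEnd (1 : LinearMap.GeneralLinearGroup k M) x = x := by
  simp [conjEnd]

lemma conjEnd_inv_self (g : LinearMap.GeneralLinearGroup k M) (x : Module.End k M) :
    conjEnd g⁻¹ (conjEnd g x) = x := by
  rw [conjEnd_conjEnd, inv_mul_cancel, conjEnd_one]

lemma Mem.conj {s y : Module.End k M} (hy : Mem G s y) {g : LinearMap.GeneralLinearGroup k M} (hg : g ∈ G) :
    Mem G (conjEnd g s) (conjEnd g y) := by
  refine ⟨hy.1.conj hg, ?_, ?_⟩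
  · rw [range_conjEnd, range_conjEnd]; exact Submodule.map_mono hy.2.1
  · rw [ker_conjEnd, ker_conjEnd]; exact Submodule.comap_mono hy.2.2

lemma conjBy_eg {s : Module.End k M} (hs : s * s = 0) {g : LinearMap.GeneralLinearGroup k M} (hg : g ∈ G) :
    conjBy (eg G s) g = eg G (conjEnd g s) := by
  have hs' : conjEnd g s * conjEnd g s = 0 := by rw [conjEnd_mul, hs, conjEnd_zero]
  ext x
  rw [mem_conjBy, mem_eg hs', mem_eg hs]
  constructor
  · rintro ⟨y, hy, e⟩
    refine ⟨conjEnd g y, hy.conj hg, ?_⟩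
    rw [← conj_ex g hy.1.1, e]
    simp [mul_assoc]
  · rintro ⟨z, hz, rfl⟩
    refine ⟨conjEnd g⁻¹ z, ?_, ?_⟩
    · have := hz.conj (inv_mem hg)
      rwa [conjEnd_inv_self] at this
    · rw [← conj_ex g⁻¹ hz.1.1, inv_inv]

end Conj

variable [FiniteDimensional k M]

lemma MinFam.mem_range_eq {s y : Module.End k M} (hs : MinFam G s) (hy : Mem G s y) (hy0 : y ≠ 0) :
    LinearMap.range y = LinearMap.range s := hs.range_eq hy.1 hy0 hy.2.1

lemma MinFam.mem_ker_eq {s y : Module.End k M} (hs : MinFam G s) (hy : Mem G s y) (hy0 : y ≠ 0) :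
    LinearMap.ker y = LinearMap.ker s := (hs.ker_eq hy.1 hy0 hy.2.2).symm

lemma MinFam.of_mem {s y : Module.End k M} (hs : MinFam G s) (hy : Mem G s y) (hy0 : y ≠ 0) : MinFam G y :=
  hs.of_le hy.1 hy0 (Submodule.finrank_mono hy.2.1)

lemma MinFam.mem_symm {s y : Module.End k M} (hs : MinFam G s) (hy : Mem G s y) (hy0 : y ≠ 0) : Mem G y s :=
  ⟨hs.1, (hs.mem_range_eq hy hy0).ge, (hs.mem_ker_eq hy hy0).le⟩

lemma MinFam.eg_eq {s y : Module.End k M} (hs : MinFam G s) (hy : Mem G s y) (hy0 : y ≠ 0) : eg G y = eg G s := by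
  ext g
  rw [mem_eg hs.1.1, mem_eg hy.1.1]
  exact ⟨fun ⟨z, hz, e⟩ => ⟨z, hy.trans hz, e⟩, fun ⟨z, hz, e⟩ => ⟨z, (hs.mem_symm hy hy0).trans hz, e⟩⟩

lemma mem_of_eg_eq {s t : Module.End k M} (hs : MinFam G s) (ht : MinFam G t) (e : eg G s = eg G t) :
    Mem G t s := by
  have h := ex_mem_eg hs.1.1 (mem_self hs.1)
  rw [e] at h
  obtain ⟨y, hy, e'⟩ := (mem_eg ht.1.1).1 h
  rwa [← ex_inj hy.1.1 hs.1.1 e']

lemma sameActionSubgroup_eq {σ : LinearMap.GeneralLinearGroup k M} (hσ : σ ∈ minimalQuadraticElements G) :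
    sameActionSubgroup G σ = eg G ((σ : Module.End k M) - 1) ∧
      (eg G ((σ : Module.End k M) - 1) : Set (LinearMap.GeneralLinearGroup k M)) = sameActionClass G σ ∪ {1} := by
  have hs := mem_minimalQuadraticElements.1 hσ
  set s : Module.End k M := (σ : Module.End k M) - 1 with hsdef
  have hset : (eg G s : Set (LinearMap.GeneralLinearGroup k M)) = sameActionClass G σ ∪ {1} := by
    ext g
    rw [SetLike.mem_coe, mem_eg hs.1.1]
    constructor
    · rintro ⟨y, hy, rfl⟩
      rcases eq_or_ne y 0 with rfl | hy0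
      · exact Or.inr ex_zero
      refine Or.inl ⟨?_, ?_, ?_⟩
      · rw [mem_minimalQuadraticElements, ex_val hy.1.1, add_sub_cancel_left]
        exact hs.of_mem hy hy0
      · show LinearMap.ker ((ex y : Module.End k M) - 1) = LinearMap.ker s
        rw [ex_val hy.1.1, add_sub_cancel_left]; exact hs.mem_ker_eq hy hy0
      · show LinearMap.range ((ex y : Module.End k M) - 1) = LinearMap.range s
        rw [ex_val hy.1.1, add_sub_cancel_left]; exact hs.mem_range_eq hy hy0
    · rintro (⟨h1, h2, h3⟩ | rfl)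
      · have h := mem_minimalQuadraticElements.1 h1
        exact ⟨_, ⟨h.1, h3.le, h2.ge⟩, ex_sub_one h.1.1⟩
      · exact ⟨0, mem_zero s, ex_zero⟩
  refine ⟨le_antisymm ?_ ?_, hset⟩
  · rw [sameActionSubgroup, Subgroup.closure_le, hset]
    exact Set.subset_union_left
  · intro g hg
    rw [← SetLike.mem_coe, hset] at hg
    rcases hg with hg | hg
    · exact Subgroup.subset_closure hg
    · rw [hg]; exact one_mem _

lemma exists_of_root {A : Subgroup (LinearMap.GeneralLinearGroup k M)} (hA : A ∈ quadraticRootSubgroups G) :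
    ∃ s, MinFam G s ∧ A = eg G s := by
  obtain ⟨σ, hσ, rfl⟩ := hA
  exact ⟨_, mem_minimalQuadraticElements.1 hσ, (sameActionSubgroup_eq hσ).1⟩

lemma eg_mem_roots {s : Module.End k M} (hs : MinFam G s) : eg G s ∈ quadraticRootSubgroups G := by
  have e : (ex s : Module.End k M) - 1 = s := by rw [ex_val hs.1.1, add_sub_cancel_left]
  have hσ : ex s ∈ minimalQuadraticElements G := by rw [mem_minimalQuadraticElements, e]; exact hs
  exact ⟨ex s, hσ, by rw [(sameActionSubgroup_eq hσ).1, e]⟩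

/-- The non-degenerate relation. -/
def Nn (s t : Module.End k M) : Prop := s * t * s ≠ 0

lemma nn_of_disjoint {s t : Module.End k M} (hs0 : s ≠ 0)
    (h1 : LinearMap.range s ⊓ LinearMap.ker t = ⊥) (h2 : LinearMap.range t ⊓ LinearMap.ker s = ⊥) : Nn s t := by
  intro h
  apply hs0
  have key : ∀ m, t (s m) = 0 := by
    intro m
    have : t (s m) ∈ LinearMap.range t ⊓ LinearMap.ker s := ⟨⟨s m, rfl⟩, by
      show s (t (s m)) = 0
      exact LinearMap.congr_fun h m⟩
    rwa [h2, Submodule.mem_bot] at this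
  ext m
  have : s m ∈ LinearMap.range s ⊓ LinearMap.ker t := ⟨⟨m, rfl⟩, key m⟩
  rw [h1, Submodule.mem_bot] at this
  simpa using this

variable (h2 : (2 : k) ≠ 0) (hk : Nat.card k ≠ 3)
include h2 hk

lemma Nn.exists_npair {s t : Module.End k M} (h : Nn s t) (hs : MinFam G s) (ht : Fam' G t) :
    ∃ ν π wi e, NPair G s t ν π wi e :=
  QP.exists_npair h2 hk hs ht fun hn => h (nilp_pair h2 hs ht hn)

lemma Nn.disjoint {s t : Module.End k M} (h : Nn s t) (hs : MinFam G s) (ht : MinFam G t) :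
    LinearMap.range s ⊓ LinearMap.ker t = ⊥ ∧ LinearMap.range t ⊓ LinearMap.ker s = ⊥ := by
  obtain ⟨ν, π, wi, e, P⟩ := h.exists_npair h2 hk hs ht.1
  have hF := P.fit
  have key : ∀ m, (s * t + t * s) m = 0 → π m = 0 := by
    intro m hm
    have hc : Commute wi (s * t + t * s) :=
      (hF.commute_wi_s.mul_right hF.commute_wi_t).add_right (hF.commute_wi_t.mul_right hF.commute_wi_s)
    have e1 : π m = (wi * (s * t + t * s)) m := by rw [hc.eq, hF.inv]
    rw [e1, Module.End.mul_apply, hm, map_zero]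
  constructor <;> rw [eq_bot_iff]
  · rintro _ ⟨⟨a, rfl⟩, hm⟩
    have h1 : π (s a) = s a := LinearMap.congr_fun P.pis a
    rw [Submodule.mem_bot, ← h1]
    refine key _ ?_
    have h3 : s (s a) = 0 := LinearMap.congr_fun hs.1.1 a
    simp [LinearMap.mem_ker.1 hm, h3]
  · rintro _ ⟨⟨a, rfl⟩, hm⟩
    have h1 : π (t a) = t a := LinearMap.congr_fun (P.pit ht) a
    rw [Submodule.mem_bot, ← h1]
    refine key _ ?_
    have h3 : t (t a) = 0 := LinearMap.congr_fun ht.1.1 a
    simp [LinearMap.mem_ker.1 hm, h3]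

lemma Nn.symm {s t : Module.End k M} (h : Nn s t) (hs : MinFam G s) (ht : MinFam G t) : Nn t s :=
  nn_of_disjoint ht.2.1 (h.disjoint h2 hk hs ht).2 (h.disjoint h2 hk hs ht).1

lemma Nn.of_mem {s t s' t' : Module.End k M} (h : Nn s t) (hs : MinFam G s) (ht : MinFam G t) (hs' : Mem G s s')
    (ht' : Mem G t t') (hs0 : s' ≠ 0) (ht0 : t' ≠ 0) : Nn s' t' := by
  refine nn_of_disjoint hs0 ?_ ?_
  · rw [hs.mem_range_eq hs' hs0, ht.mem_ker_eq ht' ht0]; exact (h.disjoint h2 hk hs ht).1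
  · rw [ht.mem_range_eq ht' ht0, hs.mem_ker_eq hs' hs0]; exact (h.disjoint h2 hk hs ht).2

lemma not_nn_mem {s t s' t' : Module.End k M} (h : ¬ Nn s t) (hs : MinFam G s) (ht : MinFam G t) (hs' : Mem G s s')
    (ht' : Mem G t t') : s' * t' * s' = 0 := by
  rcases eq_or_ne s' 0 with rfl | hs0
  · simp
  rcases eq_or_ne t' 0 with rfl | ht0
  · simp
  by_contra hn
  exact h ((show Nn s' t' from hn).of_mem h2 hk (hs.of_mem hs' hs0) (ht.of_mem ht' ht0) (hs.mem_symm hs' hs0)
    (ht.mem_symm ht' ht0) hs.2.1 ht.2.1)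

lemma not_nn_symm {s t : Module.End k M} (h : ¬ Nn s t) (hs : MinFam G s) (ht : MinFam G t) : ¬ Nn t s :=
  fun h' => h (h'.symm h2 hk ht hs)

lemma not_nn_triple {s t a b c : Module.End k M} (h : ¬ Nn s t) (hs : MinFam G s) (ht : MinFam G t)
    (ha : Mem G s a) (hb : Mem G t b) (hc : Mem G s c) : a * b * c = 0 := by
  rcases eq_or_ne a 0 with rfl | ha0
  · simp
  have h1 := not_nn_mem h2 hk h hs ht ha hb
  rw [mul_assoc, mul_eq_zero_iff_range_le_ker] at h1 ⊢
  refine le_trans ?_ h1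
  rintro _ ⟨m, rfl⟩
  obtain ⟨m', e⟩ := hc.2.1 ⟨m, rfl⟩
  obtain ⟨m'', e'⟩ : c m ∈ LinearMap.range a := (hs.mem_range_eq ha ha0).ge ⟨m', e⟩
  exact ⟨m'', by rw [Module.End.mul_apply, Module.End.mul_apply, e']⟩

/-- The normalised partner. -/
lemma Nn.exists_sl2 {s t : Module.End k M} (h : Nn s t) (hs : MinFam G s) (ht : MinFam G t) :
    ∃ u, Mem G t u ∧ u ≠ 0 ∧ Sl2 G s u := by
  obtain ⟨ν, π, wi, e, P⟩ := h.exists_npair h2 hk hs ht.1
  have hF := P.fit
  have hs1 : hF.s1 = s := P.pis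
  have hu : Fam' G hF.u := by
    have := P.famU 1
    rwa [hF.rho_one, hF.pi_u] at this
  have hsus : s * hF.u * s = s := by
    have := hF.s1_u_s1
    rwa [hs1] at this
  have husu : hF.u * s * hF.u = hF.u := by
    have := hF.u_s1_u
    rwa [hs1] at this
  refine ⟨hF.u, ⟨hu, ?_, ?_⟩, fun e => hs.2.1 ?_, hs.1, hu, hsus, husu⟩
  · rw [Fit.u, hF.commute_wi_t.eq]
    exact LinearMap.range_comp_le_range _ t
  · exact LinearMap.ker_le_ker_comp t wi
  · rw [← hsus, e, mul_zero, zero_mul]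

lemma isUnipotentOn_of_not_nn {s t : Module.End k M} (h : ¬ Nn s t) (hs : MinFam G s) (ht : MinFam G t) :
    IsUnipotentOn (eg G s ⊔ eg G t) := by
  have h' := not_nn_symm h2 hk h hs ht
  refine isUnipotentOn_of_triple (X := {y | Mem G s y} ∪ {y | Mem G t y}) ?_ ?_ ?_ ?_
  · rintro a (ha | ha) b (hb | hb) c (hc | hc)
    · simp [ha.mul hs.1.1 hb]
    · simp [ha.mul hs.1.1 hb]
    · exact not_nn_triple h2 hk h hs ht ha hb hc
    · simp [mul_assoc, hb.mul ht.1.1 hc]
    · simp [mul_assoc, hb.mul hs.1.1 hc]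
    · exact not_nn_triple h2 hk h' ht hs ha hb hc
    · simp [ha.mul ht.1.1 hb]
    · simp [ha.mul ht.1.1 hb]
  · rintro a (ha | ha)
    · exact Or.inl ha.neg
    · exact Or.inr ha.neg
  · rintro a (ha | ha) <;> exact ha.1.1
  · refine sup_le ?_ ?_ <;> intro g hg
    · obtain ⟨y, hy, rfl⟩ := (mem_eg hs.1.1).1 hg
      exact Subgroup.subset_closure ⟨y, Or.inl hy, rfl⟩
    · obtain ⟨y, hy, rfl⟩ := (mem_eg ht.1.1).1 hg
      exact Subgroup.subset_closure ⟨y, Or.inr hy, rfl⟩

omit hk in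
lemma not_nn_of_isUnipotentOn {s t : Module.End k M} (hs : MinFam G s) (ht : MinFam G t)
    (h : IsUnipotentOn (eg G s ⊔ eg G t)) : ¬ Nn s t := by
  intro hn
  obtain ⟨n, hu⟩ := isUnipotentOn_iff.1 h
  apply hn
  refine nilp_pair h2 hs ht.1 ⟨n, ?_⟩
  have hz : s * t + t * s ∈ augSpan (eg G s ⊔ eg G t) := by
    have a : sub1 (ex s) ∈ augSpan (eg G s ⊔ eg G t) :=
      sub1_mem_augSpan (Subgroup.mem_sup_left (ex_mem_eg hs.1.1 (mem_self hs.1)))
    have b : sub1 (ex t) ∈ augSpan (eg G s ⊔ eg G t) :=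
      sub1_mem_augSpan (Subgroup.mem_sup_right (ex_mem_eg ht.1.1 (mem_self ht.1)))
    rw [sub1, ex_val hs.1.1, add_sub_cancel_left] at a
    rw [sub1, ex_val ht.1.1, add_sub_cancel_left] at b
    exact add_mem (augSpan_mul_self _ (Submodule.mul_mem_mul a b)) (augSpan_mul_self _ (Submodule.mul_mem_mul b a))
  have := Submodule.pow_mem_pow _ hz n
  rwa [hu, Submodule.mem_bot] at this

end Cfsg.Agent.H92.QP
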