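import Cfsg.Agent.H92.QP.Lift

/-! A pair of a minimal family and a family with non-nilpotent `st + ts`. -/

set_option autoImplicit false

namespace Cfsg.Agent.H92.QP

open Polynomial
open scoped MatrixGroups

variable {k : Type*} [Field k] {M : Type*} [AddCommGroup M] [Module k M] [FiniteDimensional k M]
  {G : Subgroup (LinearMap.GeneralLinearGroup k M)}

/-- The conclusion for a non-nilpotent pair. -/
structure NPair (G : Subgroup (LinearMap.GeneralLinearGroup k M)) (s t : Module.End k M) (ν : k[X])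
    (π wi : Module.End k M) (e : ℕ) : Prop where
  fit : Fit s t ν π wi e
  pis : π * s = s
  field : ∀ r : AdjoinRoot ν, r ≠ 0 → IsUnit r
  famS : ∀ r : AdjoinRoot ν, Fam' G (fit.rho r * s)
  famU : ∀ r : AdjoinRoot ν, Fam' G (fit.rho r * fit.u)
  top : ∀ g : SL(2, AdjoinRoot ν), fit.phi g ∈ G

lemma isUnit_root {ν : k[X]} (h : ν.coeff 0 ≠ 0) : IsUnit (AdjoinRoot.root ν) := by
  refine ⟨⟨AdjoinRoot.root ν, AdjoinRoot.mk ν (C (-(ν.coeff 0)⁻¹) * ν.divX), ?_, ?_⟩, rfl⟩
  all_goals
    have key : AdjoinRoot.root ν * AdjoinRoot.mk ν (C (-(ν.coeff 0)⁻¹) * ν.divX) = 1 := by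
      rw [← AdjoinRoot.mk_X, ← map_mul, ← map_one (AdjoinRoot.mk ν), AdjoinRoot.mk_eq_mk]
      refine ⟨C (-(ν.coeff 0)⁻¹), ?_⟩
      have hc : C (-(ν.coeff 0)⁻¹) * C (ν.coeff 0) = -1 := by
        rw [← map_mul, neg_mul, inv_mul_cancel₀ h, map_neg, map_one]
      linear_combination C (-(ν.coeff 0)⁻¹) * (X_mul_divX_add ν) - hc
  · exact key
  · rw [mul_comm]; exact key

theorem exists_npair (h2 : (2 : k) ≠ 0) (hk : Nat.card k ≠ 3) {s t : Module.End k M} (hs : MinFam G s)
    (ht : Fam' G t) (hz : ¬ IsNilpotent (s * t + t * s)) : ∃ ν π wi e, NPair G s t ν π wi e := by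
  obtain ⟨ν, π, wi, e, F⟩ := exists_fit hs.1.1 ht.1 hz
  haveI : Module.Finite k (AdjoinRoot ν) := F.monic.finite_adjoinRoot
  haveI : Nontrivial (AdjoinRoot ν) := AdjoinRoot.nontrivial ν (by
    rw [degree_eq_natDegree F.monic.ne_zero]; exact_mod_cast F.deg)
  obtain ⟨w, hw⟩ := isUnit_root F.coeff0
  have hgen : Algebra.adjoin k ({(w : AdjoinRoot ν)} : Set (AdjoinRoot ν)) = ⊤ := by
    rw [hw]; exact AdjoinRoot.adjoinRoot_eq_top
  set Γ := Subgroup.closure (Set.range (fun c : k => eU (algebraMap k (AdjoinRoot ν) c)) ∪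
    Set.range (fun c : k => eL (algebraMap k (AdjoinRoot ν) c * AdjoinRoot.root ν))) with hΓ
  have hsq : ∀ (r : AdjoinRoot ν) {x : Module.End k M}, x * x = 0 → Commute (F.rho r) x →
      F.rho r * x * (F.rho r * x) = 0 := fun r x hx hc => by
    rw [mul_assoc, ← mul_assoc x, ← hc.eq, mul_assoc (F.rho r) x x, hx, mul_zero, mul_zero]
  have hex : ∀ (r : AdjoinRoot ν) (c : k) {x : Module.End k M},
      F.rho (algebraMap k _ c * r) * x = c • (F.rho r * x) := fun r c x => by
    rw [F.rho_mul, F.rho_algebraMap, smul_mul_assoc, F.pi_rho, smul_mul_assoc]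
  have famS : ∀ r : AdjoinRoot ν, (∀ c : k, eU (algebraMap k _ c * r) ∈ dser Γ (2 * e + 1)) →
      Fam' G (F.rho r * F.s1) := by
    intro r hr
    refine ⟨hsq r F.s1_s1 (F.rho_commute r).1, fun c => ?_⟩
    have := F.phi_mem_of_dser hs.1 ht (Nat.lt_two_pow_self).le (hr c)
    convert this using 1
    apply Units.ext
    rw [ex_val (smul_sq (hsq r F.s1_s1 (F.rho_commute r).1) c), F.phi_eU_val, hex]
  have famU : ∀ r : AdjoinRoot ν, (∀ c : k, eL (algebraMap k _ c * r) ∈ dser Γ (2 * e + 1)) →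
      Fam' G (F.rho r * F.u) := by
    intro r hr
    refine ⟨hsq r F.u_u (F.rho_commute r).2, fun c => ?_⟩
    have := F.phi_mem_of_dser hs.1 ht (Nat.lt_two_pow_self).le (hr c)
    convert this using 1
    apply Units.ext
    rw [ex_val (smul_sq (hsq r F.u_u (F.rho_commute r).2) c), F.phi_eL_val, hex]
  have hrange : ∀ r, LinearMap.range (F.rho r * F.s1) ≤ LinearMap.range s := by
    intro r
    have : F.rho r * F.s1 = s * (F.rho r * π) := by
      rw [(F.rho_commute r).1.eq, F.rho_pi, Fit.s1, F.commute_pi_s.eq, mul_assoc, F.pi_rho]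
    rw [this]; exact LinearMap.range_comp_le_range _ s
  rcases sl2_machine h2 hk w hgen (H := Γ) (fun c => Subgroup.subset_closure (Or.inl ⟨c, rfl⟩))
    (fun c => Subgroup.subset_closure (Or.inr ⟨c, by rw [hw]⟩)) (2 * e + 1) with ⟨r, hr, hru, hrf⟩ | ⟨hf, hU, hL⟩
  · exfalso
    have hr0 : F.rho r * F.s1 ≠ 0 := fun h => hr (F.rho_s1_eq_zero h)
    have heq := hs.range_eq (famS r hrf) hr0 (hrange r)
    obtain ⟨r', hr'0, hr'⟩ : ∃ r', r' ≠ 0 ∧ r * r' = 0 := by
      by_contra hcon
      push Not at hcon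
      have hinj : Function.Injective (LinearMap.mulLeft k r) := by
        rw [← LinearMap.ker_eq_bot, LinearMap.ker_eq_bot']
        intro x hx
        by_contra hx0
        exact hcon x hx0 hx
      obtain ⟨v, hv⟩ := LinearMap.injective_iff_surjective.1 hinj 1
      exact hru (IsUnit.of_mul_eq_one v hv)
    apply hr'0
    apply F.rho_s1_eq_zero
    have : F.rho r' * s = 0 := by
      ext m
      obtain ⟨m', hm'⟩ : s m ∈ LinearMap.range (F.rho r * F.s1) := heq ▸ LinearMap.mem_range_self s m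
      show F.rho r' (s m) = 0
      rw [← hm']
      have e0 : F.rho r' * (F.rho r * F.s1) = 0 := by
        rw [← mul_assoc, ← F.rho_mul, mul_comm, hr', F.rho_zero, zero_mul]
      exact LinearMap.congr_fun e0 m'
    calc F.rho r' * F.s1 = F.rho r' * π * s := (mul_assoc _ _ _).symm
      _ = F.rho r' * s := congrArg (· * s) (F.rho_pi r')
      _ = 0 := this
  · have hS := fun r => famS r (fun c => hU _)
    have hs1 : Fam' G F.s1 := by
      have := hS 1
      rwa [F.rho_one, F.pi_s1] at this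
    have hs10 : F.s1 ≠ 0 := fun h => one_ne_zero (F.rho_s1_eq_zero (r := (1 : AdjoinRoot ν)) (by rw [h, mul_zero]))
    have heq := hs.range_eq hs1 hs10 (by have := hrange 1; rwa [F.rho_one, F.pi_s1] at this)
    have hpis : π * s = s := by
      ext m
      obtain ⟨m', hm'⟩ : s m ∈ LinearMap.range F.s1 := heq ▸ LinearMap.mem_range_self s m
      show π (s m) = s m
      rw [← hm']
      exact LinearMap.congr_fun F.pi_s1 m'
    refine ⟨ν, π, wi, e, ⟨F, hpis, hf, fun r => ?_, fun r => famU r (fun c => hL _), fun g => ?_⟩⟩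
    · have := hS r
      rwa [show F.s1 = s from hpis] at this
    · have hle : (⊤ : Subgroup SL(2, AdjoinRoot ν)) ≤ G.comap F.phi := by
        haveI : IsDomain (AdjoinRoot ν) := (IsField.mk ⟨0, 1, zero_ne_one⟩ mul_comm
          (fun {a} ha => (hf a ha).exists_right_inv)).isDomain
        letI : Field (AdjoinRoot ν) := IsField.toField (IsField.mk ⟨0, 1, zero_ne_one⟩ mul_comm
          (fun {a} ha => (hf a ha).exists_right_inv))
        rw [← sl2_closure_sx_sy, Subgroup.closure_le]
        rintro _ (⟨x, rfl⟩ | ⟨x, rfl⟩)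
        · exact F.phi_mem_of_dser hs.1 ht (Nat.lt_two_pow_self).le (hU x)
        · exact F.phi_mem_of_dser hs.1 ht (Nat.lt_two_pow_self).le (hL (-x))
      exact hle (Subgroup.mem_top g)

/-- When both families are minimal the corner contains both. -/
lemma NPair.pit {s t : Module.End k M} {ν : k[X]} {π wi : Module.End k M} {e : ℕ} (P : NPair G s t ν π wi e)
    (ht : MinFam G t) : π * t = t := by
  have hF := P.fit
  have h1 : hF.rho (AdjoinRoot.root ν) * hF.u = π * t := by
    rw [hF.rho_root, Fit.u, mul_assoc π, ← mul_assoc (s * t + t * s) wi, hF.inv, ← mul_assoc, hF.idem]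
  have hfam := P.famU (AdjoinRoot.root ν)
  rw [h1] at hfam
  have h0 : π * t ≠ 0 := by
    intro h
    haveI : Nontrivial (AdjoinRoot ν) := AdjoinRoot.nontrivial ν (by
      rw [degree_eq_natDegree hF.monic.ne_zero]; exact_mod_cast hF.deg)
    have h' : hF.rho (AdjoinRoot.root ν) = 0 := by
      rw [hF.rho_root, mul_add, ← mul_assoc, ← mul_assoc, hF.commute_pi_s.eq, mul_assoc s π t, h, mul_zero,
        zero_mul, add_zero]
    have hu := isUnit_root hF.coeff0
    rw [hF.rho_eq_zero h'] at hu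
    exact not_isUnit_zero hu
  have hr : LinearMap.range (π * t) ≤ LinearMap.range t := by
    rw [hF.commute_pi_t.eq]; exact LinearMap.range_comp_le_range _ t
  have heq := ht.range_eq hfam h0 hr
  ext m
  obtain ⟨m', hm'⟩ : t m ∈ LinearMap.range (π * t) := heq ▸ LinearMap.mem_range_self t m
  show π (t m) = t m
  rw [← hm']
  exact LinearMap.congr_fun hF.idem (t m')

end Cfsg.Agent.H92.QP
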