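import Cfsg.Agent.H92.QP.Quadr

/-! The central product decomposition. -/

set_option autoImplicit false

namespace Cfsg.Agent.H92.QP

open Cfsg LinearMap
open scoped commutatorElement

universe u v

variable {k : Type u} [Field k] {M : Type v} [AddCommGroup M] [Module k M]
  {G : Subgroup (LinearMap.GeneralLinearGroup k M)}

/-- The conclusion. -/
def Decomp (G : Subgroup (LinearMap.GeneralLinearGroup k M)) : Prop :=
  ∃ (ι : Type) (_ : Fintype ι) (Gi : ι → Subgroup (LinearMap.GeneralLinearGroup k M)),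
    (∀ i, Gi i ≤ G ∧ ∀ g ∈ G, conjBy (Gi i) g = Gi i) ∧ (∀ i j, i ≠ j → ⁅Gi i, Gi j⁆ = ⊥) ∧ (⨆ i, Gi i) = G ∧
    (∀ i, IsQuasisimple ↥(Gi i) ∧
      Subgroup.closure (quadraticElements G ∩ (Gi i : Set (LinearMap.GeneralLinearGroup k M))) = Gi i) ∧
    quadraticElements G ⊆ ⋃ i, (Gi i : Set (LinearMap.GeneralLinearGroup k M))

/-- The quadratic elements centralising all members. -/
def restSet (G : Subgroup (LinearMap.GeneralLinearGroup k M)) : Set (LinearMap.GeneralLinearGroup k M) :=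
  {σ | σ ∈ quadraticElements G ∧ ∀ s, MinFam G s → ((σ : Module.End k M) - 1) * s = s * ((σ : Module.End k M) - 1)}

variable [FiniteDimensional k M] (hP : Pair G)
include hP

lemma Pair.rest_le : Subgroup.closure (restSet G) ≤ G :=
  (Subgroup.closure_le _).2 fun _ h => h.1.1

lemma Pair.rest_centralizes :
    Subgroup.closure (restSet G) ≤
      Subgroup.centralizer ((⨆ A ∈ quadraticRootSubgroups G, A : Subgroup _) : Set (LinearMap.GeneralLinearGroup k M)) := by
  rw [Subgroup.closure_le]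
  rintro σ ⟨hσ, hc⟩
  rw [SetLike.mem_coe, Subgroup.mem_centralizer_iff]
  intro g hg
  have hle : (⨆ A ∈ quadraticRootSubgroups G, A : Subgroup _) ≤ Subgroup.centralizer {σ} := by
    refine iSup₂_le fun A hA a ha => ?_
    obtain ⟨s, hs, rfl⟩ := exists_of_root hA
    obtain ⟨y, hy, rfl⟩ := (mem_eg hs.1.1).1 ha
    obtain ⟨h1, -⟩ := mem_quadraticElements.1 hσ
    rw [Subgroup.mem_centralizer_singleton_iff, ← ex_sub_one h1.1, commute_ex_iff hy.1.1 h1.1]
    rcases eq_or_ne y 0 with rfl | hy0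
    · simp
    exact (hc y (hs.of_mem hy hy0)).symm
  exact Subgroup.mem_centralizer_singleton_iff.1 (hle hg)

lemma Pair.gen_le : G ≤ (⨆ A ∈ quadraticRootSubgroups G, A) ⊔ Subgroup.closure (restSet G) := by
  conv_lhs => rw [← hP.gen]
  rw [Subgroup.closure_le]
  intro σ hσ
  obtain ⟨h1, -⟩ := mem_quadraticElements.1 hσ
  rcases hP.dichotomy (rk ((σ : Module.End k M) - 1)) le_rfl h1 with h | ⟨x, hx, h⟩
  · exact Subgroup.mem_sup_right (Subgroup.subset_closure ⟨hσ, h⟩)
  · refine Subgroup.mem_sup_left ?_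
    have h' := h 1
    rw [one_smul, ex_sub_one h1.1] at h'
    exact (iSup₂_le fun y hy => le_iSup₂ (f := fun A (_ : A ∈ quadraticRootSubgroups G) => A) (eg G y)
      (eg_mem_roots (Conn.minFam hy hx)) : cgrp G x ≤ _) h'

lemma Pair.rest_pair : Pair (Subgroup.closure (restSet G)) := by
  set C := Subgroup.closure (restSet G) with hC
  have hQ : ∀ σ ∈ restSet G, σ ∈ quadraticElements C := by
    rintro σ ⟨hσ, hc⟩
    obtain ⟨h1, h0⟩ := mem_quadraticElements.1 hσ
    refine mem_quadraticElements.2 ⟨⟨h1.1, fun c => ?_⟩, h0⟩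
    rcases eq_or_ne c 0 with rfl | hc0
    · simp [one_mem]
    refine Subgroup.subset_closure ⟨ex_mem_quadraticElements (h1.smul c) (smul_ne_zero hc0 h0), fun s hs => ?_⟩
    rw [ex_val (smul_sq h1.1 c), add_sub_cancel_left, smul_mul_assoc, hc s hs, mul_smul_comm]
  refine ⟨hP.two, hP.three, le_antisymm ((Subgroup.closure_le _).2 fun σ h => h.1)
    ((Subgroup.closure_le _).2 fun σ h => Subgroup.subset_closure (hQ σ h)), hP.irr.1, fun W hW => hP.irr.2 W fun g hg => hW g ?_⟩
  refine (sup_le ?_ ?_ : G ⊔ Subgroup.centralizer (G : Set _) ≤ C ⊔ Subgroup.centralizer (C : Set _)) hg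
  · refine hP.gen_le.trans (sup_le (le_sup_of_le_right ?_) le_sup_left)
    exact Subgroup.le_centralizer_iff.1 hP.rest_centralizes
  · exact le_sup_of_le_right (Subgroup.centralizer_le hP.rest_le)

lemma Pair.rest_rank {y : Module.End k M} (hy : Fam' (Subgroup.closure (restSet G)) y) (hy0 : y ≠ 0) {s : Module.End k M}
    (hs : MinFam G s) : rk s < rk y := by
  have hyG : Fam' G y := ⟨hy.1, fun c => hP.rest_le (hy.2 c)⟩
  refine lt_of_le_of_ne (hs.2.2 y hyG hy0) fun e => ?_
  have hym := hs.of_le hyG hy0 e.ge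
  obtain ⟨t, ht, hn⟩ := hP.exists_partner hym
  have h1 := Subgroup.mem_centralizer_iff.1 (hP.rest_centralizes (hy.2 1)) (ex t)
    (le_iSup₂ (f := fun A (_ : A ∈ quadraticRootSubgroups G) => A) (eg G t) (eg_mem_roots ht)
      (ex_mem_eg ht.1.1 (mem_self ht.1)))
  rw [one_smul, commute_ex_iff ht.1.1 hy.1] at h1
  exact hn (by rw [← h1, mul_assoc, hy.1, mul_zero])

omit hP in
/-- The decomposition, by induction on the least rank. -/
theorem decomp_all : ∀ (n : ℕ) {G : Subgroup (LinearMap.GeneralLinearGroup k M)}, Pair G →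
    (∀ y, Fam' G y → y ≠ 0 → Module.finrank k M < rk y + n) → Decomp G := by
  intro n
  induction n with
  | zero =>
    intro G hP h
    have hQ : quadraticElements G = ∅ := Set.eq_empty_iff_forall_notMem.2 fun σ hσ => by
      obtain ⟨h1, h0⟩ := mem_quadraticElements.1 hσ
      exact absurd (h _ h1 h0) (Nat.not_lt.2 (Submodule.finrank_le _))
    have hG : G = ⊥ := by rw [← hP.gen, hQ, Subgroup.closure_empty]
    exact ⟨PEmpty, inferInstance, PEmpty.elim, fun i => i.elim, fun i => i.elim, by simp [hG, iSup_of_empty],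
      fun i => i.elim, by simp [hQ]⟩
  | succ n ih =>
    intro G hP h
    classical
    by_cases hmin : ∀ y, Fam' G y → y = 0
    · exact ih hP fun y hy hy0 => absurd (hmin y hy) hy0
    push Not at hmin
    obtain ⟨s, hs⟩ : ∃ s, MinFam G s := by
      have hex : ∃ d, ∃ y, Fam' G y ∧ y ≠ 0 ∧ rk y = d := ⟨_, hmin.choose, hmin.choose_spec.1, hmin.choose_spec.2, rfl⟩
      obtain ⟨y, h1, h2, h3⟩ := Nat.find_spec hex
      exact ⟨y, h1, h2, fun z hz hz0 => h3 ▸ Nat.find_min' hex ⟨z, hz, hz0, rfl⟩⟩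
    obtain ⟨ι, hι, Gi, d1, d2, d3, d4, d5⟩ := ih hP.rest_pair fun y hy hy0 => by
      have := hP.rest_rank hy hy0 hs
      have := h s hs.1 hs.2.1
      omega
    obtain ⟨m, rep, hrep, hne, hall⟩ := hP.exists_reps
    set C := Subgroup.closure (restSet G) with hC
    set G0 := (⨆ A ∈ quadraticRootSubgroups G, A : Subgroup (LinearMap.GeneralLinearGroup k M)) with hG0
    have hcg : ∀ i, cgrp G (rep i) ≤ G0 := fun i => iSup₂_le fun y hy =>
      le_iSup₂ (f := fun A (_ : A ∈ quadraticRootSubgroups G) => A) (eg G y) (eg_mem_roots (Conn.minFam hy (hrep i)))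
    have hcen : ∀ i j, ⁅cgrp G (rep i), Gi j⁆ = ⊥ := fun i j => commutator_eq_bot_of_commute fun a ha b hb =>
      (Subgroup.mem_centralizer_iff.1 (hP.rest_centralizes ((d1 j).1 hb)) a (hcg i ha))
    have hQC : quadraticElements C ⊆ quadraticElements G := fun σ hσ => by
      obtain ⟨h1, h0⟩ := mem_quadraticElements.1 hσ
      exact mem_quadraticElements.2 ⟨⟨h1.1, fun c => hP.rest_le (h1.2 c)⟩, h0⟩
    refine ⟨Fin m ⊕ ι, inferInstance, Sum.elim (fun i => cgrp G (rep i)) Gi, ?_, ?_, ?_, ?_, ?_⟩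
    · rintro (i | j)
      · exact ⟨cgrp_le (hrep i), fun g hg => hP.cgrp_normal (hrep i) hg⟩
      · refine ⟨(d1 j).1.trans hP.rest_le, fun g hg => ?_⟩
        have hn : G ≤ Subgroup.normalizer (Gi j : Set (LinearMap.GeneralLinearGroup k M)) := by
          refine hP.gen_le.trans (sup_le (fun a ha => ?_) fun a ha => mem_normalizer_iff_conjBy.2 ((d1 j).2 a ha))
          refine mem_normalizer_iff_conjBy.2 (centralizer_conjBy ?_ le_rfl)
          exact Subgroup.le_centralizer_iff.1 ((d1 j).1.trans hP.rest_centralizes) ha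
        exact mem_normalizer_iff_conjBy.1 (hn hg)
    · rintro (i | i) (j | j) hij
      · exact hP.cgrp_commute (hrep i) (hrep j) (hne i j fun e => hij (by rw [e]))
      · exact hcen i j
      · rw [Sum.elim_inr, Sum.elim_inl, Subgroup.commutator_comm]; exact hcen j i
      · exact d2 i j fun e => hij (by rw [e])
    · refine le_antisymm (iSup_le fun i => ?_) (hP.gen_le.trans (sup_le (iSup₂_le fun A hA => ?_) ?_))
      · rcases i with i | j
        · exact cgrp_le (hrep i)
        · exact (d1 j).1.trans hP.rest_le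
      · obtain ⟨t, ht, rfl⟩ := exists_of_root hA
        obtain ⟨i, hi⟩ := hall t ht
        exact le_trans (eg_le_cgrp hi) (le_iSup (Sum.elim (fun i => cgrp G (rep i)) Gi) (Sum.inl i))
      · refine le_of_eq_of_le d3.symm ?_
        exact iSup_le fun j => le_iSup (Sum.elim (fun i => cgrp G (rep i)) Gi) (Sum.inr j)
    · rintro (i | j)
      · refine ⟨hP.cgrp_quasisimple (hrep i), le_antisymm ((Subgroup.closure_le _).2 fun _ h => h.2) ?_⟩
        refine iSup₂_le fun y hy g hg => ?_
        obtain ⟨a, ha, rfl⟩ := (mem_eg (Conn.minFam hy (hrep i)).1.1).1 hg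
        rcases eq_or_ne a 0 with rfl | ha0
        · rw [ex_zero]; exact one_mem _
        exact Subgroup.subset_closure ⟨ex_mem_quadraticElements ha.1 ha0,
          eg_le_cgrp hy (ex_mem_eg (Conn.minFam hy (hrep i)).1.1 ha)⟩
      · refine ⟨(d4 j).1, le_antisymm ((Subgroup.closure_le _).2 fun _ h => h.2) ?_⟩
        conv_lhs => rw [Sum.elim_inr, ← (d4 j).2]
        exact Subgroup.closure_mono fun _ h => ⟨hQC h.1, h.2⟩
    · intro σ hσ
      obtain ⟨h1, h0⟩ := mem_quadraticElements.1 hσ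
      rcases hP.dichotomy (rk ((σ : Module.End k M) - 1)) le_rfl h1 with hc | ⟨x, hx, hc⟩
      · have hσC : σ ∈ quadraticElements C := by
          refine mem_quadraticElements.2 ⟨⟨h1.1, fun c => ?_⟩, h0⟩
          rcases eq_or_ne c 0 with rfl | hc0
          · simp [one_mem]
          refine Subgroup.subset_closure ⟨ex_mem_quadraticElements (h1.smul c) (smul_ne_zero hc0 h0), fun t ht => ?_⟩
          rw [ex_val (smul_sq h1.1 c), add_sub_cancel_left, smul_mul_assoc, hc t ht, mul_smul_comm]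
        obtain ⟨j, hj⟩ := Set.mem_iUnion.1 (d5 hσC)
        exact Set.mem_iUnion.2 ⟨Sum.inr j, hj⟩
      · obtain ⟨i, hi⟩ := hall x hx
        have h' := hc 1
        rw [one_smul, ex_sub_one h1.1] at h'
        exact Set.mem_iUnion.2 ⟨Sum.inl i, (iSup₂_le fun z hz => eg_le_cgrp (hi.trans hz) : cgrp G x ≤ cgrp G (rep i)) h'⟩

end Cfsg.Agent.H92.QP
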