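import Cfsg.Prelude.Def_RootSubgroups

/-! Quadratically acting operators with scalar families in a linear group. -/

set_option autoImplicit false

namespace Cfsg.Agent.H92.QP

open LinearMap

variable {k : Type*} [Field k] {M : Type*} [AddCommGroup M] [Module k M]


open Classical in
/-- The transformation `1 + x` for an operator of square zero. -/
noncomputable def ex (x : Module.End k M) : (LinearMap.GeneralLinearGroup k M) :=
  if h : x * x = 0 then
    ⟨1 + x, 1 - x, by rw [show (1 + x) * (1 - x) = 1 - x * x by noncomm_ring, h, sub_zero],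
      by rw [show (1 - x) * (1 + x) = 1 - x * x by noncomm_ring, h, sub_zero]⟩
  else 1

lemma ex_val {x : Module.End k M} (h : x * x = 0) : (ex x : Module.End k M) = 1 + x := by
  simp only [ex, dif_pos h]

@[simp] lemma ex_zero : ex (0 : Module.End k M) = (1 : (LinearMap.GeneralLinearGroup k M)) := by
  apply Units.ext
  rw [ex_val (by simp), add_zero]
  rfl

lemma smul_sq {x : Module.End k M} (h : x * x = 0) (c : k) : (c • x) * (c • x) = 0 := by
  rw [smul_mul_assoc, mul_smul_comm, h, smul_zero, smul_zero]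

lemma add_sq {x y : Module.End k M} (hx : x * x = 0) (hy : y * y = 0) (hxy : x * y = 0) (hyx : y * x = 0) :
    (x + y) * (x + y) = 0 := by
  simp [add_mul, mul_add, hx, hy, hxy, hyx]

lemma ex_add {x y : Module.End k M} (hx : x * x = 0) (hy : y * y = 0) (hxy : x * y = 0) (hyx : y * x = 0) :
    ex (x + y) = ex x * ex y := by
  apply Units.ext
  rw [Units.val_mul, ex_val (add_sq hx hy hxy hyx), ex_val hx, ex_val hy, mul_add, mul_one, add_mul, one_mul,
    hxy, add_zero, add_assoc]

lemma ex_inv {x : Module.End k M} (hx : x * x = 0) : (ex x)⁻¹ = ex (-x) := by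
  apply Units.ext
  rw [ex_val (by simpa using hx), ← sub_eq_add_neg]
  simp only [ex, dif_pos hx, Units.inv_mk]

lemma ex_inj {x y : Module.End k M} (hx : x * x = 0) (hy : y * y = 0) (h : ex x = ex y) : x = y := by
  have := congrArg (fun g : (LinearMap.GeneralLinearGroup k M) => (g : Module.End k M)) h
  simp only [ex_val hx, ex_val hy] at this
  exact add_left_cancel this

/-- Conjugation of an operator by an invertible one. -/
def conjEnd (g : (LinearMap.GeneralLinearGroup k M)) (x : Module.End k M) : Module.End k M := (g : Module.End k M) * x * (g⁻¹ : (LinearMap.GeneralLinearGroup k M))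

lemma conjEnd_mul (g : (LinearMap.GeneralLinearGroup k M)) (x y : Module.End k M) : conjEnd g x * conjEnd g y = conjEnd g (x * y) := by
  simp [conjEnd, mul_assoc]

lemma conjEnd_smul (g : (LinearMap.GeneralLinearGroup k M)) (c : k) (x : Module.End k M) : conjEnd g (c • x) = c • conjEnd g x := by
  simp [conjEnd, mul_assoc]

lemma conjEnd_zero (g : (LinearMap.GeneralLinearGroup k M)) : conjEnd g (0 : Module.End k M) = 0 := by simp [conjEnd]

lemma conj_ex (g : (LinearMap.GeneralLinearGroup k M)) {x : Module.End k M} (h : x * x = 0) : g * ex x * g⁻¹ = ex (conjEnd g x) := by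
  apply Units.ext
  rw [ex_val (by rw [conjEnd_mul, h, conjEnd_zero]), Units.val_mul, Units.val_mul, ex_val h]
  simp [conjEnd, mul_add, add_mul]

lemma conjEnd_ex {t : Module.End k M} (ht : t * t = 0) (b : k) (s : Module.End k M) :
    conjEnd (ex (b • t)) s = s + b • (t * s - s * t) - (b * b) • (t * s * t) := by
  rw [conjEnd, ex_inv (smul_sq ht b), ex_val (smul_sq ht b), ex_val (by simpa using smul_sq ht b)]
  simp only [add_mul, mul_add, one_mul, mul_one, smul_mul_assoc, mul_neg, mul_smul_comm, smul_smul, mul_assoc, smul_add,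
    smul_sub]
  abel

variable (G : Subgroup (LinearMap.GeneralLinearGroup k M))

/-- A square zero operator whose scalar family lies in the group. -/
def Fam' (x : Module.End k M) : Prop := x * x = 0 ∧ ∀ c : k, ex (c • x) ∈ G

variable {G}

lemma Fam'.sq {x : Module.End k M} (h : Fam' G x) : x * x = 0 := h.1

lemma Fam'.smul {x : Module.End k M} (h : Fam' G x) (c : k) : Fam' G (c • x) :=
  ⟨smul_sq h.1 c, fun d => by rw [smul_smul]; exact h.2 _⟩

lemma Fam'.neg {x : Module.End k M} (h : Fam' G x) : Fam' G (-x) := by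
  simpa using h.smul (-1)

lemma Fam'.zero : Fam' G (0 : Module.End k M) := ⟨by simp, fun c => by simp [one_mem]⟩

lemma Fam'.add {x y : Module.End k M} (hx : Fam' G x) (hy : Fam' G y) (hxy : x * y = 0) (hyx : y * x = 0) :
    Fam' G (x + y) := by
  refine ⟨add_sq hx.1 hy.1 hxy hyx, fun c => ?_⟩
  rw [smul_add, ex_add (smul_sq hx.1 c) (smul_sq hy.1 c) (by simp [smul_mul_assoc, mul_smul_comm, hxy])
    (by simp [smul_mul_assoc, mul_smul_comm, hyx])]
  exact mul_mem (hx.2 c) (hy.2 c)

lemma Fam'.conj {x : Module.End k M} (h : Fam' G x) {g : (LinearMap.GeneralLinearGroup k M)} (hg : g ∈ G) : Fam' G (conjEnd g x) := by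
  refine ⟨by rw [conjEnd_mul, h.1, conjEnd_zero], fun c => ?_⟩
  rw [← conjEnd_smul, ← conj_ex g (smul_sq h.1 c)]
  exact mul_mem (mul_mem hg (h.2 c)) (inv_mem hg)

lemma Fam'.conj_ex {x t : Module.End k M} (h : Fam' G x) (ht : Fam' G t) (b : k) :
    Fam' G (x + b • (t * x - x * t) - (b * b) • (t * x * t)) := by
  rw [← conjEnd_ex ht.1 b x]; exact h.conj (ht.2 b)

/-- Commutators of two class two families. -/
lemma Fam'.bracket {s t : Module.End k M} (hs : Fam' G s) (ht : Fam' G t) (h1 : s * t * s = 0)
    (h2 : t * s * t = 0) : Fam' G (s * t - t * s) := by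
  have a1 : s * (t * s) = 0 := by rw [← mul_assoc, h1]
  have a2 : t * (s * t) = 0 := by rw [← mul_assoc, h2]
  have key : (s * t - t * s) * (s * t - t * s) = 0 := by
    simp only [sub_mul, mul_sub, ← mul_assoc]
    rw [h1, h2, mul_assoc t s s, hs.1, mul_assoc s t t, ht.1]
    simp
  refine ⟨key, fun c => ?_⟩
  have e : ex (c • (s * t - t * s)) = ex (c • s) * ex t * (ex (c • s))⁻¹ * (ex t)⁻¹ := by
    apply Units.ext
    have hv : (ex (c • s) * ex t * (ex (c • s))⁻¹ : LinearMap.GeneralLinearGroup k M) = ex (conjEnd (ex (c • s)) t) :=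
      QP.conj_ex _ ht.1
    have hc2 : conjEnd (ex (c • s)) t * conjEnd (ex (c • s)) t = 0 := by rw [conjEnd_mul, ht.1, conjEnd_zero]
    have hn : -t * -t = 0 := by rw [neg_mul_neg, ht.1]
    rw [hv, Units.val_mul, ex_inv ht.1, ex_val (smul_sq key c), ex_val hn, ex_val hc2, conjEnd_ex hs.1]
    simp only [h1, smul_zero, sub_zero, add_mul, mul_add, one_mul, mul_one, mul_neg, smul_mul_assoc,
      ht.1, neg_zero, sub_mul, h2, mul_assoc s t t, mul_zero, sub_zero, zero_add]
    abel
  rw [e]
  have ht1 : ex t ∈ G := by simpa using ht.2 1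
  exact mul_mem (mul_mem (mul_mem (hs.2 c) ht1) (inv_mem (hs.2 c))) (inv_mem ht1)

/-- The rank of an operator. -/
noncomputable def rk (x : Module.End k M) : ℕ := Module.finrank k (LinearMap.range x)

variable (G) in
/-- A non-zero family of minimal rank. -/
def MinFam (x : Module.End k M) : Prop :=
  Fam' G x ∧ x ≠ 0 ∧ ∀ y : Module.End k M, Fam' G y → y ≠ 0 → rk x ≤ rk y

variable [FiniteDimensional k M]

lemma rk_mul_le_left (x y : Module.End k M) : rk (x * y) ≤ rk x :=
  Submodule.finrank_mono (LinearMap.range_comp_le_range y x)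

lemma rk_mul_le_right (x y : Module.End k M) : rk (x * y) ≤ rk y := by
  rw [rk, rk, Module.End.mul_eq_comp, LinearMap.range_comp]
  exact Submodule.finrank_map_le x _

lemma rk_conj (g : (LinearMap.GeneralLinearGroup k M)) (x : Module.End k M) : rk (conjEnd g x) = rk x := by
  refine le_antisymm ((rk_mul_le_left _ _).trans (rk_mul_le_right _ _)) ?_
  have : x = conjEnd g⁻¹ (conjEnd g x) := by simp [conjEnd, mul_assoc]
  nth_rw 1 [this]
  exact (rk_mul_le_left _ _).trans (rk_mul_le_right _ _)

lemma MinFam.conj {x : Module.End k M} (h : MinFam G x) {g : (LinearMap.GeneralLinearGroup k M)} (hg : g ∈ G) :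
    MinFam G (conjEnd g x) := by
  refine ⟨h.1.conj hg, fun e => h.2.1 ?_, fun y hy hy0 => by rw [rk_conj]; exact h.2.2 y hy hy0⟩
  have := congrArg (conjEnd g⁻¹) e
  simpa [conjEnd, mul_assoc] using this

lemma MinFam.range_eq {x y : Module.End k M} (h : MinFam G x) (hy : Fam' G y) (hy0 : y ≠ 0)
    (hle : LinearMap.range y ≤ LinearMap.range x) : LinearMap.range y = LinearMap.range x :=
  Submodule.eq_of_le_of_finrank_le hle (h.2.2 y hy hy0)

lemma MinFam.ker_eq {x y : Module.End k M} (h : MinFam G x) (hy : Fam' G y) (hy0 : y ≠ 0)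
    (hle : LinearMap.ker x ≤ LinearMap.ker y) : LinearMap.ker x = LinearMap.ker y := by
  refine Submodule.eq_of_le_of_finrank_le hle ?_
  have a := LinearMap.finrank_range_add_finrank_ker x
  have b := LinearMap.finrank_range_add_finrank_ker y
  have c := h.2.2 y hy hy0
  simp only [rk] at c
  omega

lemma MinFam.of_le {x y : Module.End k M} (h : MinFam G x) (hy : Fam' G y) (hy0 : y ≠ 0) (hle : rk y ≤ rk x) :
    MinFam G y := ⟨hy, hy0, fun w hw hw0 => hle.trans (h.2.2 w hw hw0)⟩

/-- If a nilpotent product closes up, a minimal family absorbs it. -/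
lemma sts_eq_zero_of_pow (h2 : (2 : k) ≠ 0) : ∀ (n : ℕ) {s t : Module.End k M}, MinFam G s → Fam' G t →
    (s * t + t * s) ^ n = 0 → s * t * s = 0 := by
  intro n
  induction n using Nat.strong_induction_on with
  | _ n ih =>
  intro s t hs ht hz
  have hss := hs.1.1
  have htt := ht.1
  rcases Nat.lt_or_ge n 2 with hn | hn
  · have h0 : s * t + t * s = 0 := by
      interval_cases n
      · have : (1 : Module.End k M) = 0 := by simpa using hz
        rw [← mul_one (s * t + t * s), this, mul_zero]
      · simpa using hz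
    have : s * t * s = -(t * (s * s)) := by
      rw [← mul_assoc, eq_neg_iff_add_eq_zero, ← add_mul, h0, zero_mul]
    rw [this, hss, mul_zero, neg_zero]
  -- the auxiliary pairs
  set P := s * t * s with hP
  set Q := s * t * s * t - t * s * t * s with hQ
  have hsq : (s * t + t * s) * (s * t + t * s) = s * t * s * t + t * s * t * s := by
    simp only [add_mul, mul_add, mul_assoc, ← mul_assoc t t, ← mul_assoc s s, hss, htt, zero_mul, mul_zero,
      add_zero, zero_add]
  have step : ∀ b : k, b ≠ 0 → s * (s + b • (t * s - s * t) - (b * b) • (t * s * t)) * s = 0 ∧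
      (s + b • (t * s - s * t) - (b * b) • (t * s * t)) * s *
        (s + b • (t * s - s * t) - (b * b) • (t * s * t)) = 0 := by
    intro b _
    set s' := s + b • (t * s - s * t) - (b * b) • (t * s * t) with hs'
    have hs'M : MinFam G s' := by rw [hs', ← conjEnd_ex htt b s]; exact hs.conj (ht.2 b)
    have hz' : s * s' + s' * s = (-(b * b)) • ((s * t + t * s) * (s * t + t * s)) := by
      rw [hsq, hs']
      simp only [mul_add, add_mul, mul_sub, sub_mul, smul_mul_assoc, mul_smul_comm, hss, ← mul_assoc s s,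
        zero_mul, mul_assoc, mul_zero, smul_sub, smul_zero, neg_smul, smul_add]
      simp only [← mul_assoc]
      abel
    have hpow : (s * s' + s' * s) ^ ((n + 1) / 2) = 0 := by
      rw [hz', smul_pow, ← pow_two (s * t + t * s), ← pow_mul, pow_eq_zero_of_le (show n ≤ 2 * ((n + 1) / 2) by omega) hz, smul_zero]
    refine ⟨ih ((n + 1) / 2) (by omega) hs hs'M.1 hpow, ih ((n + 1) / 2) (by omega) hs'M hs.1 ?_⟩
    rw [add_comm]; exact hpow
  have h5 : s * t * s * t * s = 0 := by
    have := (step 1 one_ne_zero).1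
    simp only [mul_add, add_mul, mul_sub, sub_mul, hss, one_smul, mul_one, ← mul_assoc, zero_mul,
      mul_assoc _ s s, mul_zero, sub_zero, zero_sub, zero_add, add_zero, neg_eq_zero] at this
    exact this
  have comm : ∀ b : k, b ≠ 0 → Fam' G ((2 * b) • P - (b * b) • Q) := by
    intro b hb
    obtain ⟨e1, e2⟩ := step b hb
    have := hs.1.bracket (hs.1.conj_ex ht b) e1 e2
    convert this using 1
    rw [hP, hQ]
    simp only [mul_add, add_mul, mul_sub, sub_mul, smul_mul_assoc, mul_smul_comm, hss, ← mul_assoc,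
      zero_mul, mul_assoc _ s s, mul_zero, smul_zero, smul_sub, mul_smul, two_smul]
    abel
  have PP : P * P = 0 := by simp only [hP, mul_assoc, ← mul_assoc s s, hss, zero_mul, mul_zero]
  have PQ : P * Q = 0 := by
    simp only [hP, hQ, mul_sub, ← mul_assoc]
    rw [mul_assoc (s * t) s s, hss, mul_zero, h5]
    simp
  have QP : Q * P = 0 := by
    simp only [hP, hQ, sub_mul, ← mul_assoc]
    rw [h5, mul_assoc (t * s * t) s s, hss, mul_zero]
    simp
  have QQ : Q * Q = 0 := by
    simp only [hQ, mul_sub, sub_mul, ← mul_assoc]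
    rw [h5, mul_assoc (s * t * s) t t, htt, mul_zero, mul_assoc (t * s * t) s s, hss, mul_zero,
      show t * s * t * s * t * s = t * (s * t * s * t * s) by simp [mul_assoc], h5]
    simp
  have hPf : Fam' G P := by
    have h4 : (4 : k) ≠ 0 := by
      rw [show (4 : k) = 2 * 2 by norm_num]; exact mul_ne_zero h2 h2
    have mk : ∀ a b c d : k, (a • P - b • Q) * (c • P - d • Q) = 0 := by
      intro a b c d
      simp only [sub_mul, mul_sub, smul_mul_assoc, mul_smul_comm, PP, PQ, QP, QQ, smul_zero, sub_zero]
    have := ((comm 1 one_ne_zero).add ((comm (-1) (neg_ne_zero.2 one_ne_zero)).neg)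
      (by rw [mul_neg, mk, neg_zero]) (by rw [neg_mul, mk, neg_zero])).smul (4 : k)⁻¹
    convert this using 1
    rw [show (2 * 1 : k) • P - (1 * 1 : k) • Q + -((2 * -1 : k) • P - (-1 * -1 : k) • Q) = (4 : k) • P by
      simp only [mul_one, mul_neg, neg_mul, neg_neg, one_smul, neg_smul]
      rw [show (4 : k) = 2 + 2 by norm_num, add_smul]
      abel]
    rw [smul_smul, inv_mul_cancel₀ h4, one_smul]
  by_contra hP0
  have hr : LinearMap.range P = LinearMap.range s := hs.range_eq hPf hP0 (by
    rw [hP, mul_assoc]; exact LinearMap.range_comp_le_range _ s)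
  apply hP0
  have e : ∀ m, (s * t) (s m) = 0 := by
    intro m
    obtain ⟨m', hm'⟩ : s m ∈ LinearMap.range P := hr ▸ LinearMap.mem_range_self s m
    rw [← hm', hP]
    have := LinearMap.congr_fun h5 m'
    simpa [mul_assoc] using this
  ext m
  simpa [hP] using e m

/-- Two minimal families with nilpotent `st + ts` form a class two pair. -/
theorem nilp_pair (h2 : (2 : k) ≠ 0) {s t : Module.End k M} (hs : MinFam G s) (ht : Fam' G t)
    (hz : IsNilpotent (s * t + t * s)) : s * t * s = 0 := by
  obtain ⟨n, hn⟩ := hz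
  exact sts_eq_zero_of_pow h2 n hs ht hn

end Cfsg.Agent.H92.QP
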