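import Cfsg.Agent.H92.QP.Comp

/-! Arbitrary quadratic families: each lies in one component group or centralises all of them. -/

set_option autoImplicit false

namespace Cfsg.Agent.H92.QP

open Cfsg LinearMap Polynomial

variable {k : Type*} [Field k] {M : Type*} [AddCommGroup M] [Module k M]
  {G : Subgroup (LinearMap.GeneralLinearGroup k M)} [FiniteDimensional k M]

variable (hP : Pair G)
include hP

/-- The middle of a family with respect to a minimal one is again a family of small rank. -/
lemma Pair.middle {r s : Module.End k M} (hr : Fam' G r) (hs : MinFam G s) :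
    Fam' G (r * s * r) ∧ rk (r * s * r) ≤ rk s ∧ (r * s * r = 0 → s * r * s = 0) := by
  refine ⟨?_, (rk_mul_le_left _ _).trans (rk_mul_le_right _ _), fun h0 => ?_⟩
  · by_cases hz : IsNilpotent (s * r + r * s)
    · have h := nilp_pair hP.two hs hr hz
      set y := r * s - s * r with hy
      set w := r * s * r with hw
      have hss := hs.1.1
      have hrr := hr.1
      have e1 : s * y = 0 := by rw [hy, mul_sub, ← mul_assoc, h, ← mul_assoc, hss, zero_mul, sub_zero]
      have e2 : y * s = 0 := by rw [hy, sub_mul, mul_assoc r s s, hss, mul_zero, h, sub_zero]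
      have e3 : s * w = 0 := by rw [hw, ← mul_assoc, ← mul_assoc, h, zero_mul]
      have e4 : w * s = 0 := by rw [hw, mul_assoc (r * s) r s, mul_assoc r s, ← mul_assoc s r s, h, mul_zero]
      have e5 : y * w = 0 := by
        calc y * w = r * (s * r * s) * r - s * (r * r) * (s * r) := by rw [hy, hw]; simp only [sub_mul, mul_assoc]
          _ = 0 := by rw [h, hrr]; simp
      have e6 : w * y = 0 := by
        calc w * y = r * s * (r * r) * s - r * (s * r * s) * r := by rw [hy, hw]; simp only [mul_sub, mul_assoc]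
          _ = 0 := by rw [h, hrr]; simp
      have e7 : w * w = 0 := by
        calc w * w = r * s * (r * r) * (s * r) := by rw [hw]; simp only [mul_assoc]
          _ = 0 := by rw [hrr]; simp
      have e8 : y * y = 0 := by
        calc y * y = r * (s * r * s) - r * (s * s) * r - s * (r * r) * s + (s * r * s) * r := by
              rw [hy]; simp only [mul_sub, sub_mul, mul_assoc]; abel
          _ = 0 := by rw [h, hrr, hss]; simp
      have hb : ∀ b : k, Fam' G (s + b • y - (b * b) • w) := fun b => hs.1.conj_ex hr b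
      have hprod : ∀ a b : k, (s + a • y - (a * a) • w) * (s + b • y - (b * b) • w) = 0 := by
        intro a b
        simp only [sub_mul, add_mul, mul_sub, mul_add, smul_mul_assoc, mul_smul_comm, hss, e1, e2, e3, e4, e5, e6,
          e7, e8, smul_zero, sub_zero, add_zero]
      have h4 := (hb 1).add (hb (-1)) (hprod _ _) (hprod _ _)
      have h5 : Fam' G ((-2 : k) • s) := hs.1.smul _
      have hz1 : ∀ b : k, (s + b • y - (b * b) • w) * s = 0 := fun b => by
        simp only [sub_mul, add_mul, smul_mul_assoc, hss, e2, e4, smul_zero, sub_zero, add_zero]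
      have hz2 : ∀ b : k, s * (s + b • y - (b * b) • w) = 0 := fun b => by
        simp only [mul_sub, mul_add, mul_smul_comm, hss, e1, e3, smul_zero, sub_zero, add_zero]
      have h6 := (h4.add h5 (by rw [add_mul, mul_smul_comm, mul_smul_comm, hz1, hz1, smul_zero, add_zero])
        (by rw [mul_add, smul_mul_assoc, smul_mul_assoc, hz2, hz2, smul_zero, add_zero])).smul (-2 : k)⁻¹
      convert h6 using 1
      rw [show s + (1 : k) • y - (1 * 1 : k) • w + (s + (-1 : k) • y - (-1 * -1 : k) • w) + (-2 : k) • s = (-2 : k) • w by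
        simp only [neg_smul, one_smul, mul_one, neg_mul, mul_neg, neg_neg, two_smul]; abel]
      rw [smul_smul, inv_mul_cancel₀ (neg_ne_zero.2 hP.two), one_smul]
    · obtain ⟨ν, π, wi, e, P⟩ := exists_npair hP.two hP.three hs hr hz
      have hF := P.fit
      have h1 : hF.rho (AdjoinRoot.root ν) * hF.u = π * r := by
        rw [hF.rho_root, Fit.u, mul_assoc π, ← mul_assoc (s * r + r * s) wi, hF.inv, ← mul_assoc, hF.idem]
      have h := P.famU (AdjoinRoot.root ν * AdjoinRoot.root ν)
      rw [hF.rho_mul, mul_assoc, h1, hF.rho_root] at h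
      convert h using 1
      calc r * s * r = π * (r * s * r) := by
            rw [← mul_assoc π, ← mul_assoc π, hF.commute_pi_t.eq, mul_assoc r π s, P.pis]
        _ = π * (s * r + r * s) * (π * r) := by
            rw [← mul_assoc (π * _) π r, mul_assoc π _ π, ← hF.commute_pi_z.eq, ← mul_assoc π π, hF.idem,
              mul_assoc π (s * r + r * s) r, add_mul, mul_assoc s r r, hr.1, mul_zero, zero_add]
  · by_contra hne
    have hnn : ¬ IsNilpotent (s * r + r * s) := fun hz => hne (nilp_pair hP.two hs hr hz)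
    apply hnn
    refine ⟨2, ?_⟩
    have e : (s * r + r * s) ^ 2 = s * (r * s * r) + (r * s * r) * s := by
      rw [pow_two]
      calc _ = s * (r * s * r) + s * (r * r) * s + r * (s * s) * r + (r * s * r) * s := by
            simp only [add_mul, mul_add, mul_assoc]; abel
        _ = _ := by rw [hr.1, hs.1.1]; simp
    rw [e, h0]; simp

/-- A family centralises all members or has a member between its two subspaces. -/
lemma Pair.exists_inner {r : Module.End k M} (hr : Fam' G r) :
    (∀ s, MinFam G s → r * s = s * r) ∨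
      ∃ x, MinFam G x ∧ LinearMap.range x ≤ LinearMap.range r ∧ LinearMap.ker r ≤ LinearMap.ker x := by
  by_contra hcon
  push Not at hcon
  obtain ⟨⟨s, hs, hne⟩, hno⟩ := hcon
  have hrsr : ∀ s, MinFam G s → r * s * r = 0 ∧ s * r * s = 0 := by
    intro s hs
    obtain ⟨h1, h2, h3⟩ := hP.middle hr hs
    suffices h0 : r * s * r = 0 from ⟨h0, h3 h0⟩
    by_contra h0
    refine hno _ (hs.of_le h1 h0 h2) ?_ ?_
    · rw [mul_assoc]; exact LinearMap.range_comp_le_range _ r
    · exact LinearMap.ker_le_ker_comp r (r * s)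
  obtain ⟨a1, a2⟩ := hrsr s hs
  set y := brk s r with hy
  have hy0 : y ≠ 0 := fun e => hne (sub_eq_zero.1 e).symm
  have hym : MinFam G y := minFam_brk hs hr a2 a1 hy0
  have hrr := hr.1
  have ry : r * y = 0 := by rw [hy, brk, mul_sub, ← mul_assoc, a1, ← mul_assoc, hrr, zero_mul, sub_zero]
  have yr : y * r = 0 := by rw [hy, brk, sub_mul, mul_assoc s r r, hrr, mul_zero, a1, sub_zero]
  obtain ⟨t, ht, htn⟩ := hP.exists_partner hym
  obtain ⟨u, hu, hu0, h⟩ := htn.exists_sl2 hP.two hP.three hym ht
  have hum := ht.of_mem hu hu0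
  obtain ⟨b1, b2⟩ := hrsr u hum
  set r' := brk u r with hr'
  set r1 := y * u * r + r * (u * y) with hr1
  have hbr : brk y r' = r1 := by
    calc brk y r' = y * u * r - (y * r) * u - u * (r * y) + r * (u * y) := by
          rw [hr', brk, brk]; simp only [mul_sub, sub_mul, mul_assoc]; abel
      _ = r1 := by rw [yr, ry, hr1]; simp
  by_cases h10 : r1 = 0
  · apply hy0
    have hpp : y * u * (y * u) = y * u := by rw [← mul_assoc, h.sus]
    have e1 : y * u * r = 0 := by
      have h' := congrArg (fun z => y * u * z) h10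
      simp only [hr1, mul_add, mul_zero] at h'
      rw [← mul_assoc, hpp] at h'
      have : y * u * (r * (u * y)) = 0 := by
        rw [mul_assoc y u, ← mul_assoc r u y, ← mul_assoc u, ← mul_assoc u r u, b2, zero_mul, mul_zero]
      rwa [this, add_zero] at h'
    have e2 : r * (u * y) = 0 := by
      have h' := hr1 ▸ h10
      rwa [e1, zero_add] at h'
    calc y = y * u * y * (u * y) := by rw [h.sus, ← mul_assoc, h.sus]
      _ = y * u * (s * r - r * s) * (u * y) := congrArg (fun z => y * u * z * (u * y)) hy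
      _ = y * u * s * (r * (u * y)) - y * u * r * (s * (u * y)) := by
          simp only [mul_sub, sub_mul, mul_assoc]
      _ = 0 := by rw [e1, e2]; simp
  have hr'0 : r' ≠ 0 := fun e => h10 (by rw [← hbr, e]; simp [brk])
  have hr'm : MinFam G r' := minFam_brk hum hr b2 b1 hr'0
  have c1 : y * r' * y = 0 := by
    calc y * r' * y = y * u * (r * y) - (y * r) * u * y := by rw [hr', brk]; simp only [mul_sub, sub_mul, mul_assoc]
      _ = 0 := by rw [yr, ry]; simp
  have c2 : r' * y * r' = 0 := by
    calc r' * y * r' = u * (r * y) * (u * r) - u * (r * y) * (r * u) - r * (u * y * u) * r + r * u * (y * r) * u := by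
          rw [hr', brk]; simp only [mul_sub, sub_mul, mul_assoc]; abel
      _ = 0 := by rw [ry, yr, h.usu, b1]; simp
  have hm1 : MinFam G r1 := hbr ▸ minFam_brk hym hr'm.1 c1 c2 (hbr.symm ▸ h10)
  obtain ⟨v, hv, hvn⟩ := hP.exists_partner hm1
  apply hvn.symm hP.two hP.three hm1 hv
  have hconj : ∀ c : kˣ, v * conjEnd (h.torus hy0 c) r * v = 0 := by
    intro c
    have hg : h.torus hy0 c ∈ G := h.psi_mem hy0 _
    have := congrArg (conjEnd (h.torus hy0 c)) (hrsr _ (hv.conj (inv_mem hg))).2
    rwa [← conjEnd_mul, ← conjEnd_mul, conjEnd_conjEnd, mul_inv_cancel, conjEnd_one, conjEnd_zero] at this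
  obtain ⟨o, ho⟩ : ∃ o : Module.End k M, o = 1 - (y * u + u * y) := ⟨_, rfl⟩
  have t1 : ∀ z, u * y * (r * z) = 0 := fun z => by rw [mul_assoc, ← mul_assoc y r, yr, zero_mul, mul_zero]
  have t2 : ∀ z, z * r * (y * u) = 0 := fun z => by rw [mul_assoc, ← mul_assoc r y, ry, zero_mul, mul_zero]
  have t3 : y * u * r * (u * y) = 0 := by
    rw [mul_assoc y u r, mul_assoc y, ← mul_assoc (u * r) u y, b2, zero_mul, mul_zero]
  have hw : ∀ c : kˣ, conjEnd (h.torus hy0 c) r = (c : k) • r1 + o * r * o := by
    intro c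
    rw [h.conj_torus hy0 c r, ← ho]
    have p1 : y * u * r * o = y * u * r := by
      rw [ho, mul_sub, mul_one, mul_add, t2, t3, add_zero, sub_zero]
    have p2 : o * r * (u * y) = r * (u * y) := by
      rw [ho, sub_mul, one_mul, sub_mul, add_mul, add_mul, t3, zero_add, mul_assoc (u * y), t1, sub_zero]
    simp only [mul_assoc (u * y) r, t1, t2, t3, p1, p2, smul_zero, add_zero, zero_add]
    rw [← hr1]
  have d1 := hconj 1
  have d2 := hconj (-1)
  rw [hw] at d1 d2
  simp only [Units.val_one, one_smul, Units.val_neg, neg_smul, mul_add, add_mul, mul_neg, neg_mul] at d1 d2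
  have : (2 : k) • (v * r1 * v) = 0 := by linear_combination (norm := module) d1 - d2
  exact (smul_eq_zero.1 this).resolve_left hP.two

/-- Splitting a family along an inner member. -/
lemma Pair.split {r x : Module.End k M} (hr : Fam' G r) (hx : MinFam G x)
    (h1 : LinearMap.range x ≤ LinearMap.range r) (h2 : LinearMap.ker r ≤ LinearMap.ker x) :
    ∃ a b, r = a + b ∧ a * b = 0 ∧ b * a = 0 ∧ a * a = 0 ∧ Fam' G b ∧ (∀ c : k, ex (c • a) ∈ cgrp G x) ∧
      rk b < rk r ∧ b * x = 0 := by
  have rx : r * x = 0 := mul_eq_zero_iff_range_le_ker.2 (h1.trans (range_le_ker_of_sq hr.1))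
  have xr : x * r = 0 := mul_eq_zero_iff_range_le_ker.2 ((range_le_ker_of_sq hr.1).trans h2)
  obtain ⟨t, ht, htn⟩ := hP.exists_partner hx
  obtain ⟨u, hu, hu0, h⟩ := htn.exists_sl2 hP.two hP.three hx ht
  have hx0 := hx.2.1
  obtain ⟨o, ho⟩ : ∃ o : Module.End k M, o = 1 - (x * u + u * x) := ⟨_, rfl⟩
  have t1 : ∀ z, u * x * (r * z) = 0 := fun z => by rw [mul_assoc, ← mul_assoc x r, xr, zero_mul, mul_zero]
  have t2 : ∀ z, z * r * (x * u) = 0 := fun z => by rw [mul_assoc, ← mul_assoc r x, rx, zero_mul, mul_zero]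
  have ox : o * x = 0 := ho ▸ h.e0_s
  have xo : x * o = 0 := ho ▸ h.s_e0
  have ror : r * o * r = 0 := by
    rw [ho, mul_sub, mul_one, sub_mul, hr.1, zero_sub, mul_add, add_mul, ← mul_assoc r x u, rx, zero_mul, zero_mul,
      zero_add, mul_assoc r (u * x) r, mul_assoc u x r, xr, mul_zero, mul_zero, neg_zero]
  set r2 := x * u * r * (u * x) with hr2
  set r1 := x * u * r * o + o * r * (u * x) with hr1
  set r0 := o * r * o with hr0
  have hconj : ∀ c : kˣ, conjEnd (h.torus hx0 c) r = ((c : k) * (c : k)) • r2 + (c : k) • r1 + r0 := by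
    intro c
    rw [h.conj_torus hx0 c r, ← ho]
    simp only [mul_assoc (u * x) r, t1, t2, smul_zero, add_zero, zero_add]
    rfl
  have hsum : r = r2 + r1 + r0 := by
    have hx' := hconj 1
    rw [show h.torus hx0 1 = 1 by apply Units.ext; rw [h.torus_val]; simp, conjEnd_one] at hx'
    simpa using hx'
  have qp : u * x * (x * u) = 0 := by rw [mul_assoc, ← mul_assoc x x, hx.1.1, zero_mul, mul_zero]
  have qo : u * x * o = 0 := by rw [mul_assoc, xo, mul_zero]
  have op : o * (x * u) = 0 := by rw [← mul_assoc, ox, zero_mul]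
  have oo : o * o = o := by
    rw [ho, sub_mul, one_mul, mul_sub, mul_one, h.idem, sub_self, sub_zero]
  have gen1 : ∀ z w v v' : Module.End k M, v * v' = 0 → z * r * v * (v' * r * w) = 0 := fun z w v v' e => by
    calc z * r * v * (v' * r * w) = z * r * (v * v') * r * w := by simp only [mul_assoc]
      _ = 0 := by rw [e]; simp
  have gen2 : ∀ z w : Module.End k M, z * r * o * (o * r * w) = 0 := fun z w => by
    calc z * r * o * (o * r * w) = z * (r * (o * o) * r) * w := by simp only [mul_assoc]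
      _ = 0 := by rw [oo, ror]; simp
  have p22 : r2 * r2 = 0 := gen1 _ _ _ _ qp
  have p21 : r2 * r1 = 0 := by rw [hr2, hr1, mul_add, gen1 _ _ _ _ qp, gen1 _ _ _ _ qo, add_zero]
  have p20 : r2 * r0 = 0 := gen1 _ _ _ _ qo
  have p12 : r1 * r2 = 0 := by rw [hr2, hr1, add_mul, gen1 _ _ _ _ op, gen1 _ _ _ _ qp, add_zero]
  have p11 : r1 * r1 = 0 := by
    rw [hr1, add_mul, mul_add, mul_add, gen1 _ _ _ _ op, gen1 _ _ _ _ qp, gen1 _ _ _ _ qo, gen2]
    simp
  have p10 : r1 * r0 = 0 := by rw [hr1, hr0, add_mul, gen2, gen1 _ _ _ _ qo, add_zero]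
  have p02 : r0 * r2 = 0 := gen1 _ _ _ _ op
  have p01 : r0 * r1 = 0 := by rw [hr1, hr0, mul_add, gen1 _ _ _ _ op, gen2, add_zero]
  have p00 : r0 * r0 = 0 := gen2 _ _
  have hprod : ∀ a b c a' b' c' : k, (a • r2 + b • r1 + c • r0) * (a' • r2 + b' • r1 + c' • r0) = 0 := by
    intro a b c a' b' c'
    simp only [add_mul, mul_add, smul_mul_assoc, mul_smul_comm, p22, p21, p20, p12, p11, p10, p02, p01, p00,
      smul_zero, add_zero]
  have hT : ∀ c : kˣ, Fam' G (((c : k) * (c : k)) • r2 + (c : k) • r1 + (1 : k) • r0) := fun c => by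
    rw [one_smul, ← hconj c]; exact hr.conj (h.psi_mem hx0 _)
  have comb : ∀ {a b c a' b' c' : k}, Fam' G (a • r2 + b • r1 + c • r0) → Fam' G (a' • r2 + b' • r1 + c' • r0) →
      ∀ (m n : k) {A B C : k}, m * a + n * a' = A → m * b + n * b' = B → m * c + n * c' = C →
      Fam' G (A • r2 + B • r1 + C • r0) := by
    rintro a b c a' b' c' H H' m n _ _ _ rfl rfl rfl
    have := (H.smul m).add (H'.smul n) (by rw [smul_mul_assoc, mul_smul_comm, hprod, smul_zero, smul_zero])
      (by rw [smul_mul_assoc, mul_smul_comm, hprod, smul_zero, smul_zero])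
    convert this using 1
    module
  obtain ⟨a, ha0, ha1, ha2, -, -⟩ := exists_four hP.two hP.three
  have haa : a * a - 1 ≠ 0 := sub_ne_zero.2 fun e => (mul_self_eq_one_iff.1 e).elim ha1 ha2
  have half : (2 : k)⁻¹ + (2 : k)⁻¹ = 1 := by rw [← two_mul, mul_inv_cancel₀ hP.two]
  have hA : Fam' G ((1 : k) • r2 + (0 : k) • r1 + (1 : k) • r0) :=
    comb (hT 1) (hT (-1)) (2 : k)⁻¹ (2 : k)⁻¹ (by simpa using half) (by simp) (by simpa using half)
  have hB : Fam' G ((a * a) • r2 + (0 : k) • r1 + (1 : k) • r0) :=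
    comb (hT (Units.mk0 a ha0)) (hT (-Units.mk0 a ha0)) (2 : k)⁻¹ (2 : k)⁻¹
      (by simp only [Units.val_neg, Units.val_mk0, neg_mul_neg]; rw [← add_mul, half, one_mul])
      (by simp) (by simpa using half)
  have h22 : Fam' G ((1 : k) • r2 + (0 : k) • r1 + (0 : k) • r0) :=
    comb hA hB (-(a * a - 1)⁻¹) ((a * a - 1)⁻¹)
      (by rw [show -(a * a - 1)⁻¹ * 1 + (a * a - 1)⁻¹ * (a * a) = (a * a - 1) * (a * a - 1)⁻¹ by ring,
        mul_inv_cancel₀ haa]) (by simp) (by ring)
  have hF0 : Fam' G r0 := by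
    have := comb hA h22 1 (-1) (A := 0) (B := 0) (C := 1) (by ring) (by ring) (by ring)
    simpa using this
  have hmem2 : ∀ c : k, ex (c • r2) ∈ cgrp G x := fun c => by
    have h22' : Fam' G r2 := by simpa using h22
    have hm : Mem G x r2 := by
      refine ⟨h22', ?_, ?_⟩
      · rw [hr2, mul_assoc x u, mul_assoc x]; exact LinearMap.range_comp_le_range _ x
      · rw [hr2, ← mul_assoc (x * u * r) u x]; exact LinearMap.ker_le_ker_comp x _
    exact eg_le_cgrp Relation.ReflTransGen.refl (ex_mem_eg hx.1.1 (hm.smul c))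
  have hH : ∀ c : kˣ, h.torus hx0 c ∈ cgrp G x := fun c => h.psi_mem_of hx0
    (fun d => eg_le_cgrp Relation.ReflTransGen.refl (ex_mem_eg hx.1.1 ((mem_self hx.1).smul d)))
    (fun d => eg_le_cgrp (Relation.ReflTransGen.single ⟨hx, ht, htn⟩) (ex_mem_eg ht.1.1 (hu.smul d))) _
  have hmem1 : ∀ c : k, ex (c • r1) ∈ cgrp G x := by
    intro c
    set d := c * (a - 1)⁻¹ with hd
    have hg : ex (d • r) ∈ G := hr.2 d
    have h3 : h.torus hx0 (Units.mk0 a ha0) * ex (d • r) * (h.torus hx0 (Units.mk0 a ha0))⁻¹ * (ex (d • r))⁻¹ ∈ cgrp G x := by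
      have hn := hP.cgrp_normal hx hg
      have h4 : ex (d • r) * (h.torus hx0 (Units.mk0 a ha0))⁻¹ * (ex (d • r))⁻¹ ∈ cgrp G x :=
        hn ▸ conj_mem_conjBy (inv_mem (hH _)) _
      simpa [mul_assoc] using mul_mem (hH (Units.mk0 a ha0)) h4
    rw [conj_ex _ (smul_sq hr.1 d), conjEnd_smul, hconj, ex_inv (smul_sq hr.1 d), hsum] at h3
    simp only [Units.val_mk0, smul_add, smul_smul, neg_add_rev] at h3
    have key : ∀ a b c a' b' c' : k, (a • r2 + b • r1 + c • r0) * (a' • r2 + b' • r1 + c' • r0) = 0 := hprod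
    rw [show -(d • r0) + (-(d • r1) + -(d • r2)) = (-d) • r2 + (-d) • r1 + (-d) • r0 by simp only [neg_smul]; abel,
      ← ex_add (hprod _ _ _ _ _ _) (hprod _ _ _ _ _ _) (hprod _ _ _ _ _ _) (hprod _ _ _ _ _ _)] at h3
    have e : (d * (a * a)) • r2 + (d * a) • r1 + d • r0 + ((-d) • r2 + (-d) • r1 + (-d) • r0) =
        (d * (a * a - 1)) • r2 + c • r1 := by
      have hcd : c = d * (a - 1) := by rw [hd, inv_mul_cancel_right₀ (sub_ne_zero.2 ha1)]
      rw [hcd]
      module
    rw [e, ex_add (smul_sq p22 _) (smul_sq p11 _) (by simp [smul_mul_assoc, mul_smul_comm, p21])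
      (by simp [smul_mul_assoc, mul_smul_comm, p12])] at h3
    have := mul_mem (inv_mem (hmem2 (d * (a * a - 1)))) h3
    rwa [inv_mul_cancel_left] at this
  refine ⟨r2 + r1, r0, hsum, by rw [add_mul, p20, p10, add_zero], by rw [mul_add, p02, p01, add_zero], ?_, hF0,
    fun c => ?_, ?_, ?_⟩
  · simp only [add_mul, mul_add, p22, p21, p12, p11, add_zero]
  · rw [smul_add, ex_add (smul_sq p22 c) (smul_sq p11 c) (by simp [smul_mul_assoc, mul_smul_comm, p21])
      (by simp [smul_mul_assoc, mul_smul_comm, p12])]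
    exact mul_mem (hmem2 c) (hmem1 c)
  · have e1 := rk_mul_add o r
    have e2 : LinearMap.range x ≤ LinearMap.range r ⊓ LinearMap.ker o :=
      le_inf h1 (mul_eq_zero_iff_range_le_ker.1 ox)
    have e3 := Submodule.finrank_mono e2
    have e4 : 0 < Module.finrank k (LinearMap.range x) := Nat.pos_of_ne_zero fun e =>
      hx0 (LinearMap.range_eq_bot.1 (Submodule.finrank_eq_zero.1 e))
    have e5 : rk r0 ≤ rk (o * r) := rk_mul_le_left _ _
    simp only [rk] at *
    omega
  · rw [hr0, mul_assoc, ox, mul_zero]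

/-- Each family centralises all members or lies in one component group. -/
lemma Pair.dichotomy : ∀ (n : ℕ) {r : Module.End k M}, rk r ≤ n → Fam' G r →
    (∀ s, MinFam G s → r * s = s * r) ∨ ∃ x, MinFam G x ∧ ∀ c : k, ex (c • r) ∈ cgrp G x := by
  intro n
  induction n with
  | zero =>
    intro r h _
    left
    have : r = 0 := LinearMap.range_eq_bot.1 (Submodule.finrank_eq_zero.1 (Nat.le_zero.1 h))
    intro s _; simp [this]
  | succ n ih =>
    intro r hn hr
    rcases hP.exists_inner hr with h | ⟨x, hx, h1, h2⟩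
    · exact Or.inl h
    obtain ⟨a, b, rfl, hab, hba, haa, hb, hmem, hlt, hbx⟩ := hP.split hr hx h1 h2
    refine Or.inr ⟨x, hx, fun c => ?_⟩
    rw [smul_add, ex_add (smul_sq haa c) (smul_sq hb.1 c) (by simp [smul_mul_assoc, mul_smul_comm, hab])
      (by simp [smul_mul_assoc, mul_smul_comm, hba])]
    refine mul_mem (hmem c) ?_
    by_cases hb0 : b = 0
    · simp [hb0, one_mem]
    have hcomm : (∀ c : k, ex (c • b) ∈ cgrp G x) ∨ ∀ y, Conn G x y → b * y = y * b := by
      rcases ih (show rk b ≤ n by omega) hb with h | ⟨x2, hx2, h⟩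
      · exact Or.inr fun y hy => h y (hy.minFam hx)
      by_cases hc : Conn G x x2
      · exact Or.inl fun c => (iSup₂_le fun z hz => eg_le_cgrp (hc.trans hz) : cgrp G x2 ≤ cgrp G x) (h c)
      refine Or.inr fun y hy => ?_
      have hym := hy.minFam hx
      have h0 := hP.cgrp_commute hx hx2 hc
      have he := commute_of_commutator_eq_bot h0 (eg_le_cgrp hy (ex_mem_eg hym.1.1 (mem_self hym.1))) (h 1)
      rw [one_smul, commute_ex_iff hym.1.1 hb.1] at he
      exact he.symm
    rcases hcomm with h | h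
    · exact h c
    exfalso
    have hkill : ∀ y, Conn G x y → LinearMap.range y ≤ LinearMap.ker b := by
      intro y hy
      obtain ⟨g, hg, e⟩ := hP.part_conjugate hx hy
      have hgG : g ∈ G := cgrp_le hx hg
      rw [conjBy_eg hx.1.1 hgG] at e
      have hm := mem_of_eg_eq (hy.minFam hx) (hx.conj hgG) e
      refine hm.2.1.trans ?_
      have hC : ∀ g ∈ cgrp G x, (g : Module.End k M) * b = b * g := by
        have hbb : b * b = 0 := hb.1
        intro g hg
        have hle : cgrp G x ≤ Subgroup.centralizer {ex b} := iSup₂_le fun z hz w hw => by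
          obtain ⟨a', ha', rfl⟩ := (mem_eg (Conn.minFam hz hx).1.1).1 hw
          rw [Subgroup.mem_centralizer_singleton_iff, commute_ex_iff ha'.1.1 hbb]
          rcases eq_or_ne a' 0 with rfl | ha0
          · simp
          exact (h a' (hz.trans (hP.conn_mem (Conn.minFam hz hx) ha' ha0))).symm
        have := congrArg (fun z : LinearMap.GeneralLinearGroup k M => (z : Module.End k M))
          (Subgroup.mem_centralizer_singleton_iff.1 (hle hg))
        simp only [Units.val_mul, ex_val hbb, mul_add, add_mul, one_mul, mul_one, add_right_inj] at this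
        exact this
      rw [← mul_eq_zero_iff_range_le_ker, conjEnd, ← mul_assoc, ← mul_assoc, ← hC g hg, mul_assoc (g : Module.End k M) b x,
        hbx, mul_zero, zero_mul]
    set V := ⨆ y ∈ {y | Conn G x y}, LinearMap.range y with hV
    have hVle : V ≤ LinearMap.ker b := iSup₂_le hkill
    have hinv : ∀ g : LinearMap.GeneralLinearGroup k M, (∀ y, Conn G x y → ∃ z, Conn G x z ∧
        ∀ m, (g : Module.End k M) (y m) ∈ LinearMap.range z) → ∀ w ∈ V, (g : Module.End k M) w ∈ V := by
      intro g hg w hw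
      have : V ≤ V.comap (g : Module.End k M) := iSup₂_le fun y hy => by
        rintro _ ⟨m, rfl⟩
        obtain ⟨z, hz, hzm⟩ := hg y hy
        exact (le_iSup₂ (f := fun y (_ : y ∈ {y | Conn G x y}) => LinearMap.range y) z hz) (hzm m)
      exact this hw
    rcases hP.invariant (W := V) (fun g hg => hinv g fun y hy => ⟨conjEnd g y,
        hy.trans (hP.conn_conj hg (hy.minFam hx)), fun m => by
          rw [range_conjEnd]; exact ⟨y m, ⟨m, rfl⟩, rfl⟩⟩)
      (fun g hg => hinv g fun y hy => ⟨y, hy, fun m => by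
        have hym := hy.minFam hx
        have hex : ex y ∈ G := by simpa using hym.1.2 1
        have := congrArg (fun z : LinearMap.GeneralLinearGroup k M => (z : Module.End k M))
          (Subgroup.mem_centralizer_iff.1 hg _ hex)
        simp only [Units.val_mul, ex_val hym.1.1, mul_add, add_mul, one_mul, mul_one, add_right_inj] at this
        exact ⟨(g : Module.End k M) m, LinearMap.congr_fun this m⟩⟩) with hbot | htop
    · apply hx.2.1
      rw [← LinearMap.range_eq_bot, eq_bot_iff, ← hbot]
      exact le_iSup₂ (f := fun y (_ : y ∈ {y | Conn G x y}) => LinearMap.range y) x Relation.ReflTransGen.refl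
    · rw [htop, top_le_iff, LinearMap.ker_eq_top] at hVle
      exact hb0 hVle

lemma Pair.quadratic_cases {σ : LinearMap.GeneralLinearGroup k M} (hσ : σ ∈ quadraticElements G) :
    (∀ s, MinFam G s → σ * ex s = ex s * σ) ∨ ∃ x, MinFam G x ∧ σ ∈ cgrp G x := by
  obtain ⟨h1, -⟩ := mem_quadraticElements.1 hσ
  rcases hP.dichotomy (rk ((σ : Module.End k M) - 1)) le_rfl h1 with h | ⟨x, hx, h⟩
  · refine Or.inl fun s hs => ?_
    rw [← ex_sub_one h1.1, commute_ex_iff h1.1 hs.1.1]
    exact h s hs
  · refine Or.inr ⟨x, hx, ?_⟩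
    have := h 1
    rwa [one_smul, ex_sub_one h1.1] at this

end Cfsg.Agent.H92.QP
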