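import Cfsg.Agent.H92.QP.Surj
import Cfsg.Agent.H92.SubgroupOf

/-! The subgroups of minimal families as abstract root subgroups. -/

set_option autoImplicit false

namespace Cfsg.Agent.H92.QP

open Cfsg LinearMap
open scoped MatrixGroups commutatorElement

variable {k : Type*} [Field k] {M : Type*} [AddCommGroup M] [Module k M]
  {G : Subgroup (LinearMap.GeneralLinearGroup k M)} [FiniteDimensional k M]

lemma root_conjBy {A : Subgroup (LinearMap.GeneralLinearGroup k M)} (hA : A ∈ quadraticRootSubgroups G)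
    {g : LinearMap.GeneralLinearGroup k M} (hg : g ∈ G) : conjBy A g ∈ quadraticRootSubgroups G := by
  obtain ⟨s, hs, rfl⟩ := exists_of_root hA
  rw [conjBy_eg hs.1.1 hg]
  exact eg_mem_roots (hs.conj hg)

lemma roots_le (A : Subgroup (LinearMap.GeneralLinearGroup k M)) (hA : A ∈ quadraticRootSubgroups G) : A ≤ G := by
  obtain ⟨s, hs, rfl⟩ := exists_of_root hA
  exact eg_le hs.1.1

variable (hP : Pair G)
include hP

/-- The trichotomy. -/
lemma Pair.root_pair {s t : Module.End k M} (hs : MinFam G s) (ht : MinFam G t) :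
    (¬ Nn s t ∧ brk s t = 0 ∧ ⁅eg G s, eg G t⁆ = ⊥) ∨ (Nn s t ∧ IsRankOnePair (eg G s) (eg G t)) ∨
      (¬ Nn s t ∧ brk s t ≠ 0 ∧
        RootCommutatorCase (quadraticRootSubgroups G) (eg G s) (eg G t)) := by
  by_cases hn : Nn s t
  · exact Or.inr (Or.inl ⟨hn, (specialPair hP.two hP.three hn hs ht).1⟩)
  by_cases hx : brk s t = 0
  · exact Or.inl ⟨hn, hx, eg_commutator_eq_bot hP.two hP.three hs ht hn hx⟩
  obtain ⟨hxm, hD, hc, h1, h2⟩ := hP.bracket_case hs ht hn hx
  refine Or.inr (Or.inr ⟨hn, hx, ?_⟩)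
  unfold RootCommutatorCase
  rw [hD]
  exact ⟨eg_mem_roots hxm, hc, h1, h2⟩

/-- Rank one pairs are the non-degenerate pairs. -/
lemma Pair.nn_of_rankOne {s t : Module.End k M} (hs : MinFam G s) (ht : MinFam G t)
    (h : IsRankOnePair (eg G s) (eg G t)) : Nn s t := by
  by_contra hn
  obtain ⟨b, hb, -, e⟩ := h.cond_left (ex s) (ex_mem_eg hs.1.1 (mem_self hs.1))
    (fun e => hs.2.1 (ex_inj hs.1.1 (by simp) (e.trans ex_zero.symm)))
  by_cases hx : brk s t = 0
  · have h0 := eg_commutator_eq_bot hP.two hP.three hs ht hn hx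
    apply h.ne
    have e1 : conjBy (eg G s) b⁻¹ = eg G s := centralizer_conjBy (H := eg G s)
      (Subgroup.mem_centralizer_iff.2 fun x hx => commute_of_commutator_eq_bot h0 hx (inv_mem hb)) le_rfl
    have e2 : conjBy (eg G t) (ex s)⁻¹ = eg G t := centralizer_conjBy (H := eg G t)
      (Subgroup.mem_centralizer_iff.2 fun x hx =>
        (commute_of_commutator_eq_bot h0 (inv_mem (ex_mem_eg hs.1.1 (mem_self hs.1))) hx).symm) le_rfl
    rw [← e1, e, e2]
  · obtain ⟨hxm, -, -, -, -⟩ := hP.bracket_case hs ht hn hx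
    obtain ⟨b', hb', rfl⟩ := (mem_eg ht.1.1).1 hb
    have hg1 : (ex s : LinearMap.GeneralLinearGroup k M) ∈ G := eg_le hs.1.1 (ex_mem_eg hs.1.1 (mem_self hs.1))
    have hg2 : (ex b' : LinearMap.GeneralLinearGroup k M) ∈ G := eg_le ht.1.1 hb
    have hn' := not_nn_symm hP.two hP.three hn hs ht
    have m1 := not_nn_mem hP.two hP.three hn' ht hs hb'.neg (mem_self hs.1)
    set y := brk (-b') s with hy
    have hb2 : ex (-b') ∈ G := by rw [← ex_inv hb'.1.1]; exact inv_mem hg2
    have c1 : conjEnd (ex (-b')) s = s + y := by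
      have := conjEnd_ex hb'.neg.1.1 (1 : k) s
      rwa [one_smul, one_smul, one_mul, one_smul, m1, sub_zero] at this
    have hy' : Mem G (brk t s) y := (brk_mem hP.two hP.three ht hs hn' hb'.neg (mem_self hs.1)).1
    have hy'' : Mem G (brk s t) y := by
      have hxm' : MinFam G (brk t s) := by
        have := hxm.of_mem (mem_self hxm.1).neg (neg_ne_zero.2 hx)
        rwa [← brk_swap] at this
      refine Mem.trans ?_ hy'
      rw [brk_swap s t]; exact (mem_self hxm.1).neg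
    obtain ⟨sy, ys⟩ := brk_mul_zero hP.two hP.three hs ht hn (mem_self hs.1) hy''
    obtain ⟨ty, yt⟩ := brk_mul_zero hP.two hP.three ht hs hn' (mem_self ht.1) hy'
    have c2 : conjEnd (ex s) (s + y) = s + y := by
      have := conjEnd_ex hs.1.1 (1 : k) (s + y)
      rw [one_smul, one_smul, one_mul, one_smul, mul_add, add_mul, hs.1.1, sy, ys, add_zero, zero_mul, sub_self,
        sub_zero, add_zero] at this
      exact this
    have e' : eg G (s + y) = eg G t := by
      rw [← c2, ← c1, ← conjBy_eg (by rw [c1]; exact (c1 ▸ hs.1.conj hb2 : Fam' G (s + y)).1) hg1,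
        ← conjBy_eg hs.1.1 hb2, ← ex_inv hb'.1.1, e, conjBy_conjBy, mul_inv_cancel, conjBy_one]
    have hsy : MinFam G (s + y) := c1 ▸ hs.conj hb2
    have hm := mem_of_eg_eq hsy ht e'
    apply hx
    have z1 := hm.mul ht.1.1 (mem_self ht.1)
    have z2 := (mem_self ht.1).mul ht.1.1 hm
    rw [add_mul, yt, add_zero] at z1
    rw [mul_add, ty, add_zero] at z2
    rw [brk, z1, z2, sub_zero]

/-- Every member has a rank one partner. -/
lemma Pair.not_isolated {A : Subgroup (LinearMap.GeneralLinearGroup k M)} (hA : A ∈ quadraticRootSubgroups G) :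
    ¬ IsIsolatedIn (FAdj (quadraticRootSubgroups G)) (quadraticRootSubgroups G) A := by
  obtain ⟨s, hs, rfl⟩ := exists_of_root hA
  obtain ⟨t, ht, hn⟩ := hP.exists_partner hs
  exact fun h => (h.2 (eg G t)).1 ⟨hA, eg_mem_roots ht, (specialPair hP.two hP.three hn hs ht).1⟩

omit hP in
/-- The copy of SL₂(k) inside a non-degenerate pair. -/
lemma exists_psl2 {k : Type*} [Field k] {M : Type*} [AddCommGroup M] [Module k M] [FiniteDimensional k M]
    {G : Subgroup (LinearMap.GeneralLinearGroup k M)} (h2 : (2 : k) ≠ 0) (h3 : Nat.card k ≠ 3)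
    {s t : Module.End k M} (hn : Nn s t) (hs : MinFam G s) (ht : MinFam G t) :
    ∃ A₀ B₀ : Subgroup (LinearMap.GeneralLinearGroup k M), A₀ ≤ eg G s ∧ B₀ ≤ eg G t ∧ 3 < ENat.card k ∧
      IsPSL2PairOver k A₀ B₀ := by
  obtain ⟨u, hu, -, h⟩ := hn.exists_sl2 h2 h3 hs ht
  refine ⟨(upperUnipotentSL2 k).map (h.psi hs.2.1), (lowerUnipotentSL2 k).map (h.psi hs.2.1), ?_, ?_, ?_,
    h.psi hs.2.1, ?_, ?_, rfl, rfl⟩
  · rintro _ ⟨g, hg, rfl⟩
    obtain ⟨c, rfl⟩ := mem_upperUnipotentSL2.1 hg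
    rw [h.psi_sx]; exact ex_mem_eg hs.1.1 ((mem_self hs.1).smul c)
  · rintro _ ⟨g, hg, rfl⟩
    obtain ⟨c, rfl⟩ := mem_lowerUnipotentSL2.1 hg
    rw [h.psi_sy]; exact ex_mem_eg ht.1.1 (hu.smul _)
  · obtain ⟨a, ha0, ha1, ha2, ha3, hne⟩ := exists_four h2 h3
    classical
    refine lt_of_lt_of_le (b := ((({0, 1, -1, a} : Finset k).card : ℕ) : ℕ∞)) ?_ ?_
    · rw [Finset.card_insert_of_notMem, Finset.card_insert_of_notMem, Finset.card_pair]
      · norm_num
      · exact fun e => ha2 e.symm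
      · simpa using ⟨fun e => hne e.symm, fun e => ha1 e.symm⟩
      · simpa using fun e => ha0 e.symm
    · rw [← Set.encard_univ, ← Set.encard_coe_eq_coe_finsetCard]
      exact Set.encard_le_encard (Set.subset_univ _)
  · rw [MonoidHom.range_eq_map, ← Subgroup.map_sup]
    congr 1
    rw [eq_comm, eq_top_iff, ← sl2_closure_sx_sy, Subgroup.closure_le]
    rintro _ (⟨c, rfl⟩ | ⟨c, rfl⟩)
    · exact Subgroup.mem_sup_left (mem_upperUnipotentSL2.2 ⟨c, rfl⟩)
    · exact Subgroup.mem_sup_right (mem_lowerUnipotentSL2.2 ⟨c, rfl⟩)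
  · rw [(MonoidHom.ker_eq_bot_iff _).2 (h.psi_injective hs.2.1)]
    exact bot_le

end Cfsg.Agent.H92.QP
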