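import Cfsg.Agent.H92.QP.Ambient

/-! Non-commuting, non-unipotent pairs: special rank one groups. -/

set_option autoImplicit false

namespace Cfsg.Agent.H92.QP

open Cfsg LinearMap

variable {k : Type*} [Field k] {M : Type*} [AddCommGroup M] [Module k M]
  {G : Subgroup (LinearMap.GeneralLinearGroup k M)}

lemma Sl2.neg {s u : Module.End k M} (h : Sl2 G s u) : Sl2 G (-s) (-u) :=
  ⟨h.fs.neg, h.fu.neg, by simp [h.sus], by simp [h.usu]⟩

lemma commutatorSubmodule_le {H : Subgroup (LinearMap.GeneralLinearGroup k M)} {V : Submodule k M}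
    (h : ∀ g ∈ H, LinearMap.range ((g : Module.End k M) - 1) ≤ V) : commutatorSubmodule H ≤ V :=
  iSup₂_le h

lemma le_commutatorSubmodule {H : Subgroup (LinearMap.GeneralLinearGroup k M)}
    {g : LinearMap.GeneralLinearGroup k M} (hg : g ∈ H) :
    LinearMap.range ((g : Module.End k M) - 1) ≤ commutatorSubmodule H :=
  le_iSup₂ (f := fun g (_ : g ∈ H) => LinearMap.range ((g : Module.End k M) - 1)) g hg

lemma fixedSubmodule_le {H : Subgroup (LinearMap.GeneralLinearGroup k M)}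
    {g : LinearMap.GeneralLinearGroup k M} (hg : g ∈ H) :
    fixedSubmodule H ≤ LinearMap.ker ((g : Module.End k M) - 1) :=
  iInf₂_le (f := fun g (_ : g ∈ H) => LinearMap.ker ((g : Module.End k M) - 1)) g hg

/-- Operators fixed by an idempotent on both sides. -/
def corner (π : Module.End k M) : Submodule k (Module.End k M) where
  carrier := {f | π * f = f ∧ f * π = f}
  add_mem' := by
    rintro f g ⟨a, b⟩ ⟨c, d⟩
    exact ⟨by rw [mul_add, a, c], by rw [add_mul, b, d]⟩
  zero_mem' := by simp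
  smul_mem' := by
    rintro c f ⟨a, b⟩
    exact ⟨by rw [mul_smul_comm, a], by rw [smul_mul_assoc, b]⟩

lemma corner_mul (π : Module.End k M) : corner π * corner π ≤ corner π := by
  rw [Submodule.mul_le]
  rintro f ⟨a, -⟩ g ⟨-, d⟩
  exact ⟨by rw [← mul_assoc, a], by rw [mul_assoc, d]⟩

variable [FiniteDimensional k M] (hk2 : (2 : k) ≠ 0) (hk : Nat.card k ≠ 3)
include hk2 hk

/-- The normalised pair attached to two related members. -/
lemma Nn.partner_of_mem {s t a : Module.End k M} (hn : Nn s t) (hs : MinFam G s) (ht : MinFam G t)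
    (ha : Mem G s a) (ha0 : a ≠ 0) : ∃ u, Mem G t u ∧ u ≠ 0 ∧ Sl2 G a u :=
  (hn.of_mem hk2 hk hs ht ha (mem_self ht.1) ha0 ht.2.1).exists_sl2 hk2 hk (hs.of_mem ha ha0) ht

lemma conjBy_weyl {s t a u : Module.End k M} (hs : MinFam G s) (ht : MinFam G t) (ha : Mem G s a) (hu : Mem G t u)
    (ha0 : a ≠ 0) (hu0 : u ≠ 0) (h : Sl2 G a u) : conjBy (eg G s) (h.weyl ha0) = eg G t := by
  rw [← hs.eg_eq ha ha0, conjBy_eg (g := h.weyl ha0) ha.1.1 (h.psi_mem ha0 _), h.conj_weyl_s,
    ht.eg_eq hu.neg (neg_ne_zero.2 hu0)]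

lemma ne_of_nn {s t : Module.End k M} (hn : Nn s t) (hs : MinFam G s) (ht : MinFam G t) : eg G s ≠ eg G t := by
  intro e
  have := hn.of_mem hk2 hk hs ht (mem_self hs.1) (mem_of_eg_eq hs ht e) hs.2.1 hs.2.1
  exact this (by rw [hs.1.1, zero_mul])

lemma specialPair {s t : Module.End k M} (hn : Nn s t) (hs : MinFam G s) (ht : MinFam G t) :
    IsSpecialRankOnePair (eg G s) (eg G t) := by
  refine specialPair_of_braid (ne_of_nn hk2 hk hn hs ht) (fun x hx y hy => eg_comm hs.1.1 hx hy)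
    (fun x hx y hy => eg_comm ht.1.1 hx hy) ?_ ?_
  · intro e he he1
    obtain ⟨a, ha, rfl⟩ := (mem_eg hs.1.1).1 he
    have ha0 : a ≠ 0 := fun h => he1 (by rw [h, ex_zero])
    obtain ⟨u, hu, hu0, h⟩ := hn.partner_of_mem hk2 hk hs ht ha ha0
    refine ⟨ex (-u), ex_mem_eg ht.1.1 hu.neg, h.braid ha0, ?_⟩
    rw [← h.weyl_eq ha0]
    exact conjBy_weyl hk2 hk hs ht ha hu ha0 hu0 h
  · intro e he he1
    obtain ⟨b, hb, rfl⟩ := (mem_eg ht.1.1).1 he
    have hb0 : b ≠ 0 := fun h => he1 (by rw [h, ex_zero])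
    obtain ⟨u, hu, hu0, h⟩ := (hn.symm hk2 hk hs ht).partner_of_mem hk2 hk ht hs hb hb0
    have h' : Sl2 G (-u) (-b) := h.symm.neg
    have hu' : -u ≠ 0 := neg_ne_zero.2 hu0
    refine ⟨ex (-u), ex_mem_eg hs.1.1 hu.neg, ?_, ?_, ?_⟩
    · rw [← ex_zero]; exact fun e => hu' (ex_inj h'.ss (by simp) e)
    · have := h'.braid hu'
      rwa [neg_neg] at this
    · have := conjBy_weyl hk2 hk hs ht hu.neg hb.neg hu' (neg_ne_zero.2 hb0) h'
      rwa [h'.weyl_eq hu', neg_neg] at this

/-- The geometry of a non-degenerate pair. -/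
lemma npair_geometry {s t : Module.End k M} (hn : Nn s t) (hs : MinFam G s) (ht : MinFam G t) :
    ∃ π i, π * π = π ∧ i ∈ eg G s ⊔ eg G t ∧ (i : Module.End k M) = (1 - π) - π ∧ π ≠ 0 ∧
      (∀ x ∈ eg G s ⊔ eg G t, π * ((x : Module.End k M) - 1) = (x : Module.End k M) - 1 ∧
        ((x : Module.End k M) - 1) * π = (x : Module.End k M) - 1) ∧
      commutatorSubmodule (eg G s ⊔ eg G t) = LinearMap.range π ∧
      fixedSubmodule (eg G s ⊔ eg G t) = LinearMap.ker π := by
  obtain ⟨u, hu, hu0, h⟩ := hn.exists_sl2 hk2 hk hs ht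
  set π := s * u + u * s with hπ
  have hkt : LinearMap.ker u = LinearMap.ker t := ht.mem_ker_eq hu hu0
  have hrt : LinearMap.range u = LinearMap.range t := ht.mem_range_eq hu hu0
  have hcorner : ∀ {v a : Module.End k M}, π * v = v → v * π = v → LinearMap.range a ≤ LinearMap.range v →
      LinearMap.ker v ≤ LinearMap.ker a → a ∈ corner π := by
    intro v a h1 h2 hr hkk
    refine ⟨LinearMap.ext fun m => ?_, LinearMap.ext fun m => ?_⟩
    · obtain ⟨m', hm'⟩ := hr (LinearMap.mem_range_self a m)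
      rw [Module.End.mul_apply, ← hm']
      exact LinearMap.congr_fun h1 m'
    · have : π m - m ∈ LinearMap.ker v := by
        rw [LinearMap.mem_ker, map_sub, ← Module.End.mul_apply, h2, sub_self]
      have := LinearMap.mem_ker.1 (hkk this)
      rwa [map_sub, sub_eq_zero] at this
  have hle : eg G s ⊔ eg G t ≤ congrGroup (corner π) (corner_mul π) := by
    refine sup_le ?_ ?_ <;> intro g hg
    · obtain ⟨a, ha, rfl⟩ := (mem_eg hs.1.1).1 hg
      refine ⟨?_, ?_⟩
      · rw [sub1, ex_val ha.1.1, add_sub_cancel_left]; exact hcorner h.pi_s h.s_pi ha.2.1 ha.2.2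
      · rw [sub1, ex_inv ha.1.1, ex_val ha.neg.1.1, add_sub_cancel_left]
        exact hcorner h.pi_s h.s_pi ha.neg.2.1 ha.neg.2.2
    · obtain ⟨a, ha, rfl⟩ := (mem_eg ht.1.1).1 hg
      refine ⟨?_, ?_⟩
      · rw [sub1, ex_val ha.1.1, add_sub_cancel_left]
        exact hcorner h.pi_u h.u_pi (ha.2.1.trans hrt.ge) (hkt.le.trans ha.2.2)
      · rw [sub1, ex_inv ha.1.1, ex_val ha.neg.1.1, add_sub_cancel_left]
        exact hcorner h.pi_u h.u_pi (ha.neg.2.1.trans hrt.ge) (hkt.le.trans ha.neg.2.2)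
  have hmem : ∀ A, h.psi hs.2.1 A ∈ eg G s ⊔ eg G t := fun A => h.psi_mem_of hs.2.1
    (fun c => Subgroup.mem_sup_left (ex_mem_eg hs.1.1 ((mem_self hs.1).smul c)))
    (fun c => Subgroup.mem_sup_right (ex_mem_eg ht.1.1 (hu.smul c))) A
  have hes : (ex s : LinearMap.GeneralLinearGroup k M) ∈ eg G s ⊔ eg G t :=
    Subgroup.mem_sup_left (ex_mem_eg hs.1.1 (mem_self hs.1))
  have heu : (ex u : LinearMap.GeneralLinearGroup k M) ∈ eg G s ⊔ eg G t :=
    Subgroup.mem_sup_right (ex_mem_eg ht.1.1 hu)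
  refine ⟨π, h.psi hs.2.1 (-1), h.idem, hmem _, h.neg_one_val hs.2.1, ?_, fun x hx => (hle hx).1, ?_, ?_⟩
  · intro e
    apply hs.2.1
    rw [← h.pi_s, ← hπ, e, zero_mul]
  · refine le_antisymm (commutatorSubmodule_le fun g hg => ?_) ?_
    · conv_lhs => rw [show (g : Module.End k M) - 1 = π * sub1 g from (hle hg).1.1.symm]
      exact LinearMap.range_comp_le_range _ π
    · rintro _ ⟨m, rfl⟩
      refine add_mem (le_commutatorSubmodule hes ?_) (le_commutatorSubmodule heu ?_)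
      · rw [ex_val hs.1.1, add_sub_cancel_left]; exact ⟨u m, rfl⟩
      · rw [ex_val hu.1.1, add_sub_cancel_left]; exact ⟨s m, rfl⟩
  · refine le_antisymm (fun m hm => ?_) (fun m hm => ?_)
    · have e1 := fixedSubmodule_le hes hm
      have e2 := fixedSubmodule_le heu hm
      rw [ex_val hs.1.1, add_sub_cancel_left, LinearMap.mem_ker] at e1
      rw [ex_val hu.1.1, add_sub_cancel_left, LinearMap.mem_ker] at e2
      simp [π, LinearMap.mem_ker, e1, e2]
    · rw [mem_fixedSubmodule]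
      intro g hg
      have := LinearMap.congr_fun (hle hg).1.2 m
      rw [Module.End.mul_apply, LinearMap.mem_ker.1 hm, map_zero, sub1, LinearMap.sub_apply, eq_comm,
        sub_eq_zero] at this
      exact this

end Cfsg.Agent.H92.QP
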