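import Cfsg.Agent.H92.QP.Conn

/-! Every element of the bracket subgroup is a single commutator. -/

set_option autoImplicit false

namespace Cfsg.Agent.H92.QP

open Cfsg LinearMap
open scoped commutatorElement

variable {k : Type*} [Field k] {M : Type*} [AddCommGroup M] [Module k M]
  {G : Subgroup (LinearMap.GeneralLinearGroup k M)} [FiniteDimensional k M]

omit [FiniteDimensional k M] in
lemma dimL_eq {s : Module.End k M} (hs : s * s = 0) : dimL G s = Module.finrank k (lsub G hs) := by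
  rw [dimL, show {y : Module.End k M | Mem G s y} = (lsub G hs : Set (Module.End k M)) from rfl, Submodule.span_eq]

variable (hP : Pair G)
include hP

/-- The bracket with a fixed non-trivial entry is onto. -/
lemma Pair.brk_surj {s t a y : Module.End k M} (hs : MinFam G s) (ht : MinFam G t) (hn : ¬ Nn s t) (hx : brk s t ≠ 0)
    (ha : Mem G s a) (ha0 : a ≠ 0) (hy : Mem G (brk s t) y) : ∃ b, Mem G t b ∧ brk a b = y := by
  have hsts := not_nn_mem hP.two hP.three hn hs ht (mem_self hs.1) (mem_self ht.1)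
  have htst := not_nn_mem hP.two hP.three (not_nn_symm hP.two hP.three hn hs ht) ht hs (mem_self ht.1) (mem_self hs.1)
  have hxm : MinFam G (brk s t) := minFam_brk hs ht.1 hsts htst hx
  let L : lsub G ht.1.1 →ₗ[k] lsub G hxm.1.1 :=
    { toFun := fun b => ⟨brk a b.1, (brk_mem hP.two hP.three hs ht hn ha b.2).1⟩
      map_add' := fun b c => Subtype.ext (brk_add_right a b.1 c.1)
      map_smul' := fun c b => Subtype.ext (brk_smul_right a b.1 c) }
  have hinj : Function.Injective L := by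
    rw [← LinearMap.ker_eq_bot, LinearMap.ker_eq_bot']
    intro b hb
    by_contra hb0
    exact (brk_mem hP.two hP.three hs ht hn ha b.2).2 hx ha0 (fun e => hb0 (Subtype.ext e)) (congrArg Subtype.val hb)
  have hdim : Module.finrank k (lsub G ht.1.1) = Module.finrank k (lsub G hxm.1.1) := by
    rw [← dimL_eq ht.1.1, ← dimL_eq hxm.1.1]
    exact hP.conn_dimL (hP.conn_brk hs ht hn hx)
  obtain ⟨b, hb⟩ := (LinearMap.injective_iff_surjective_of_finrank_eq_finrank hdim).1 hinj ⟨y, hy⟩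
  exact ⟨b.1, b.2, congrArg Subtype.val hb⟩

omit hP in
lemma eg_neg {x : Module.End k M} (hx : MinFam G x) : eg G (-x) = eg G x :=
  hx.eg_eq (mem_self hx.1).neg (neg_ne_zero.2 hx.2.1)

/-- Commutators with a fixed element fill the bracket subgroup. -/
lemma Pair.closure_commutators {s t a : Module.End k M} (hs : MinFam G s) (ht : MinFam G t) (hn : ¬ Nn s t)
    (hx : brk s t ≠ 0) (ha : Mem G s a) (ha0 : a ≠ 0) :
    Subgroup.closure ((fun f : LinearMap.GeneralLinearGroup k M => ex a * f * (ex a)⁻¹ * f⁻¹) ''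
      (eg G t : Set (LinearMap.GeneralLinearGroup k M))) = eg G (brk s t) := by
  have hsts := not_nn_mem hP.two hP.three hn hs ht (mem_self hs.1) (mem_self ht.1)
  have htst := not_nn_mem hP.two hP.three (not_nn_symm hP.two hP.three hn hs ht) ht hs (mem_self ht.1) (mem_self hs.1)
  have hxm : MinFam G (brk s t) := minFam_brk hs ht.1 hsts htst hx
  have hbr : ∀ b, Mem G t b → ex a * ex b * (ex a)⁻¹ * (ex b)⁻¹ = ex (brk a b) := fun b hb =>
    (ex_bracket ha.1.1 hb.1.1 (not_nn_mem hP.two hP.three hn hs ht ha hb)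
      (not_nn_mem hP.two hP.three (not_nn_symm hP.two hP.three hn hs ht) ht hs hb ha)).2
  refine le_antisymm ((Subgroup.closure_le _).2 ?_) fun g hg => ?_
  · rintro _ ⟨f, hf, rfl⟩
    obtain ⟨b, hb, rfl⟩ := (mem_eg ht.1.1).1 hf
    simp only
    rw [SetLike.mem_coe, hbr b hb]
    exact ex_mem_eg hxm.1.1 (brk_mem hP.two hP.three hs ht hn ha hb).1
  · obtain ⟨y, hy, rfl⟩ := (mem_eg hxm.1.1).1 hg
    obtain ⟨b, hb, rfl⟩ := hP.brk_surj hs ht hn hx ha ha0 hy
    exact Subgroup.subset_closure ⟨ex b, ex_mem_eg ht.1.1 hb, hbr b hb⟩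

/-- Commutators in the other order. -/
lemma Pair.closure_commutators' {s t b : Module.End k M} (hs : MinFam G s) (ht : MinFam G t) (hn : ¬ Nn s t)
    (hx : brk s t ≠ 0) (hb : Mem G t b) (hb0 : b ≠ 0) :
    Subgroup.closure ((fun e : LinearMap.GeneralLinearGroup k M => e * ex b * e⁻¹ * (ex b)⁻¹) ''
      (eg G s : Set (LinearMap.GeneralLinearGroup k M))) = eg G (brk s t) := by
  have hsts := not_nn_mem hP.two hP.three hn hs ht (mem_self hs.1) (mem_self ht.1)
  have htst := not_nn_mem hP.two hP.three (not_nn_symm hP.two hP.three hn hs ht) ht hs (mem_self ht.1) (mem_self hs.1)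
  have hxm : MinFam G (brk s t) := minFam_brk hs ht.1 hsts htst hx
  have hn' := not_nn_symm hP.two hP.three hn hs ht
  have hx' : brk t s ≠ 0 := by rw [brk_swap]; exact neg_ne_zero.2 hx
  have h := hP.closure_commutators ht hs hn' hx' hb hb0
  rw [brk_swap s t, eg_neg hxm] at h
  rw [← h]
  refine le_antisymm ((Subgroup.closure_le _).2 ?_) ((Subgroup.closure_le _).2 ?_) <;>
    rintro _ ⟨e, he, rfl⟩
  · rw [SetLike.mem_coe, ← inv_mem_iff (x := e * ex b * e⁻¹ * (ex b)⁻¹)]
    exact Subgroup.subset_closure ⟨e, he, by simp [mul_assoc]⟩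
  · rw [SetLike.mem_coe, ← inv_mem_iff (x := ex b * e * (ex b)⁻¹ * e⁻¹)]
    exact Subgroup.subset_closure ⟨e, he, by simp [mul_assoc]⟩

/-- The facts about a pair with non-trivial bracket. -/
theorem Pair.bracket_case {s t : Module.End k M} (hs : MinFam G s) (ht : MinFam G t) (hn : ¬ Nn s t)
    (hx : brk s t ≠ 0) :
    MinFam G (brk s t) ∧ ⁅eg G s, eg G t⁆ = eg G (brk s t) ∧
    (∀ c ∈ eg G (brk s t), ∀ z ∈ eg G s ⊔ eg G t, c * z = z * c) ∧
    (∀ e ∈ eg G s, e ≠ 1 → Subgroup.closure ((fun f : LinearMap.GeneralLinearGroup k M => e * f * e⁻¹ * f⁻¹) ''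
      (eg G t : Set (LinearMap.GeneralLinearGroup k M))) = eg G (brk s t)) ∧
    (∀ f ∈ eg G t, f ≠ 1 → Subgroup.closure ((fun e : LinearMap.GeneralLinearGroup k M => e * f * e⁻¹ * f⁻¹) ''
      (eg G s : Set (LinearMap.GeneralLinearGroup k M))) = eg G (brk s t)) := by
  have hsts := not_nn_mem hP.two hP.three hn hs ht (mem_self hs.1) (mem_self ht.1)
  have htst := not_nn_mem hP.two hP.three (not_nn_symm hP.two hP.three hn hs ht) ht hs (mem_self ht.1) (mem_self hs.1)
  have hxm : MinFam G (brk s t) := minFam_brk hs ht.1 hsts htst hx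
  have hcl := hP.closure_commutators hs ht hn hx (mem_self hs.1) hs.2.1
  have hD : ⁅eg G s, eg G t⁆ = eg G (brk s t) := by
    refine le_antisymm (Subgroup.commutator_le.2 fun e he f hf => ?_) ?_
    · obtain ⟨a, ha, rfl⟩ := (mem_eg hs.1.1).1 he
      obtain ⟨b, hb, rfl⟩ := (mem_eg ht.1.1).1 hf
      rw [commutatorElement_def, (ex_bracket ha.1.1 hb.1.1 (not_nn_mem hP.two hP.three hn hs ht ha hb)
        (not_nn_mem hP.two hP.three (not_nn_symm hP.two hP.three hn hs ht) ht hs hb ha)).2]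
      exact ex_mem_eg hxm.1.1 (brk_mem hP.two hP.three hs ht hn ha hb).1
    · rw [← hcl, Subgroup.closure_le]
      rintro _ ⟨f, hf, rfl⟩
      exact Subgroup.commutator_mem_commutator (ex_mem_eg hs.1.1 (mem_self hs.1)) hf
  refine ⟨hxm, hD, fun c hc z hz => ?_, fun e he he1 => ?_, fun f hf hf1 => ?_⟩
  · obtain ⟨y, hy, rfl⟩ := (mem_eg hxm.1.1).1 hc
    have hle : eg G s ⊔ eg G t ≤ Subgroup.centralizer {ex y} := by
      refine sup_le ?_ ?_ <;> intro g hg <;> rw [Subgroup.mem_centralizer_singleton_iff]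
      · obtain ⟨a, ha, rfl⟩ := (mem_eg hs.1.1).1 hg
        obtain ⟨e1, e2⟩ := brk_mul_zero hP.two hP.three hs ht hn ha hy
        exact (commute_ex_iff ha.1.1 hy.1.1).2 (by rw [e1, e2])
      · obtain ⟨a, ha, rfl⟩ := (mem_eg ht.1.1).1 hg
        have hy' : Mem G (brk t s) y := by
          rw [brk_swap]; exact (hxm.mem_symm (mem_self hxm.1).neg (neg_ne_zero.2 hx)).trans hy
        obtain ⟨e1, e2⟩ := brk_mul_zero hP.two hP.three ht hs (not_nn_symm hP.two hP.three hn hs ht) ha hy'
        exact (commute_ex_iff ha.1.1 hy.1.1).2 (by rw [e1, e2])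
    exact (Subgroup.mem_centralizer_singleton_iff.1 (hle hz)).symm
  · obtain ⟨a, ha, rfl⟩ := (mem_eg hs.1.1).1 he
    exact hP.closure_commutators hs ht hn hx ha (fun h => he1 (by rw [h, ex_zero]))
  · obtain ⟨b, hb, rfl⟩ := (mem_eg ht.1.1).1 hf
    exact hP.closure_commutators' hs ht hn hx hb (fun h => hf1 (by rw [h, ex_zero]))

/-- Class two, and the unipotent core. -/
theorem Pair.bracket_core {s t : Module.End k M} (hs : MinFam G s) (ht : MinFam G t) (hn : ¬ Nn s t)
    (hx : brk s t ≠ 0) :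
    ⁅eg G s ⊔ eg G t, eg G s ⊔ eg G t⁆ ≠ ⊥ ∧
    ⁅⁅eg G s ⊔ eg G t, eg G s ⊔ eg G t⁆, eg G s ⊔ eg G t⁆ = ⊥ ∧
    ((eg G s ⊔ eg G t : Subgroup (LinearMap.GeneralLinearGroup k M)) : Set (LinearMap.GeneralLinearGroup k M)) ⊆
      quadraticUnipotentCore G (eg G (brk s t)) := by
  obtain ⟨hxm, hD, hcen, -, -⟩ := hP.bracket_case hs ht hn hx
  set H := eg G s ⊔ eg G t with hH
  set D := eg G (brk s t) with hDdef
  have hDH : D ≤ H := hD ▸ Subgroup.commutator_le.2 fun a ha b hb =>
    mul_mem (mul_mem (mul_mem (Subgroup.mem_sup_left ha) (Subgroup.mem_sup_right hb))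
      (inv_mem (Subgroup.mem_sup_left ha))) (inv_mem (Subgroup.mem_sup_right hb))
  have hHH : ⁅H, H⁆ ≤ D := by
    have gen : ∀ z ∈ (eg G s : Set (LinearMap.GeneralLinearGroup k M)) ∪ eg G t,
        ∀ w ∈ (eg G s : Set (LinearMap.GeneralLinearGroup k M)) ∪ eg G t, z * w * z⁻¹ * w⁻¹ ∈ D := by
      rintro z (hz | hz) w (hw | hw)
      · rw [eg_comm hs.1.1 hz hw]; simp [mul_assoc]
      · exact hD ▸ Subgroup.commutator_mem_commutator hz hw
      · have := inv_mem (hD ▸ Subgroup.commutator_mem_commutator hw hz : ⁅w, z⁆ ∈ D)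
        rwa [commutatorElement_inv] at this
      · rw [eg_comm ht.1.1 hz hw]; simp [mul_assoc]
    have fix : ∀ z ∈ H, ∀ {a b : LinearMap.GeneralLinearGroup k M}, a ∈ H → b ∈ H → z * a * z⁻¹ * a⁻¹ ∈ D →
        z * b * z⁻¹ * b⁻¹ ∈ D → z * (a * b) * z⁻¹ * (a * b)⁻¹ ∈ D := by
      intro z _ a b ha _ h1 h2
      have e := hcen _ h2 a ha
      have : z * (a * b) * z⁻¹ * (a * b)⁻¹ = (z * a * z⁻¹ * a⁻¹) * (a * (z * b * z⁻¹ * b⁻¹) * a⁻¹) := by
        simp [mul_assoc]
      rw [this, ← e, mul_inv_cancel_right]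
      exact mul_mem h1 h2
    have hsup : H = Subgroup.closure ((eg G s : Set (LinearMap.GeneralLinearGroup k M)) ∪ eg G t) := by
      rw [Subgroup.closure_union, Subgroup.closure_eq, Subgroup.closure_eq]
    have step : ∀ z ∈ (eg G s : Set (LinearMap.GeneralLinearGroup k M)) ∪ eg G t, ∀ w ∈ H, z * w * z⁻¹ * w⁻¹ ∈ D := by
      intro z hz w hw
      have hzH : z ∈ H := hsup ▸ Subgroup.subset_closure hz
      have : w ∈ H ∧ z * w * z⁻¹ * w⁻¹ ∈ D := by
        rw [hsup] at hw
        induction hw using Subgroup.closure_induction with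
        | mem y hy => exact ⟨hsup ▸ Subgroup.subset_closure hy, gen z hz y hy⟩
        | one => simp [one_mem]
        | mul a b _ _ iha ihb => exact ⟨mul_mem iha.1 ihb.1, fix z hzH iha.1 ihb.1 iha.2 ihb.2⟩
        | inv a _ iha =>
          refine ⟨inv_mem iha.1, ?_⟩
          have e := hcen _ iha.2 a⁻¹ (inv_mem iha.1)
          have : z * a⁻¹ * z⁻¹ * a⁻¹⁻¹ = a⁻¹ * (z * a * z⁻¹ * a⁻¹)⁻¹ * a := by simp [mul_assoc]
          rw [this]
          have e' := hcen _ (inv_mem iha.2) a⁻¹ (inv_mem iha.1)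
          rw [← e', inv_mul_cancel_right]
          exact inv_mem iha.2
      exact this.2
    rw [Subgroup.commutator_le]
    intro z hz w hw
    have hswap : w * z * w⁻¹ * z⁻¹ ∈ D := by
      have : z ∈ H ∧ w * z * w⁻¹ * z⁻¹ ∈ D := by
        rw [hsup] at hz
        induction hz using Subgroup.closure_induction with
        | mem y hy =>
          refine ⟨hsup ▸ Subgroup.subset_closure hy, ?_⟩
          have := inv_mem (step y hy w hw)
          simpa [mul_assoc] using this
        | one => simp [one_mem]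
        | mul a b _ _ iha ihb => exact ⟨mul_mem iha.1 ihb.1, fix w hw iha.1 ihb.1 iha.2 ihb.2⟩
        | inv a _ iha =>
          refine ⟨inv_mem iha.1, ?_⟩
          have : w * a⁻¹ * w⁻¹ * a⁻¹⁻¹ = a⁻¹ * (w * a * w⁻¹ * a⁻¹)⁻¹ * a := by simp [mul_assoc]
          rw [this]
          have e' := hcen _ (inv_mem iha.2) a⁻¹ (inv_mem iha.1)
          rw [← e', inv_mul_cancel_right]
          exact inv_mem iha.2
      exact this.2
    have := inv_mem hswap
    simpa [commutatorElement_def, mul_assoc] using this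
  refine ⟨?_, ?_, ?_⟩
  · intro e
    have : D ≤ ⊥ := by
      rw [← e, ← hD]; exact Subgroup.commutator_mono le_sup_left le_sup_right
    exact eg_ne_bot hxm.1 hx (le_bot_iff.1 this)
  · rw [eq_bot_iff, Subgroup.commutator_le]
    intro c hc z hz
    rw [Subgroup.mem_bot, commutatorElement_def, hcen c (hHH hc) z hz]
    simp [mul_assoc]
  · obtain ⟨hR, -, hK⟩ := brk_struct hs ht (not_nn_mem hP.two hP.three hn hs ht (mem_self hs.1) (mem_self ht.1))
      (not_nn_mem hP.two hP.three (not_nn_symm hP.two hP.three hn hs ht) ht hs (mem_self ht.1) (mem_self hs.1)) hx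
    set R := LinearMap.range (brk s t) with hRdef
    set K := LinearMap.ker (brk s t) with hKdef
    let J : Submodule k (Module.End k M) :=
      { carrier := {f | LinearMap.range f ≤ K ∧ (∀ m ∈ K, f m ∈ R) ∧ R ≤ LinearMap.ker f}
        add_mem' := by
          rintro f g ⟨a1, a2, a3⟩ ⟨b1, b2, b3⟩
          refine ⟨?_, fun m hm => add_mem (a2 m hm) (b2 m hm), fun m hm => ?_⟩
          · rintro _ ⟨m, rfl⟩; exact add_mem (a1 ⟨m, rfl⟩) (b1 ⟨m, rfl⟩)
          · simp [LinearMap.mem_ker.1 (a3 hm), LinearMap.mem_ker.1 (b3 hm)]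
        zero_mem' := by simp
        smul_mem' := by
          rintro c f ⟨a1, a2, a3⟩
          refine ⟨?_, fun m hm => Submodule.smul_mem _ c (a2 m hm), fun m hm => ?_⟩
          · rintro _ ⟨m, rfl⟩; exact Submodule.smul_mem _ c (a1 ⟨m, rfl⟩)
          · simp [LinearMap.mem_ker.1 (a3 hm)] }
    have hJ : J * J ≤ J := by
      rw [Submodule.mul_le]
      rintro f ⟨a1, a2, a3⟩ g ⟨b1, b2, b3⟩
      refine ⟨fun _ hm => a1 (LinearMap.range_comp_le_range g f hm), fun m hm => ?_, fun m hm => ?_⟩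
      · have : (f * g) m = 0 := LinearMap.mem_ker.1 (a3 (b2 m hm))
        rw [this]; exact zero_mem R
      · show f (g m) = 0
        rw [LinearMap.mem_ker.1 (b3 hm), map_zero]
    have memJ : ∀ {s t : Module.End k M}, s * s = 0 → R = (LinearMap.range s ⊓ LinearMap.ker t) ⊔
        (LinearMap.range t ⊓ LinearMap.ker s) → K = (LinearMap.ker t ⊔ LinearMap.range s) ⊓
        (LinearMap.ker s ⊔ LinearMap.range t) → ∀ a, Mem G s a → t * a * t = 0 → a ∈ J := by
      intro s t hss hR hK a ha hat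
      refine ⟨ha.2.1.trans ?_, fun m hm => ?_, ?_⟩
      · rw [hK]; exact le_inf le_sup_right ((range_le_ker_of_sq hss).trans le_sup_left)
      · rw [hR]
        refine Submodule.mem_sup_left ⟨ha.2.1 ⟨m, rfl⟩, ?_⟩
        rw [hK] at hm
        obtain ⟨-, hm⟩ := hm
        obtain ⟨k1, hk1, k2, ⟨n, rfl⟩, rfl⟩ := Submodule.mem_sup.1 hm
        have e1 : a k1 = 0 := ha.2.2 hk1
        rw [map_add, e1, zero_add]
        exact LinearMap.congr_fun hat n
      · rw [hR]
        exact sup_le ((inf_le_left.trans (range_le_ker_of_sq hss)).trans ha.2.2) (inf_le_right.trans ha.2.2)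
    have hfix : fixedSubmodule D = K := by
      refine le_antisymm ?_ (fun m hm => mem_fixedSubmodule.2 fun g hg => ?_)
      · refine (fixedSubmodule_le (ex_mem_eg hxm.1.1 (mem_self hxm.1))).trans ?_
        rw [ex_val hxm.1.1, add_sub_cancel_left]
      · obtain ⟨y, hy, rfl⟩ := (mem_eg hxm.1.1).1 hg
        rw [ex_val hy.1.1, LinearMap.add_apply, LinearMap.mem_ker.1 (hy.2.2 hm), add_zero]
        rfl
    have hcomm : commutatorSubmodule D = R := by
      refine le_antisymm (commutatorSubmodule_le fun g hg => ?_) ?_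
      · obtain ⟨y, hy, rfl⟩ := (mem_eg hxm.1.1).1 hg
        rw [ex_val hy.1.1, add_sub_cancel_left]; exact hy.2.1
      · refine le_trans ?_ (le_commutatorSubmodule (ex_mem_eg hxm.1.1 (mem_self hxm.1)))
        rw [ex_val hxm.1.1, add_sub_cancel_left]
    have hle : H ≤ congrGroup J hJ := by
      refine sup_le ?_ ?_ <;> intro g hg
      · obtain ⟨a, ha, rfl⟩ := (mem_eg hs.1.1).1 hg
        refine ⟨?_, ?_⟩
        · rw [sub1, ex_val ha.1.1, add_sub_cancel_left]
          exact memJ hs.1.1 hR hK a ha (not_nn_mem hP.two hP.three (not_nn_symm hP.two hP.three hn hs ht) ht hs (mem_self ht.1) ha)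
        · rw [sub1, ex_inv ha.1.1, ex_val ha.neg.1.1, add_sub_cancel_left]
          exact memJ hs.1.1 hR hK _ ha.neg (not_nn_mem hP.two hP.three (not_nn_symm hP.two hP.three hn hs ht) ht hs (mem_self ht.1) ha.neg)
      · obtain ⟨a, ha, rfl⟩ := (mem_eg ht.1.1).1 hg
        refine ⟨?_, ?_⟩
        · rw [sub1, ex_val ha.1.1, add_sub_cancel_left]
          exact memJ ht.1.1 (hR.trans (sup_comm _ _)) (hK.trans (inf_comm _ _)) a ha (not_nn_mem hP.two hP.three hn hs ht (mem_self hs.1) ha)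
        · rw [sub1, ex_inv ha.1.1, ex_val ha.neg.1.1, add_sub_cancel_left]
          exact memJ ht.1.1 (hR.trans (sup_comm _ _)) (hK.trans (inf_comm _ _)) _ ha.neg (not_nn_mem hP.two hP.three hn hs ht (mem_self hs.1) ha.neg)
    intro g hg
    obtain ⟨⟨j1, j2, j3⟩, -⟩ := hle hg
    refine ⟨sup_le (eg_le hs.1.1) (eg_le ht.1.1) hg, ?_, fun m => ?_, fun m hm => ?_, fun m hm => ?_⟩
    · rw [Subgroup.mem_normalizer_iff]
      intro c
      constructor
      · intro hc; rw [← hcen c hc g hg, mul_inv_cancel_right]; exact hc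
      · intro hc
        have e : g⁻¹ * (g * c * g⁻¹) * g = g * c * g⁻¹ := by
          rw [mul_assoc g⁻¹, hcen _ hc g hg, ← mul_assoc, inv_mul_cancel, one_mul]
        have e' : g⁻¹ * (g * c * g⁻¹) * g = c := by simp [mul_assoc]
        rw [← e', e]; exact hc
    · rw [hfix]
      exact j1 ⟨m, rfl⟩
    · rw [hfix] at hm
      rw [hcomm]
      exact j2 m hm
    · rw [hcomm] at hm
      exact sub_eq_zero.1 (LinearMap.mem_ker.1 (j3 hm))

end Cfsg.Agent.H92.QP
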